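import Mathlib
import Cfsg.Agent.Lib.H18.CharPerm

/-!
Sums over fixed points of functions given on the stabilizers are induced, hence generalized
characters (helper45).
-/

set_option autoImplicit false

namespace H45.FixGen

open Cfsg H18.CharBasic H18.CharOrtho H18.CharInd H18.CharPerm

universe v w

variable {H : Type w} [Group H] [Fintype H] {Y : Type v} [Fintype Y] [MulAction H Y]

open Classical in
theorem sum_smul (r : Y) (φ : Y → ℂ) :
    ∑ a : H, φ (a • r) = (Nat.card (MulAction.stabilizer H r) : ℂ) *
      ∑ y : Y, if y ∈ MulAction.orbit H r then φ y else 0 := by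
  have h1 : ∑ a : H, φ (a • r) = ∑ y : Y, ∑ a : H, if a • r = y then φ y else 0 := by
    rw [Finset.sum_comm]
    refine Finset.sum_congr rfl fun a _ => ?_
    simp
  rw [h1, Finset.mul_sum]
  refine Finset.sum_congr rfl fun y _ => ?_
  rw [← Finset.sum_filter, Finset.sum_const, nsmul_eq_mul]
  split_ifs with h
  · congr 2
    rw [← card_smul_fiber r y h, Nat.card_eq_fintype_card, Fintype.card_subtype]
  · rw [mul_zero]
    have : (Finset.univ.filter fun a : H => a • r = y) = ∅ := by
      ext a
      simp only [Finset.mem_filter, Finset.mem_univ, true_and, Finset.notMem_empty, iff_false]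
      intro ha
      exact h ⟨a, ha⟩
    rw [this]
    simp

open Classical in
theorem sum_fixed_orbit (f : H → Y → ℂ)
    (hconj : ∀ g h y, g • y = y → f (h * g * h⁻¹) (h • y) = f g y) (r : Y) (g : H) :
    ∑ y : Y, (if y ∈ MulAction.orbit H r then (if g • y = y then f g y else 0) else 0) =
      indFun (MulAction.stabilizer H r) (fun x => f x r) g := by
  rw [indFun_apply]
  have h1 : ∀ a : H, extendByZero (MulAction.stabilizer H r) (fun x => f x r) (a⁻¹ * g * a) =
      if g • (a • r) = a • r then f g (a • r) else 0 := by
    intro a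
    have h2 : a⁻¹ * g * a ∈ MulAction.stabilizer H r ↔ g • (a • r) = a • r := by
      rw [MulAction.mem_stabilizer_iff, mul_smul, mul_smul, inv_smul_eq_iff]
    by_cases h : a⁻¹ * g * a ∈ MulAction.stabilizer H r
    · rw [ext_mem _ _ h, if_pos (h2.1 h)]
      have h3 := hconj (a⁻¹ * g * a) a r h
      have h4 : a * (a⁻¹ * g * a) * a⁻¹ = g := by group
      rw [h4] at h3
      exact h3.symm
    · rw [ext_notMem _ _ h, if_neg (fun hc => h (h2.2 hc))]
  simp only [h1]
  rw [sum_smul r (fun y => if g • y = y then f g y else 0)]
  have h7 : (Nat.card (MulAction.stabilizer H r) : ℂ) ≠ 0 := by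
    exact_mod_cast (Nat.card_pos (α := MulAction.stabilizer H r)).ne'
  field_simp

open Classical in
/-- The sum over the fixed points of functions given on the stabilizers. -/
theorem isGen_sum_fixed (f : H → Y → ℂ)
    (hconj : ∀ g h y, g • y = y → f (h * g * h⁻¹) (h • y) = f g y)
    (hgen : ∀ y, IsGeneralizedCharacter (MulAction.stabilizer H y) (fun x => f x y)) :
    IsGeneralizedCharacter H (fun g => ∑ y, if g • y = y then f g y else 0) := by
  have hfin : Finite (MulAction.orbitRel.Quotient H Y) := Quotient.finite _
  have := Fintype.ofFinite (MulAction.orbitRel.Quotient H Y)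
  have key : (fun g => ∑ y, if g • y = y then f g y else 0) =
      ∑ ω : MulAction.orbitRel.Quotient H Y,
        indFun (MulAction.stabilizer H (Quotient.out ω)) (fun x => f x (Quotient.out ω)) := by
    ext g
    rw [Finset.sum_apply]
    simp only [← sum_fixed_orbit f hconj]
    rw [Finset.sum_comm]
    refine Finset.sum_congr rfl fun y _ => ?_
    rw [Finset.sum_eq_single (Quotient.mk'' y : MulAction.orbitRel.Quotient H Y)]
    · have h1 : (Quotient.mk'' (Quotient.out (Quotient.mk'' y : MulAction.orbitRel.Quotient H Y)) :
          MulAction.orbitRel.Quotient H Y) = Quotient.mk'' y := Quotient.out_eq _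
      have h2 : y ∈ MulAction.orbit H (Quotient.out (Quotient.mk'' y :
          MulAction.orbitRel.Quotient H Y)) := Quotient.exact h1.symm
      rw [if_pos h2]
    · intro ω _ hω
      rw [if_neg]
      intro hc
      apply hω
      have h1 : (Quotient.mk'' y : MulAction.orbitRel.Quotient H Y) = Quotient.mk'' (Quotient.out ω) :=
        Quotient.sound hc
      rw [h1]
      exact (Quotient.out_eq ω).symm
    · intro h
      exact absurd (Finset.mem_univ _) h
  rw [key]
  exact isGen_sum _ _ fun ω _ => isGen_ind _ (hgen _)

end H45.FixGen
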