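import Mathlib
import Cfsg.Agent.Lib.H45.FixGen
import Cfsg.Agent.Lib.H4.Rational
import Cfsg.Agent.Lib.H4.Integral

/-!
Brauer lift for a group of order prime to the characteristic over a finite field containing the
roots of unity (helper45).
-/

set_option autoImplicit false
set_option linter.unusedSectionVars false

namespace H45.BLCore

open Cfsg H18.CharBasic H18.CharOrtho H18.CharInd
open scoped ComplexConjugate

universe u w

variable {E : Type u} [Field E] [Fintype E] [DecidableEq E] {R : Type w} [Group R] [Fintype R]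
  {n : ℕ}

open Module in
/-- dimension of the eigenspace -/
noncomputable def dd (B : Matrix (Fin n) (Fin n) E) (l : E) : ℕ :=
  finrank E (Module.End.eigenspace (Matrix.toLin' B) l)

theorem card_eigen (B : Matrix (Fin n) (Fin n) E) (l : E) :
    Nat.card {v : Fin n → E // B.mulVec v = l • v} = Fintype.card E ^ dd B l := by
  rw [← Nat.card_eq_fintype_card (α := E), dd, ← Module.natCard_eq_pow_finrank (K := E)]
  refine Nat.card_congr (Equiv.subtypeEquivRight fun v => ?_)
  rw [Module.End.mem_eigenspace_iff, Matrix.toLin'_apply]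

theorem exists_c (s d : ℕ) : ∃ c : ℕ, (1 + s) ^ d = 1 + s * d + s ^ 2 * c := by
  induction d with
  | zero => exact ⟨0, by simp⟩
  | succ d ih =>
    obtain ⟨c, hc⟩ := ih
    exact ⟨d + c + s * c, by rw [pow_succ, hc]; ring⟩

/-- the lift -/
noncomputable def lift (A : R →* Matrix (Fin n) (Fin n) E) (θ : Eˣ →* ℂˣ) (h : R) : ℂ :=
  ∑ l : Eˣ, (θ l : ℂ) * (dd (A h) l : ℂ)

variable (A : R →* Matrix (Fin n) (Fin n) E) (θ : Eˣ →* ℂˣ)

theorem conj_mem (g h : R) (l : E) : dd (A (h * g * h⁻¹)) l = dd (A g) l := by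
  have hQ : 2 ≤ Fintype.card E := Fintype.one_lt_card
  apply Nat.pow_right_injective hQ
  show Fintype.card E ^ _ = Fintype.card E ^ _
  rw [← card_eigen, ← card_eigen]
  have h1 : ∀ (a b : R) (v : Fin n → E), (A a).mulVec ((A b).mulVec v) = (A (a * b)).mulVec v := by
    intro a b v
    rw [Matrix.mulVec_mulVec, map_mul]
  refine Nat.card_congr ⟨fun v => ⟨(A h⁻¹).mulVec v.1, ?_⟩, fun v => ⟨(A h).mulVec v.1, ?_⟩, ?_, ?_⟩
  · rw [h1]
    have h2 : g * h⁻¹ = h⁻¹ * (h * g * h⁻¹) := by group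
    rw [h2, ← h1, v.2, Matrix.mulVec_smul]
  · rw [h1]
    have h2 : h * g * h⁻¹ * h = h * g := by group
    rw [h2, ← h1, v.2, Matrix.mulVec_smul]
  · intro v
    apply Subtype.ext
    show (A h).mulVec ((A h⁻¹).mulVec v.1) = v.1
    rw [h1, mul_inv_cancel, map_one, Matrix.one_mulVec]
  · intro v
    apply Subtype.ext
    show (A h⁻¹).mulVec ((A h).mulVec v.1) = v.1
    rw [h1, inv_mul_cancel, map_one, Matrix.one_mulVec]

theorem isClass_lift : IsClassFunction R (lift A θ) := by
  intro g h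
  unfold lift
  simp only [conj_mem]

/-- the action of the product group on vectors -/
abbrev act : MulAction (Eˣ × R) (Fin n → E) where
  smul x v := (x.1⁻¹ : Eˣ) • (A x.2).mulVec v
  one_smul v := by
    show ((1 : Eˣ)⁻¹ : Eˣ) • (A 1).mulVec v = v
    rw [map_one, Matrix.one_mulVec, inv_one, one_smul]
  mul_smul x y v := by
    show ((x.1 * y.1)⁻¹ : Eˣ) • (A (x.2 * y.2)).mulVec v =
      (x.1⁻¹ : Eˣ) • (A x.2).mulVec ((y.1⁻¹ : Eˣ) • (A y.2).mulVec v)
    rw [map_mul, ← Matrix.mulVec_mulVec, Matrix.mulVec_smul, smul_smul, mul_inv]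

theorem isGen_perm : IsGeneralizedCharacter (Eˣ × R)
    (fun x => ((Fintype.card E ^ dd (A x.2) (x.1 : E) : ℕ) : ℂ)) := by
  classical
  let _ : MulAction (Eˣ × R) (Fin n → E) := act A
  have h := H45.FixGen.isGen_sum_fixed (H := Eˣ × R) (Y := Fin n → E) (fun _ _ => 1)
    (fun _ _ _ _ => rfl) (fun _ => isGen_one)
  convert h using 2 with x
  rw [← card_eigen, Nat.card_eq_fintype_card, Fintype.card_subtype]
  have h2 := Finset.sum_boole (R := ℂ) (p := fun y : Fin n → E => x • y = y)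
    (s := Finset.univ)
  refine Eq.trans ?_ (h2.symm.trans ?_)
  swap
  · refine Finset.sum_congr rfl fun y _ => ?_
    split_ifs <;> rfl
  congr 2
  ext v
  simp only [Finset.mem_filter, Finset.mem_univ, true_and]
  have h1 : x • v = (x.1⁻¹ : Eˣ) • (A x.2).mulVec v := rfl
  rw [h1, inv_smul_eq_iff]
  rfl

omit [Fintype R] in
theorem hom_conj_inv (l : Eˣ) : conj ((θ l : ℂ)) = ((θ l⁻¹ : ℂˣ) : ℂ) :=
  (hom_inv_eq_conj θ l).symm

theorem isInt_inner (χ : R → ℂ) (hχ : IsIrrCharacter R χ) (hdvd : Fintype.card R ∣ Fintype.card E - 1) :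
    IsIntegral ℤ (classInner (lift A θ) χ) := by
  classical
  set Q := Fintype.card E with hQdef
  have hQ2 : 2 ≤ Q := Fintype.one_lt_card
  obtain ⟨r, hr⟩ := hdvd
  -- the character of the product group
  have hα : IsCharacter (Eˣ × R) (fun x => ((θ x.1⁻¹ : ℂˣ) : ℂ) * χ x.2) := by
    have h1 : IsCharacter Eˣ (fun l => ((θ l⁻¹ : ℂˣ) : ℂ)) := by
      have := isCharacter_conj (isCharacter_of_isIrr (isIrrCharacter_of_hom θ))
      convert this using 2 with l
      exact (hom_conj_inv θ l).symm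
    have h2 := isCharacter_comp (MonoidHom.fst Eˣ R) h1
    have h3 := isCharacter_comp (MonoidHom.snd Eˣ R) (isCharacter_of_isIrr hχ)
    exact isCharacter_mul h2 h3
  obtain ⟨m, hm⟩ := inner_gen_intCast (isGen_perm A) (isGen_of_isCharacter hα)
  -- the multiplicities
  choose c hc using fun (h : R) (l : Eˣ) => exists_c (Q - 1) (dd (A h) l)
  have hcardU : Fintype.card Eˣ = Q - 1 := Fintype.card_units E
  set s : ℂ := ((Q - 1 : ℕ) : ℂ) with hs
  have hs0 : s ≠ 0 := by
    rw [hs]
    have : Q - 1 ≠ 0 := by omega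
    exact_mod_cast this
  have hR0 : (Fintype.card R : ℂ) ≠ 0 := by
    exact_mod_cast Fintype.card_ne_zero
  -- sum of theta
  obtain ⟨ε, hε⟩ : ∃ ε : ℤ, ∑ l : Eˣ, ((θ l : ℂˣ) : ℂ) = s * ε := by
    by_cases h1 : θ = 1
    · refine ⟨1, ?_⟩
      rw [h1]
      simp [hcardU, hs]
    · refine ⟨0, ?_⟩
      have h2 : ((Units.coeHom ℂ).comp θ) ≠ 1 := by
        intro hc
        apply h1
        ext l
        exact DFunLike.congr_fun hc l
      have h3 := sum_hom_units_eq_zero ((Units.coeHom ℂ).comp θ) h2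
      simpa using h3
  let a : R → ℂ := fun h => ∑ l : Eˣ, (θ l : ℂ) * (c h l : ℂ)
  have hint_hom : ∀ l : Eˣ, IsIntegral ℤ ((θ l : ℂˣ) : ℂ) := fun l =>
    char_isIntegral (isCharacter_of_isIrr (isIrrCharacter_of_hom θ)) l
  have ha : ∀ h, IsIntegral ℤ (a h) := by
    intro h
    refine IsIntegral.sum _ fun l _ => ?_
    refine (hint_hom l).mul ?_
    exact_mod_cast isIntegral_algebraMap (R := ℤ) (A := ℂ) (x := (c h l : ℤ))
  have key : ∀ h : R, ∑ l : Eˣ, (((Q ^ dd (A h) (l : E) : ℕ) : ℂ)) * conj (((θ l⁻¹ : ℂˣ) : ℂ) * χ h) =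
      conj (χ h) * (s * (ε + lift A θ h + s * a h)) := by
    intro h
    have h1 : ∀ l : Eˣ, (((Q ^ dd (A h) (l : E) : ℕ) : ℂ)) * conj (((θ l⁻¹ : ℂˣ) : ℂ) * χ h) =
        conj (χ h) * ((θ l : ℂ) + s * ((θ l : ℂ) * (dd (A h) l : ℂ)) + s ^ 2 * ((θ l : ℂ) * (c h l : ℂ))) := by
      intro l
      have h2 : Q ^ dd (A h) (l : E) = 1 + (Q - 1) * dd (A h) l + (Q - 1) ^ 2 * c h l := by
        rw [← hc h l]
        congr 1
        omega
      rw [h2, map_mul, hom_conj_inv, inv_inv, hs]
      push_cast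
      ring
    rw [Finset.sum_congr rfl fun l _ => h1 l, ← Finset.mul_sum, Finset.sum_add_distrib,
      Finset.sum_add_distrib, hε, ← Finset.mul_sum, ← Finset.mul_sum]
    show _ = conj (χ h) * (s * (ε + (∑ l : Eˣ, (θ l : ℂ) * (dd (A h) l : ℂ)) +
      s * ∑ l : Eˣ, (θ l : ℂ) * (c h l : ℂ)))
    ring
  have hm2 : (m : ℂ) = (Fintype.card R : ℂ)⁻¹ * ∑ h : R, conj (χ h) * (ε + lift A θ h + s * a h) := by
    rw [← hm]
    unfold classInner
    rw [Fintype.sum_prod_type_right]
    simp only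
    rw [Finset.sum_congr rfl fun h _ => key h, Nat.card_prod, Nat.card_eq_fintype_card,
      Nat.card_eq_fintype_card, hcardU]
    push_cast
    rw [← hs, mul_inv]
    have h5 : ∑ h : R, conj (χ h) * (s * (ε + lift A θ h + s * a h)) =
        s * ∑ h : R, conj (χ h) * (ε + lift A θ h + s * a h) := by
      rw [Finset.mul_sum]
      exact Finset.sum_congr rfl fun h _ => by ring
    rw [h5]
    field_simp
  have hs2 : s = (Fintype.card R : ℂ) * r := by
    rw [hs, hr]; push_cast; ring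
  have hfin : classInner (lift A θ) χ = m - ε * classInner (fun _ => 1) χ - r * ∑ h : R, conj (χ h) * a h := by
    rw [hm2]
    unfold classInner
    rw [Nat.card_eq_fintype_card]
    have h6 : ∑ h : R, conj (χ h) * (ε + lift A θ h + s * a h) =
        ε * ∑ h : R, 1 * conj (χ h) + ∑ h : R, lift A θ h * conj (χ h) + s * ∑ h : R, conj (χ h) * a h := by
      rw [Finset.mul_sum, Finset.mul_sum, ← Finset.sum_add_distrib, ← Finset.sum_add_distrib]
      exact Finset.sum_congr rfl fun h _ => by ring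
    rw [h6, hs2]
    field_simp
    ring
  rw [hfin]
  have hc1 := isCharacter_of_isIrr hχ
  obtain ⟨k, hk⟩ := inner_gen_intCast (isGen_one (G := R)) (isGen_of_isIrr hχ)
  rw [hk]
  have hZ : ∀ z : ℤ, IsIntegral ℤ (z : ℂ) := fun z => isIntegral_algebraMap (R := ℤ) (A := ℂ) (x := z)
  have hN : ∀ z : ℕ, IsIntegral ℤ (z : ℂ) := fun z => by exact_mod_cast hZ (z : ℤ)
  refine ((hZ m).sub ((hZ ε).mul (hZ k))).sub ((hN r).mul (IsIntegral.sum _ fun h _ => ?_))
  refine IsIntegral.mul ?_ (ha h)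
  exact char_isIntegral (isCharacter_conj hc1) h

omit [Fintype E] [DecidableEq E] [Fintype R] in
theorem eigen_pow {h : R} {l : E} {v : Fin n → E} (hv : (A h).mulVec v = l • v) (j : ℕ) :
    (A (h ^ j)).mulVec v = l ^ j • v := by
  induction j with
  | zero => simp
  | succ j ih =>
    rw [pow_succ, map_mul, ← Matrix.mulVec_mulVec, hv, Matrix.mulVec_smul, ih, smul_smul, pow_succ,
      mul_comm]

theorem pow_mod_one {M : Type*} [Monoid M] {x : M} {N j : ℕ} (hx : x ^ N = 1)
    (hj : j ≡ 1 [MOD N]) : x ^ j = x := by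
  have h1 : x ^ (j % N) = x ^ (1 % N) := by rw [hj]
  have h2 : ∀ i : ℕ, x ^ (i % N) = x ^ i := by
    intro i
    conv_rhs => rw [← Nat.mod_add_div i N, pow_add, pow_mul, hx, one_pow, mul_one]
  rw [h2, h2, pow_one] at h1
  exact h1

theorem exists_inv {k N : ℕ} (hk : k.Coprime N) (hN : N ≠ 0) : ∃ k', k * k' ≡ 1 [MOD N] := by
  obtain ⟨y, hy⟩ := Nat.exists_mul_mod_eq_of_coprime 1 hk hN
  exact ⟨y, hy.2⟩

theorem dd_pow {h : R} {l : E} {k : ℕ} (hk : k.Coprime (Fintype.card R))
    (hl : l ^ Fintype.card R = 1) : dd (A (h ^ k)) (l ^ k) = dd (A h) l := by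
  have hQ : 2 ≤ Fintype.card E := Fintype.one_lt_card
  apply Nat.pow_right_injective hQ
  show Fintype.card E ^ _ = Fintype.card E ^ _
  rw [← card_eigen, ← card_eigen]
  refine Nat.card_congr (Equiv.subtypeEquivRight fun v => ?_)
  constructor
  · intro hv
    obtain ⟨k', hk'⟩ := exists_inv hk Fintype.card_ne_zero
    have h1 := eigen_pow A hv k'
    rw [← pow_mul, ← pow_mul, pow_mod_one (pow_card_eq_one) hk', pow_mod_one hl hk'] at h1
    exact h1
  · intro hv
    exact eigen_pow A hv k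

theorem dd_eq_zero {h : R} {l : E} (hl : l ^ Fintype.card R ≠ 1) : dd (A h) l = 0 := by
  unfold dd
  rw [Submodule.finrank_eq_zero, Submodule.eq_bot_iff]
  intro v hv
  rw [Module.End.mem_eigenspace_iff, Matrix.toLin'_apply] at hv
  have h1 := eigen_pow A hv (Fintype.card R)
  rw [pow_card_eq_one, map_one, Matrix.one_mulVec] at h1
  by_contra hv0
  apply hl
  have h2 : (l ^ Fintype.card R - 1) • v = 0 := by
    rw [sub_smul, one_smul, ← h1, sub_self]
  rcases smul_eq_zero.1 h2 with h3 | h3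
  · exact sub_eq_zero.1 h3
  · exact absurd h3 hv0

theorem lift_eq_sum_filter (h : R) : lift A θ h =
    ∑ l ∈ Finset.univ.filter (fun l : Eˣ => l ^ Fintype.card R = 1), (θ l : ℂ) * (dd (A h) l : ℂ) := by
  unfold lift
  rw [Finset.sum_filter_of_ne]
  intro l _ hl
  by_contra hne
  apply hl
  rw [dd_eq_zero A (l := (l : E))]
  · simp
  · intro hc
    apply hne
    ext
    simpa using hc

theorem map_lift {k : ℕ} (hk : k.Coprime (Fintype.card R)) {σ : ℂ →+* ℂ}
    (hσ : ∀ z : ℂ, z ^ Fintype.card R = 1 → σ z = z ^ k) (h : R) :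
    σ (lift A θ h) = lift A θ (h ^ k) := by
  rw [lift_eq_sum_filter, lift_eq_sum_filter, map_sum]
  obtain ⟨k', hk'⟩ := exists_inv hk Fintype.card_ne_zero
  refine Finset.sum_nbij' (fun l => l ^ k) (fun l => l ^ k') ?_ ?_ ?_ ?_ ?_
  · intro l hl
    simp only [Finset.mem_filter, Finset.mem_univ, true_and] at hl ⊢
    rw [← pow_mul, mul_comm, pow_mul, hl, one_pow]
  · intro l hl
    simp only [Finset.mem_filter, Finset.mem_univ, true_and] at hl ⊢
    rw [← pow_mul, mul_comm, pow_mul, hl, one_pow]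
  · intro l hl
    simp only [Finset.mem_filter, Finset.mem_univ, true_and] at hl
    rw [← pow_mul]
    exact pow_mod_one hl hk'
  · intro l hl
    simp only [Finset.mem_filter, Finset.mem_univ, true_and] at hl
    rw [← pow_mul, mul_comm]
    exact pow_mod_one hl hk'
  · intro l hl
    simp only [Finset.mem_filter, Finset.mem_univ, true_and] at hl
    rw [map_mul, map_natCast, hσ]
    · rw [map_pow, Units.val_pow_eq_pow_val, Units.val_pow_eq_pow_val, dd_pow A hk]
      rw [← Units.val_pow_eq_pow_val, hl, Units.val_one]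
    · rw [← Units.val_pow_eq_pow_val, ← map_pow, hl, map_one, Units.val_one]

theorem isRat_inner (χ : R → ℂ) (hχ : IsIrrCharacter R χ) :
    ∃ q : ℚ, classInner (lift A θ) χ = (q : ℂ) := by
  have hc := isCharacter_of_isIrr hχ
  have hint : IsIntegral ℚ (classInner (lift A θ) χ) := by
    unfold classInner
    have hZ : ∀ x : ℂ, IsIntegral ℤ x → IsIntegral ℚ x := fun x hx => hx.tower_top
    refine IsIntegral.mul ?_ (IsIntegral.sum _ fun g _ => IsIntegral.mul ?_ ?_)
    · have h1 := isIntegral_algebraMap (R := ℚ) (A := ℂ) (x := ((Nat.card R : ℚ))⁻¹)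
      simpa using h1
    · refine IsIntegral.sum _ fun l _ => IsIntegral.mul ?_ ?_
      · exact hZ _ (char_isIntegral (isCharacter_of_isIrr (isIrrCharacter_of_hom θ)) l)
      · have h1 := isIntegral_algebraMap (R := ℚ) (A := ℂ) (x := (dd (A g) (l : E) : ℚ))
        simpa using h1
    · exact hZ _ (char_isIntegral (isCharacter_conj hc) g)
  refine H4.Rational.exists_rat_of_fixed hint fun σ => ?_
  obtain ⟨k, hk, hσ⟩ := H4.Rational.exists_pow_of_ringEquiv (n := Fintype.card R)
    Fintype.card_ne_zero σ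
  unfold classInner
  rw [map_mul, map_inv₀, map_natCast, map_sum]
  congr 1
  have hk2 : (Nat.card R).Coprime k := by rw [Nat.card_eq_fintype_card]; exact hk.symm
  refine Fintype.sum_equiv (powCoprime hk2) _ _ fun g => ?_
  have h1 : (powCoprime hk2) g = g ^ k := rfl
  have h2 : ∀ x : ℂ, σ x = (σ : ℂ →+* ℂ) x := fun _ => rfl
  rw [h1, map_mul, h2, map_lift A θ hk (σ := (σ : ℂ →+* ℂ)) hσ, ← char_inv hc, ← char_inv hc, h2,
    H78.Galois.char_map_eq_pow (n := Fintype.card R) (by rw [Nat.card_eq_fintype_card]) hσ hc,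
    inv_pow]

/-- The lift of a group of order prime to the characteristic, over a field containing enough
roots of unity. -/
theorem isGen_lift (hdvd : Fintype.card R ∣ Fintype.card E - 1) :
    IsGeneralizedCharacter R (lift A θ) := by
  rw [isGen_iff]
  refine ⟨isClass_lift A θ, fun χ hχ => ?_⟩
  obtain ⟨q, hq⟩ := isRat_inner A θ χ hχ
  have h1 := isInt_inner A θ χ hχ hdvd
  rw [hq] at h1 ⊢
  obtain ⟨m, hm⟩ := H4.Integral.exists_int_of_isIntegral_rat h1
  exact ⟨m, by rw [hm]; simp⟩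

end H45.BLCore
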