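import Mathlib

/-!
Functions of pairs (V, g), V a finite vector space and g an endomorphism: inversion over the
lattice of invariant subspaces (helper45).
-/

set_option autoImplicit false

namespace H45.InvRec

universe u

variable {F : Type u} [Field F]

/-- functions of a finite vector space with an endomorphism -/
abbrev Fn (F : Type u) [Field F] :=
  ∀ (V : Type u) [AddCommGroup V] [Module F V] [Finite V], (V →ₗ[F] V) → ℂ

/-- invariance under isomorphism -/
def IsoInv (t : Fn F) : Prop :=
  ∀ (V W : Type u) [AddCommGroup V] [Module F V] [Finite V] [AddCommGroup W] [Module F W]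
    [Finite W] (e : V ≃ₗ[F] W) (g : V →ₗ[F] V) (h : W →ₗ[F] W),
    (∀ v, e (g v) = h (e v)) → t V g = t W h

noncomputable instance instFintypeSubmodule {V : Type u} [AddCommGroup V] [Module F V] [Finite V] :
    Fintype (Submodule F V) := Fintype.ofFinite _

open Classical in
/-- the value of `t` on the subspace `W` if it is invariant, `0` otherwise -/
noncomputable def on (t : Fn F) {V : Type u} [AddCommGroup V] [Module F V] [Finite V]
    (g : V →ₗ[F] V) (W : Submodule F V) : ℂ :=
  if h : W ≤ W.comap g then t W (g.restrict h) else 0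

section on

variable {V V' : Type u} [AddCommGroup V] [Module F V] [Finite V] [AddCommGroup V'] [Module F V']
  [Finite V']

theorem on_pos (t : Fn F) {g : V →ₗ[F] V} {W : Submodule F V} (h : W ≤ W.comap g) :
    on t g W = t W (g.restrict h) := by
  unfold on
  rw [dif_pos h]

theorem on_neg (t : Fn F) {g : V →ₗ[F] V} {W : Submodule F V} (h : ¬ W ≤ W.comap g) :
    on t g W = 0 := by
  unfold on
  rw [dif_neg h]

/-- General transport: `W` and `W'` isomorphic compatibly. -/
theorem on_congr {t : Fn F} (ht : IsoInv t) {g : V →ₗ[F] V} {g' : V' →ₗ[F] V'}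
    {W : Submodule F V} {W' : Submodule F V'} (e : W ≃ₗ[F] W')
    (hW : W ≤ W.comap g) (hW' : W' ≤ W'.comap g')
    (he : ∀ w : W, (e ⟨g w, hW w.2⟩ : V') = g' (e w)) : on t g W = on t g' W' := by
  rw [on_pos t hW, on_pos t hW']
  exact ht _ _ e _ _ fun w => Subtype.ext (he w)

theorem on_map {t : Fn F} (ht : IsoInv t) (e : V ≃ₗ[F] V') {g : V →ₗ[F] V} {g' : V' →ₗ[F] V'}
    (he : ∀ v, e (g v) = g' (e v)) (W : Submodule F V) :
    on t g' (W.map (e : V →ₗ[F] V')) = on t g W := by
  by_cases hW : W ≤ W.comap g
  · have hW' : W.map (e : V →ₗ[F] V') ≤ (W.map (e : V →ₗ[F] V')).comap g' := by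
      rintro _ ⟨w, hw, rfl⟩
      exact ⟨g w, hW hw, he w⟩
    symm
    refine on_congr ht (e.submoduleMap W) hW hW' ?_
    intro w
    exact he w
  · rw [on_neg t hW, on_neg]
    intro hW'
    apply hW
    intro w hw
    obtain ⟨x, hx, hx2⟩ := hW' (Submodule.mem_map_of_mem hw)
    have : x = g w := by
      apply e.injective
      rw [he]
      exact hx2
    rw [this] at hx
    exact hx

theorem on_top {t : Fn F} (ht : IsoInv t) (g : V →ₗ[F] V) : on t g ⊤ = t V g := by
  rw [on_pos t (W := ⊤) (fun x _ => (Submodule.mem_top : g x ∈ (⊤ : Submodule F V)))]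
  exact ht _ _ Submodule.topEquiv _ _ fun _ => rfl

/-- the value on a subspace of an invariant subspace -/
theorem on_restrict {t : Fn F} (ht : IsoInv t) {g : V →ₗ[F] V} {S : Submodule F V}
    (hS : S ≤ S.comap g) (W : Submodule F S) :
    on t (g.restrict hS) W = on t g (W.map S.subtype) := by
  by_cases hW : W ≤ W.comap (g.restrict hS)
  · have hW' : W.map S.subtype ≤ (W.map S.subtype).comap g := by
      rintro _ ⟨w, hw, rfl⟩
      exact ⟨g.restrict hS w, hW hw, rfl⟩
    exact on_congr ht (Submodule.equivMapOfInjective S.subtype S.injective_subtype W) hW hW'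
      fun w => rfl
  · rw [on_neg t hW, on_neg]
    intro hW'
    apply hW
    intro w hw
    obtain ⟨x, hx, hx2⟩ := hW' (Submodule.mem_map_of_mem hw)
    have : x = g.restrict hS w := Subtype.ext hx2
    rw [this] at hx
    exact hx

end on

open Classical in
/-- the recursion -/
noncomputable def Jf (t : Fn F) : ℕ → Fn F
  | 0 => fun V _ _ _ g => t V g
  | n + 1 => fun V _ _ _ g => t V g - ∑ W : Submodule F V, if W = ⊤ then 0 else on (Jf t n) g W

theorem Jf_zero (t : Fn F) (V : Type u) [AddCommGroup V] [Module F V] [Finite V]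
    (g : V →ₗ[F] V) : Jf t 0 V g = t V g := rfl

open Classical in
theorem Jf_succ (t : Fn F) (n : ℕ) (V : Type u) [AddCommGroup V] [Module F V] [Finite V]
    (g : V →ₗ[F] V) : Jf t (n + 1) V g =
      t V g - ∑ W : Submodule F V, if W = ⊤ then 0 else on (Jf t n) g W := rfl

theorem isoInv_Jf {t : Fn F} (ht : IsoInv t) (n : ℕ) : IsoInv (Jf t n) := by
  classical
  induction n with
  | zero =>
    intro V W _ _ _ _ _ _ e g h he
    exact ht V W e g h he
  | succ n ih =>
    intro V W _ _ _ _ _ _ e g h he
    rw [Jf_succ, Jf_succ, ht V W e g h he]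
    congr 1
    refine Fintype.sum_equiv (Submodule.orderIsoMapComap e).toEquiv _ _ fun X => ?_
    have h1 : (Submodule.orderIsoMapComap e).toEquiv X = X.map (e : V →ₗ[F] W) := rfl
    rw [h1, on_map ih e he X]
    have h2 : X.map (e : V →ₗ[F] W) = ⊤ ↔ X = ⊤ := by
      rw [← h1]
      exact map_eq_top_iff (Submodule.orderIsoMapComap e)
    simp only [h2]

open Module in
/-- beyond the dimension the fuel does not matter -/
theorem Jf_stable (t : Fn F) (n : ℕ) : ∀ (V : Type u) [AddCommGroup V] [Module F V] [Finite V]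
    (g : V →ₗ[F] V), finrank F V ≤ n → Jf t n V g = Jf t (n + 1) V g := by
  classical
  induction n with
  | zero =>
    intro V _ _ _ g h
    rw [Jf_succ, Jf_zero]
    have hsub : Subsingleton V := (Module.finrank_zero_iff (R := F) (M := V)).1 (by omega)
    have : ∀ W : Submodule F V, (if W = ⊤ then 0 else on (Jf t 0) g W) = 0 := by
      intro W
      rw [if_pos (Subsingleton.elim _ _)]
    simp [this]
  | succ n ih =>
    intro V _ _ _ g h
    rw [Jf_succ, Jf_succ t (n + 1)]
    congr 1
    refine Finset.sum_congr rfl fun W _ => ?_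
    split_ifs with hW
    · rfl
    · by_cases hg : W ≤ W.comap g
      · rw [on_pos _ hg, on_pos _ hg]
        apply ih
        have := Submodule.finrank_lt hW
        omega
      · rw [on_neg _ hg, on_neg _ hg]

open Module in
theorem Jf_stable' (t : Fn F) {n m : ℕ} (V : Type u) [AddCommGroup V] [Module F V] [Finite V]
    (g : V →ₗ[F] V) (h : finrank F V ≤ n) (hnm : n ≤ m) : Jf t n V g = Jf t m V g := by
  induction m, hnm using Nat.le_induction with
  | base => rfl
  | succ m hm ih => rw [ih, Jf_stable t m V g (by omega)]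

open Module in
/-- the inverse transform -/
noncomputable def J (t : Fn F) : Fn F := fun V _ _ _ g => Jf t (finrank F V) V g

open Module in
theorem J_eq (t : Fn F) (n : ℕ) (V : Type u) [AddCommGroup V] [Module F V] [Finite V]
    (g : V →ₗ[F] V) (h : finrank F V ≤ n) : J t V g = Jf t n V g :=
  Jf_stable' t V g le_rfl h

open Module in
theorem isoInv_J {t : Fn F} (ht : IsoInv t) : IsoInv (J t) := by
  intro V W _ _ _ _ _ _ e g h he
  rw [J_eq t (finrank F V) V g le_rfl, J_eq t (finrank F V) W h (by rw [e.finrank_eq])]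
  exact isoInv_Jf ht _ V W e g h he

open Module in
open Classical in
theorem J_rec {t : Fn F} (V : Type u) [AddCommGroup V] [Module F V] [Finite V]
    (g : V →ₗ[F] V) : J t V g = t V g - ∑ W : Submodule F V, if W = ⊤ then 0 else on (J t) g W := by
  rw [J_eq t (finrank F V + 1) V g (by omega), Jf_succ]
  congr 1
  refine Finset.sum_congr rfl fun W _ => ?_
  split_ifs with hW
  · rfl
  · by_cases hg : W ≤ W.comap g
    · rw [on_pos _ hg, on_pos _ hg, J_eq t (finrank F V) W _ (Submodule.finrank_le W)]
    · rw [on_neg _ hg, on_neg _ hg]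

open Classical in
/-- the inversion formula -/
theorem sum_on_J {t : Fn F} (ht : IsoInv t) {V : Type u} [AddCommGroup V] [Module F V] [Finite V]
    (g : V →ₗ[F] V) : ∑ W : Submodule F V, on (J t) g W = t V g := by
  have h1 := J_rec (t := t) V g
  have h2 : ∑ W : Submodule F V, on (J t) g W = on (J t) g ⊤ +
      ∑ W : Submodule F V, if W = ⊤ then 0 else on (J t) g W := by
    have h3 : ∀ W : Submodule F V, on (J t) g W =
        (if W = ⊤ then on (J t) g W else 0) + (if W = ⊤ then 0 else on (J t) g W) := by
      intro W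
      split_ifs <;> simp
    rw [Finset.sum_congr rfl fun W _ => h3 W, Finset.sum_add_distrib, Finset.sum_ite_eq']
    simp
  rw [h2, on_top (isoInv_J ht), h1]
  ring

open Module in
theorem J_of_finrank_zero {t : Fn F} {V : Type u} [AddCommGroup V] [Module F V] [Finite V]
    (g : V →ₗ[F] V) (h : finrank F V = 0) : J t V g = t V g := by
  unfold J
  rw [h, Jf_zero]

end H45.InvRec
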