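import Mathlib
import Cfsg.Agent.Lib.H45.InvRec
import Cfsg.Agent.Lib.H45.FixGen

/-!
The inverse transform of a generalized character valued function is one (helper45).
-/

set_option autoImplicit false

namespace H45.InvRec

open Cfsg H18.CharBasic H18.CharOrtho

universe u w

variable {F : Type u} [Field F]

open Module in
/-- `t` restricts to generalized characters along all representations of dimension at most `N` -/
def GenLE (t : Fn F) (N : ℕ) : Prop :=
  ∀ (H : Type w) [Group H] [Fintype H] (V : Type u) [AddCommGroup V] [Module F V] [Finite V]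
    (ρ : H →* (V →ₗ[F] V)), finrank F V ≤ N → IsGeneralizedCharacter H (fun h => t V (ρ h))

section act

variable {H : Type w} [Group H] {V : Type u} [AddCommGroup V] [Module F V]
  (ρ : H →* (V →ₗ[F] V))

theorem rho_inv_apply (h : H) (v : V) : ρ h⁻¹ (ρ h v) = v := by
  rw [← Module.End.mul_apply, ← map_mul, inv_mul_cancel, map_one, Module.End.one_apply]

theorem rho_apply_inv (h : H) (v : V) : ρ h (ρ h⁻¹ v) = v := by
  rw [← Module.End.mul_apply, ← map_mul, mul_inv_cancel, map_one, Module.End.one_apply]

/-- the linear equivalence given by a group element -/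
noncomputable def rhoEquiv (h : H) : V ≃ₗ[F] V :=
  LinearEquiv.ofLinearMap (ρ h) (ρ h⁻¹) (LinearMap.ext fun v => rho_apply_inv ρ h v)
    (LinearMap.ext fun v => rho_inv_apply ρ h v)

theorem rhoEquiv_coe (h : H) : (rhoEquiv ρ h : V →ₗ[F] V) = ρ h := rfl

/-- the action on subspaces -/
abbrev actSub : MulAction H (Submodule F V) where
  smul h W := W.map (ρ h)
  one_smul W := by
    show W.map (ρ 1) = W
    rw [map_one]; exact Submodule.map_id W
  mul_smul a b W := by
    show W.map (ρ (a * b)) = (W.map (ρ b)).map (ρ a)
    rw [map_mul]; exact Submodule.map_comp _ _ W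

theorem map_eq_iff [Finite V] (h : H) (W : Submodule F V) :
    W.map (ρ h) = W ↔ W ≤ W.comap (ρ h) := by
  constructor
  · intro hW
    rw [← Submodule.map_le_iff_le_comap, hW]
  · intro hW
    refine Submodule.eq_of_le_of_finrank_eq (Submodule.map_le_iff_le_comap.2 hW) ?_
    exact LinearEquiv.finrank_map_eq (rhoEquiv ρ h) W

end act

theorem genLE_Jf {t : Fn F} (ht : IsoInv t) {N : ℕ} (hg : GenLE.{u, w} t N) (n : ℕ) :
    GenLE.{u, w} (Jf t n) N := by
  classical
  induction n with
  | zero => exact hg
  | succ n ih =>
    intro H _ _ V _ _ _ ρ hN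
    have h1 : (fun h => Jf t (n + 1) V (ρ h)) = (fun h => t V (ρ h)) -
        (fun h => ∑ W : Submodule F V, if W = ⊤ then 0 else on (Jf t n) (ρ h) W) := by
      ext h
      rw [Jf_succ]
      rfl
    rw [h1]
    refine isGen_sub (hg H V ρ hN) ?_
    let _ : MulAction H (Submodule F V) := actSub ρ
    have hsm : ∀ (h : H) (W : Submodule F V), h • W = W.map (ρ h) := fun _ _ => rfl
    have h2 : (fun h => ∑ W : Submodule F V, if W = ⊤ then 0 else on (Jf t n) (ρ h) W) =
        (fun h : H => ∑ W : Submodule F V, if h • W = W then
          (if W = ⊤ then 0 else on (Jf t n) (ρ h) W) else 0) := by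
      ext h
      refine Finset.sum_congr rfl fun W _ => ?_
      by_cases hW : W ≤ W.comap (ρ h)
      · have h3 : h • W = W := (map_eq_iff ρ h W).2 hW
        rw [if_pos h3]
      · have h3 : ¬ h • W = W := fun hc => hW ((map_eq_iff ρ h W).1 hc)
        rw [if_neg h3, on_neg _ hW]
        simp
    rw [h2]
    have h6 := H45.FixGen.isGen_sum_fixed (H := H) (Y := Submodule F V)
      (fun (h : H) (W : Submodule F V) => (if W = ⊤ then 0 else on (Jf t n) (ρ h) W)) ?_ ?_
    · convert h6
    · intro g h W _
      have h3 : h • W = ⊤ ↔ W = ⊤ := by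
        rw [hsm]
        exact map_eq_top_iff (Submodule.orderIsoMapComap (rhoEquiv ρ h))
      simp only [h3]
      congr 1
      rw [hsm]
      refine on_map (isoInv_Jf ht n) (rhoEquiv ρ h) ?_ W
      intro v
      show ρ h (ρ g v) = ρ (h * g * h⁻¹) (ρ h v)
      rw [map_mul, map_mul, Module.End.mul_apply, Module.End.mul_apply, rho_inv_apply]
    · intro W
      by_cases hW : W = ⊤
      · simp only [if_pos hW]
        exact isGen_zero
      · simp only [if_neg hW]
        have hst : ∀ x : MulAction.stabilizer H W, W ≤ W.comap (ρ x) := fun x =>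
          (map_eq_iff ρ (x : H) W).1 x.2
        let σ : MulAction.stabilizer H W →* (W →ₗ[F] W) :=
          { toFun := fun x => (ρ x).restrict (hst x)
            map_one' := by
              ext w
              show ρ ((1 : MulAction.stabilizer H W) : H) w = w
              simp
            map_mul' := by
              intro x y
              ext w
              show ρ ((x * y : MulAction.stabilizer H W) : H) w = ρ x (ρ y w)
              rw [Subgroup.coe_mul, map_mul]
              rfl }
        have h4 := ih (MulAction.stabilizer H W) W σ ((Submodule.finrank_le W).trans hN)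
        have h5 : (fun x : MulAction.stabilizer H W => on (Jf t n) (ρ x) W) =
            fun x => Jf t n W (σ x) := by
          ext x
          rw [on_pos _ (hst x)]
          rfl
        rw [h5]
        exact h4

theorem genLE_J {t : Fn F} (ht : IsoInv t) {N : ℕ} (hg : GenLE.{u, w} t N) :
    GenLE.{u, w} (J t) N := by
  intro H _ _ V _ _ _ ρ hN
  have h := genLE_Jf ht hg N H V ρ hN
  have h2 : (fun h => J t V (ρ h)) = (fun h => Jf t N V (ρ h)) := by
    ext h
    rw [J_eq t N V (ρ h) hN]
  rw [h2]
  exact h

end H45.InvRec
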