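import Mathlib
import Cfsg.Agent.Lib.H45.InvRec

/-!
The additive function: sum of a multiplicative character over the eigenvalues (helper45).
-/

set_option autoImplicit false
set_option linter.unusedSectionVars false

namespace H45.TrFn

open H45.InvRec Polynomial Module

universe u

variable {F : Type u} [Field F]

instance finQuot {V : Type u} [AddCommGroup V] [Module F V] [Finite V] (S : Submodule F V) :
    Finite (V ⧸ S) := Finite.of_surjective _ (Submodule.mkQ_surjective S)

section charpoly

variable {V : Type u} [AddCommGroup V] [Module F V] [Finite V]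

/-- the characteristic polynomial is multiplicative -/
theorem charpoly_eq_mul (g : V →ₗ[F] V) (S : Submodule F V) (hS : S ≤ S.comap g) :
    g.charpoly = (g.restrict hS).charpoly * (S.mapQ S g hS).charpoly := by
  classical
  let m := Module.Free.ChooseBasisIndex F S
  let bW : Basis m F S := Module.Free.chooseBasis F S
  let n := Module.Free.ChooseBasisIndex F (V ⧸ S)
  let bQ : Basis n F (V ⧸ S) := Module.Free.chooseBasis F (V ⧸ S)
  let b := Basis.sumQuot bW bQ
  let A : Matrix m m F := LinearMap.toMatrix bW bW (g.restrict hS)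
  let B : Matrix m n F := Matrix.of fun i l ↦
    ((Basis.sumQuot bW bQ).repr (g ((Basis.sumQuot bW bQ) (Sum.inr l)))) (Sum.inl i)
  let D : Matrix n n F := LinearMap.toMatrix bQ bQ (S.mapQ S g hS)
  suffices LinearMap.toMatrix b b g = Matrix.fromBlocks A B 0 D by
    rw [← LinearMap.charpoly_toMatrix g b, this, ← LinearMap.charpoly_toMatrix (g.restrict hS) bW,
      ← LinearMap.charpoly_toMatrix (S.mapQ S g hS) bQ, Matrix.charpoly_fromBlocks_zero₂₁]
  ext u v
  cases u with
  | inl i =>
    cases v with
    | inl k =>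
      simp only [b, Basis.sumQuot_inl, Matrix.fromBlocks_apply₁₁, A, LinearMap.toMatrix_apply]
      apply Basis.sumQuot_repr_inl_of_mem
    | inr l => simp [b, LinearMap.toMatrix_apply, Matrix.fromBlocks_apply₁₂, B]
  | inr j =>
    cases v with
    | inl k =>
      suffices S.mkQ (g (bW k)) = 0 by simp [LinearMap.toMatrix_apply, b, this]
      rw [← LinearMap.mem_ker, Submodule.ker_mkQ]
      exact hS (Submodule.coe_mem (bW k))
    | inr l =>
      simp only [LinearMap.toMatrix_apply, Basis.sumQuot_repr_inr,
        Matrix.fromBlocks_apply₂₂, b, D]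
      rw [← Basis.sumQuot_inr bW bQ l, S.mapQ_apply]
      simp

end charpoly

variable {L : Type} [Field L] [Algebra F L]

/-- value on a polynomial -/
noncomputable def trP (θ : MulChar L ℂ) (f : F[X]) : ℂ := ((f.aroots L).map θ).sum

theorem trP_mul (θ : MulChar L ℂ) {f g : F[X]} (h : f * g ≠ 0) :
    trP θ (f * g) = trP θ f + trP θ g := by
  unfold trP
  rw [aroots_mul h, Multiset.map_add, Multiset.sum_add]

theorem trP_one (θ : MulChar L ℂ) : trP θ (1 : F[X]) = 0 := by
  unfold trP
  simp

theorem trP_pow (θ : MulChar L ℂ) {f : F[X]} (h : f ≠ 0) (m : ℕ) :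
    trP θ (f ^ m) = m * trP θ f := by
  induction m with
  | zero => simp [trP_one]
  | succ m ih =>
    rw [pow_succ, trP_mul θ (mul_ne_zero (pow_ne_zero _ h) h), ih]
    push_cast
    ring

/-- sum of `θ` over the eigenvalues in `L` -/
noncomputable def tr (θ : MulChar L ℂ) : Fn F := fun _ _ _ _ g => trP θ g.charpoly

theorem tr_eq (θ : MulChar L ℂ) {V : Type u} [AddCommGroup V] [Module F V] [Finite V]
    (g : V →ₗ[F] V) : tr θ V g = trP θ g.charpoly := rfl

theorem isoInv_tr (θ : MulChar L ℂ) : IsoInv (F := F) (tr θ) := by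
  intro V W _ _ _ _ _ _ e g h he
  have h1 : e.conj g = h := by
    ext w
    rw [LinearEquiv.conj_apply_apply, he, LinearEquiv.apply_symm_apply]
  rw [tr_eq, tr_eq, ← h1, LinearEquiv.charpoly_conj]

theorem tr_add (θ : MulChar L ℂ) {V : Type u} [AddCommGroup V] [Module F V] [Finite V]
    (g : V →ₗ[F] V) (S : Submodule F V) (hS : S ≤ S.comap g) :
    tr θ V g = tr θ S (g.restrict hS) + tr θ (V ⧸ S) (S.mapQ S g hS) := by
  rw [tr_eq, tr_eq, tr_eq, charpoly_eq_mul g S hS, trP_mul]
  exact mul_ne_zero (LinearMap.charpoly_monic _).ne_zero (LinearMap.charpoly_monic _).ne_zero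

theorem tr_one (θ : MulChar L ℂ) {V : Type u} [AddCommGroup V] [Module F V] [Finite V] :
    tr θ V (1 : V →ₗ[F] V) = finrank F V := by
  have h0 : (X - 1 : F[X]) ≠ 0 := by
    have := X_sub_C_ne_zero (1 : F)
    simpa using this
  rw [tr_eq, LinearMap.charpoly_one, trP_pow θ h0]
  have h1 : trP θ (X - 1 : F[X]) = 1 := by
    unfold trP
    have h2 : (X - 1 : F[X]).aroots L = {1} := by
      have : (X - 1 : F[X]) = X - C 1 := by simp
      rw [this, aroots_X_sub_C, map_one]
    rw [h2]
    simp
  rw [h1, mul_one]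

theorem tr_of_finrank_zero (θ : MulChar L ℂ) {V : Type u} [AddCommGroup V] [Module F V] [Finite V]
    (g : V →ₗ[F] V) (h : finrank F V = 0) : tr θ V g = 0 := by
  have hsub : Subsingleton V := (Module.finrank_zero_iff (R := F) (M := V)).1 h
  have h1 : g = 1 := Subsingleton.elim _ _
  rw [h1, tr_one, h, Nat.cast_zero]

theorem tr_pow_card [Fintype F] (θ : MulChar L ℂ) {V : Type u} [AddCommGroup V] [Module F V]
    [Finite V] (g : V →ₗ[F] V) (j : ℕ) : tr θ V (g ^ (Fintype.card F ^ j)) = tr θ V g := by
  classical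
  induction j with
  | zero => simp
  | succ j ih =>
    rw [← ih, pow_succ, pow_mul, tr_eq, tr_eq]
    congr 1
    set A := g ^ (Fintype.card F ^ j)
    let b := Module.finBasis F V
    rw [← LinearMap.charpoly_toMatrix (A ^ Fintype.card F) b, ← LinearMap.charpoly_toMatrix A b,
      ← LinearMap.toMatrix_pow, FiniteField.Matrix.charpoly_pow_card]

end H45.TrFn
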