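import Mathlib
import Cfsg.Agent.Lib.H45.TrFn
import Cfsg.Agent.Lib.H45.BLCore
import Cfsg.Agent.Lib.H45.JGen
import Cfsg.Agent.Lib.H4.Brauer

/-!
Brauer lift: sums of a multiplicative character over eigenvalues are generalized characters
(helper45).
-/

set_option autoImplicit false
set_option linter.unusedSectionVars false

namespace H45.BrauerLift

open Cfsg H18.CharBasic H18.CharOrtho H18.CharInd
open H45.InvRec H45.TrFn H45.BLCore Polynomial Module

universe u w

variable {F : Type u} [Field F]

/-- multiplicity of an eigenvalue of a matrix of finite order -/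
theorem dd_eq_rootMultiplicity {E : Type} [Field E] {n r : ℕ} (B : Matrix (Fin n) (Fin n) E)
    (hr : (r : E) ≠ 0) (hB : B ^ r = 1) (l : E) : dd B l = B.charpoly.rootMultiplicity l := by
  have h1 : Module.End.IsSemisimple (Matrix.toLin' B) := by
    refine Module.End.isSemisimple_of_squarefree_aeval_eq_zero (p := X ^ r - 1) ?_ ?_
    · exact (X_pow_sub_one_separable_iff.2 hr).squarefree
    · rw [map_sub, map_pow, aeval_X, map_one]
      have h2 : (Matrix.toLin' B) ^ r = Matrix.toLin' (B ^ r) := (Matrix.toLin'_pow B r).symm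
      rw [h2, hB, Matrix.toLin'_one]
      exact sub_self _
  unfold dd
  rw [← h1.isFinitelySemisimple.maxGenEigenspace_eq_eigenspace, LinearMap.finrank_maxGenEigenspace_eq,
    Matrix.charpoly_toLin']

/-- extension of a homomorphism along a field extension -/
theorem exists_extend {L E : Type} [Field L] [Finite E] [Field E] [Algebra L E]
    (θ : Lˣ →* ℂˣ) : ∃ θE : Eˣ →* ℂˣ, ∀ x : Lˣ, θE (Units.map (algebraMap L E).toMonoidHom x) = θ x := by
  let i : Lˣ →* Eˣ := Units.map (algebraMap L E).toMonoidHom
  have hi : Function.Injective i := Units.map_injective (algebraMap L E).injective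
  let e : Lˣ ≃* i.range := MonoidHom.ofInjective hi
  obtain ⟨θE, hθE⟩ := MonoidHom.domRestrict_surjective (G := Eˣ) ℂ i.range
    (θ.comp e.symm.toMonoidHom)
  refine ⟨θE, fun x => ?_⟩
  have h1 := DFunLike.congr_fun hθE (e x)
  have h2 : (θ.comp e.symm.toMonoidHom) (e x) = θ x := by
    show θ (e.symm (e x)) = θ x
    rw [MulEquiv.symm_apply_apply]
  rw [h2] at h1
  exact h1

section core

variable {L : Type} [Field L] [Finite L] [Algebra F L]

/-- for groups of order prime to the characteristic -/
theorem isGen_tr_of_coprime (θ : MulChar L ℂ) {R : Type w} [Group R] [Fintype R]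
    (p : ℕ) [Fact p.Prime] [CharP L p]
    (hp : (Fintype.card R).Coprime p) (V : Type u) [AddCommGroup V] [Module F V] [Finite V]
    (ρ : R →* (V →ₗ[F] V))
    (hsplit : ∀ f : F[X], f.Monic → f.natDegree ≤ finrank F V → (f.map (algebraMap F L)).Splits) :
    IsGeneralizedCharacter R (fun h => tr θ V (ρ h)) := by
  classical
  have hR0 : Fintype.card R ≠ 0 := Fintype.card_ne_zero
  set j := Nat.totient (Fintype.card R) with hj
  have hj0 : j ≠ 0 := (Nat.totient_pos.2 (Nat.pos_of_ne_zero hR0)).ne'
  have : NeZero j := ⟨hj0⟩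
  let E : Type := FiniteField.Extension L p j
  have hcardE : Nat.card E = Nat.card L ^ j := FiniteField.natCard_extension L p j
  have : Fintype E := Fintype.ofFinite E
  have hdvd : Fintype.card R ∣ Fintype.card E - 1 := by
    rw [← Nat.card_eq_fintype_card (α := E), hcardE]
    obtain ⟨k, hk⟩ : ∃ k : ℕ, Nat.card L = p ^ k := by
      have : Fintype L := Fintype.ofFinite L
      obtain ⟨k, -, hk⟩ := FiniteField.card L p
      exact ⟨k, by rw [Nat.card_eq_fintype_card, hk]⟩
    have hco : (Nat.card L).Coprime (Fintype.card R) := by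
      rw [hk]; exact (hp.symm).pow_left k
    have h1 := Nat.ModEq.pow_totient hco
    rw [← hj] at h1
    exact (Nat.modEq_iff_dvd' (Nat.one_le_pow _ _ Nat.card_pos)).1 h1.symm
  let algFE : Algebra F E := ((algebraMap L E).comp (algebraMap F L)).toAlgebra
  have hmapFE : ∀ f : F[X], f.map (algebraMap F E) = (f.map (algebraMap F L)).map (algebraMap L E) := by
    intro f
    rw [Polynomial.map_map]
    rfl
  obtain ⟨θE, hθE⟩ := exists_extend (L := L) (E := E) θ.toUnitHom
  let ΘE : MulChar E ℂ := MulChar.ofUnitHom θE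
  have hΘE : ∀ x : L, ΘE (algebraMap L E x) = θ x := by
    intro x
    by_cases hx : x = 0
    · rw [hx, map_zero, MulChar.map_zero, MulChar.map_zero]
    · have h1 := hθE (Units.mk0 x hx)
      have h2 : algebraMap L E x = ((Units.map (algebraMap L E).toMonoidHom (Units.mk0 x hx) : Eˣ) : E) :=
        rfl
      rw [h2]
      show (MulChar.ofUnitHom θE) _ = _
      rw [MulChar.ofUnitHom_coe, h1, MulChar.coe_toUnitHom]
      rfl
  let b := Module.finBasis F V
  let n := finrank F V
  let A : R →* Matrix (Fin n) (Fin n) E :=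
    ((algebraMap F E).mapMatrix.toMonoidHom.comp
      (LinearMap.toMatrixAlgEquiv b).toRingEquiv.toRingHom.toMonoidHom).comp ρ
  have hA : ∀ h, A h = (LinearMap.toMatrix b b (ρ h)).map (algebraMap F E) := fun _ => rfl
  have hcharp : ∀ h, (A h).charpoly = ((ρ h).charpoly.map (algebraMap F L)).map (algebraMap L E) := by
    intro h
    rw [hA, Matrix.charpoly_map, LinearMap.charpoly_toMatrix, hmapFE]
  have hpE : CharP E p := charP_of_injective_algebraMap (algebraMap L E).injective p
  have hrE : ((Fintype.card R : ℕ) : E) ≠ 0 := by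
    intro hc
    rw [CharP.cast_eq_zero_iff E p] at hc
    have h2 : p ∣ 1 := by
      have := Nat.dvd_gcd hc (dvd_refl p)
      rwa [hp] at this
    exact (Fact.out : p.Prime).one_lt.ne' (Nat.dvd_one.1 h2)
  have hApow : ∀ h, A h ^ Fintype.card R = 1 := by
    intro h
    rw [← map_pow, pow_card_eq_one, map_one]
  have key : (fun h => tr θ V (ρ h)) = lift A θE := by
    ext h
    have hs := hsplit (ρ h).charpoly (LinearMap.charpoly_monic _) (LinearMap.charpoly_natDegree _).le
    have h1 : tr θ V (ρ h) = (((A h).charpoly.roots).map ΘE).sum := by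
      rw [hcharp, hs.roots_map, Multiset.map_map]
      show ((((ρ h).charpoly.map (algebraMap F L)).roots).map θ).sum = _
      congr 1
      refine Multiset.map_congr rfl fun x _ => ?_
      exact (hΘE x).symm
    rw [h1, Finset.sum_multiset_map_count]
    unfold lift
    symm
    refine Eq.trans ?_ (Finset.sum_subset (Finset.subset_univ (A h).charpoly.roots.toFinset) ?_).symm
    · refine Finset.sum_of_injOn (fun l : Eˣ => (l : E)) ?_ ?_ ?_ ?_
      · intro x _ y _ hxy
        exact Units.ext hxy
      · intro x _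
        exact Finset.mem_coe.2 (Finset.mem_univ _)
      · intro y _ hy
        have hy0 : y = 0 := by
          by_contra hne
          apply hy
          exact ⟨Units.mk0 y hne, Finset.mem_coe.2 (Finset.mem_univ _), rfl⟩
        rw [hy0, MulChar.map_zero, smul_zero]
      · intro l _
        rw [Polynomial.count_roots, dd_eq_rootMultiplicity (A h) hrE (hApow h), nsmul_eq_mul, mul_comm]
        congr 1
        exact (MulChar.ofUnitHom_coe θE l).symm
    · intro y _ hy
      rw [Multiset.mem_toFinset] at hy
      rw [Multiset.count_eq_zero_of_notMem hy, zero_smul]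
  rw [key]
  exact isGen_lift A θE hdvd

end core

theorem mul_pow_of_nilpotent {G : Type w} [Group G] [Finite G] [Group.IsNilpotent G] {p a m k : ℕ}
    (hp : p.Prime) (hcard : Nat.card G = p ^ a * m) (hm : m.Coprime p) (hk1 : k ≡ 1 [MOD m])
    (hk0 : p ^ a ∣ k) (x y : G) : (x * y) ^ k = x ^ k * y ^ k := by
  have h0 := ((Group.isNilpotent_of_finite_tfae (G := G)).out 0 4).1 ‹_›
  obtain ⟨e⟩ := h0
  obtain ⟨X, rfl⟩ := e.surjective x
  obtain ⟨Y, rfl⟩ := e.surjective y
  rw [← map_mul, ← map_pow, ← map_pow, ← map_pow, ← map_mul]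
  congr 1
  funext r P
  have hr : (r : ℕ).Prime := Nat.prime_of_mem_primeFactors r.2
  have : Fact (r : ℕ).Prime := ⟨hr⟩
  show (X r P * Y r P) ^ k = X r P ^ k * Y r P ^ k
  obtain ⟨b, hb⟩ := IsPGroup.iff_card.1 P.isPGroup'
  have hdvd : Nat.card P ∣ p ^ a * m := by
    rw [← hcard]; exact Subgroup.card_subgroup_dvd_card _
  have hpow : ∀ z : P, z ^ Nat.card P = 1 := fun z => pow_card_eq_one'
  by_cases hrp : (r : ℕ) = p
  · have h1 : Nat.card P ∣ p ^ a := by
      have hco : (Nat.card P).Coprime m := by
        rw [hb, hrp]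
        exact (Nat.Coprime.pow_left b hm.symm)
      exact hco.dvd_of_dvd_mul_right hdvd
    have h2 : ∀ z : P, z ^ k = 1 := by
      intro z
      obtain ⟨c, hc⟩ := h1.trans hk0
      rw [hc, pow_mul, hpow, one_pow]
    rw [h2, h2, h2, mul_one]
  · have h1 : Nat.card P ∣ m := by
      have hco : (Nat.card P).Coprime (p ^ a) := by
        rw [hb]
        exact Nat.Coprime.pow _ _ ((Nat.coprime_primes hr hp).2 hrp)
      exact hco.dvd_of_dvd_mul_left hdvd
    have h2 : ∀ z : P, z ^ k = z := by
      intro z
      have h3 : z ^ m = 1 := by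
        obtain ⟨c, hc⟩ := h1
        rw [hc, pow_mul, hpow, one_pow]
      have h4 : z ^ (k % m) = z ^ (1 % m) := by rw [hk1]
      have h5 : ∀ i : ℕ, z ^ (i % m) = z ^ i := by
        intro i
        conv_rhs => rw [← Nat.mod_add_div i m, pow_add, pow_mul, h3, one_pow, mul_one]
      rw [h5, h5, pow_one] at h4
      exact h4
    rw [h2, h2, h2]

theorem isGen_comp {G : Type u} {K : Type w} [Group G] [Group K] (f : K →* G) {χ : G → ℂ}
    (h : IsGeneralizedCharacter G χ) : IsGeneralizedCharacter K (fun x => χ (f x)) := by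
  obtain ⟨a, b, ha, hb, rfl⟩ := h
  exact ⟨_, _, isCharacter_comp f ha, isCharacter_comp f hb, rfl⟩

/-- Brauer lift -/
theorem genLE_tr [Fintype F] {L : Type} [Field L] [Finite L] [Algebra F L] (θ : MulChar L ℂ)
    (N : ℕ) (hsplit : ∀ f : F[X], f.Monic → f.natDegree ≤ N → (f.map (algebraMap F L)).Splits) :
    GenLE.{u, w} (tr θ : Fn F) N := by
  intro H _ _ V _ _ _ ρ hN
  classical
  obtain ⟨p, hpF⟩ := CharP.exists F
  have hp : p.Prime := CharP.char_is_prime F p
  have : Fact p.Prime := ⟨hp⟩
  have hpL : CharP L p := charP_of_injective_algebraMap (algebraMap F L).injective p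
  refine H4.Brauer.brauer_characterization _ ?_ ?_
  · intro g h
    refine isoInv_tr θ V V (rhoEquiv ρ h⁻¹) _ _ ?_
    intro v
    show ρ h⁻¹ (ρ (h * g * h⁻¹) v) = ρ g (ρ h⁻¹ v)
    rw [← Module.End.mul_apply, ← Module.End.mul_apply, ← map_mul, ← map_mul]
    congr 2
    group
  · intro E q hq hE
    have hnil : Group.IsNilpotent E := H4.Brauer.isNilpotent_of_isElementary hq hE
    obtain ⟨a, m, hm, hcard⟩ := Nat.exists_eq_pow_mul_and_not_dvd (n := Nat.card E)
      Nat.card_pos.ne' p hp.ne_one
    have hmp : m.Coprime p := (Nat.Coprime.symm ((Nat.Prime.coprime_iff_not_dvd hp).2 hm))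
    have hm0 : m ≠ 0 := by
      rintro rfl
      exact hm (dvd_zero p)
    obtain ⟨f, -, hf⟩ := FiniteField.card F p
    set j := Nat.totient m * (a + 1) with hj
    set k := Fintype.card F ^ j with hk
    have hk1 : k ≡ 1 [MOD m] := by
      have hco : (Fintype.card F).Coprime m := by
        rw [hf]; exact (hmp.symm).pow_left _
      have h1 := (Nat.ModEq.pow_totient hco).pow (a + 1)
      rw [← pow_mul, one_pow] at h1
      exact h1
    have hk0 : p ^ a ∣ k := by
      rw [hk, hf, ← pow_mul]
      apply pow_dvd_pow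
      have h1 : 1 ≤ Nat.totient m := Nat.totient_pos.2 (Nat.pos_of_ne_zero hm0)
      have h2 : 1 ≤ (f : ℕ) := f.2
      calc a ≤ 1 * (1 * (a + 1)) := by omega
        _ ≤ (f : ℕ) * (Nat.totient m * (a + 1)) := Nat.mul_le_mul h2 (Nat.mul_le_mul_right _ h1)
    let φ : E →* E :=
      { toFun := fun x => x ^ k
        map_one' := one_pow _
        map_mul' := fun x y => mul_pow_of_nilpotent hp hcard hmp hk1 hk0 x y }
    let R := φ.range
    have hRm : ∀ y : R, y ^ m = 1 := by
      rintro ⟨_, x, rfl⟩
      apply Subtype.ext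
      show (x ^ k) ^ m = 1
      obtain ⟨c, hc⟩ := hk0
      have h1 : k * m = Nat.card E * c := by rw [hcard, hc]; ring
      rw [← pow_mul, h1, pow_mul, pow_card_eq_one', one_pow]
    have hRp : (Fintype.card R).Coprime p := by
      rw [Nat.coprime_comm, Nat.Prime.coprime_iff_not_dvd hp]
      intro hd
      obtain ⟨y, hy⟩ := exists_prime_orderOf_dvd_card p hd
      apply hm
      rw [← hy]
      exact orderOf_dvd_of_pow_eq_one (hRm y)
    have hgen := isGen_tr_of_coprime θ (R := R) p hRp V ((ρ.comp E.subtype).comp R.subtype)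
      (fun f hf1 hf2 => hsplit f hf1 (hf2.trans hN))
    have h2 := isGen_comp φ.rangeRestrict hgen
    convert h2 using 2 with x
    show tr θ V (ρ x) = tr θ V (ρ ((x ^ k : E) : H))
    rw [Subgroup.coe_pow, map_pow, hk, tr_pow_card]

end H45.BrauerLift
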