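import Cfsg.Agent.Lib.H45.CR1

/-!
# Curtis–Richen theory 2: the span of a weight vector, uniqueness
-/

set_option autoImplicit false
set_option linter.unusedSectionVars false
set_option linter.style.haveILetI false

open H22.RGD H22.Coord

namespace H45.CR

theorem ap_inv {Φ : Type*} (w : Equiv.Perm Φ) (r : Φ) : w (w⁻¹ r) = r := by simp

section opp

variable {G : Type*} [Group G] {Φ I : Type*} [Finite Φ] {C : RootComb Φ I} (S : Sys G C)

/-- the negative root groups other than the simple one -/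
def Vi (i : I) : Subgroup G := ⨆ s : {s // ¬ C.pos s ∧ s ≠ C.neg (C.simple i)}, S.X s

theorem X_le_Vi {r : Φ} {i : I} (h : ¬ C.pos r) (h' : r ≠ C.neg (C.simple i)) : S.X r ≤ Vi S i :=
  le_iSup (fun s : {s // ¬ C.pos s ∧ s ≠ C.neg (C.simple i)} => S.X s) ⟨r, h, h'⟩

theorem Vi_le_V (i : I) : Vi S i ≤ S.V := iSup_le fun s => S.X_le_V s.2.1

theorem refl_neg_of {r : Φ} {i : I} (h : ¬ C.pos r) (h' : r ≠ C.neg (C.simple i)) :
    ¬ C.pos (C.refl i r) ∧ C.refl i r ≠ C.neg (C.simple i) := by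
  have h1 : C.pos (C.neg r) := by rw [C.pos_neg]; exact h
  have h2 : C.neg r ≠ C.simple i := by
    intro h; apply h'; rw [← h, C.neg_neg]
  have h3 := C.refl_pos i _ h1 h2
  rw [C.refl_neg, C.pos_neg] at h3
  refine ⟨h3, fun h4 => h ?_⟩
  have : r = C.simple i := by
    rw [← C.refl_refl i r, h4, C.refl_simple_neg]
  rw [this]
  exact C.simple_pos i

theorem n_stab_Vi (i : I) : cj (S.n i) (Vi S i) = Vi S i := by
  have key : cj (S.n i) (Vi S i) ≤ Vi S i := by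
    unfold Vi
    rw [cj_iSup]
    refine iSup_le fun s => ?_
    rw [S.cj_n]
    obtain ⟨h1, h2⟩ := refl_neg_of (C := C) s.2.1 s.2.2
    exact X_le_Vi S h1 h2
  apply le_antisymm key
  have h2 : cj (S.n i * S.n i) (Vi S i) = Vi S i := S.H_le_stab_iSup _ (S.n_sq i)
  rw [cj_mul] at h2
  calc Vi S i = cj (S.n i) (cj (S.n i) (Vi S i)) := h2.symm
    _ ≤ cj (S.n i) (Vi S i) := cj_mono key

variable [Fintype I] [DecidableEq I] (K : CoordSys C)

include K in
/-- `w₀` maps some simple root to `-α_i`. -/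
theorem exists_w0_simple {w : Equiv.Perm Φ} (hw : w ∈ C.W) (h : ∀ r, C.pos r → ¬ C.pos (w r)) (i : I) :
    ∃ j, w (C.simple j) = C.neg (C.simple i) := by
  by_contra hcon
  push Not at hcon
  have hr : C.refl i ∈ C.W := Subgroup.subset_closure ⟨i, rfl⟩
  have h1 : ∀ j, ¬ C.pos ((C.refl i * w) (C.simple j)) := fun j =>
    (refl_neg_of (h _ (C.simple_pos j)) (hcon j)).1
  have h2 : C.pos (w⁻¹ (C.neg (C.simple i))) := by
    by_contra hn
    have h3 : C.pos (C.neg (w⁻¹ (C.neg (C.simple i)))) := by rw [C.pos_neg]; exact hn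
    have h4 := h _ h3
    rw [C.W_neg hw] at h4
    apply h4
    rw [ap_inv, C.neg_neg]
    exact C.simple_pos i
  have h3 := K.neg_of_simple_neg (C.W.mul_mem hr hw) h1 h2
  apply h3
  rw [Equiv.Perm.mul_apply, ap_inv, C.refl_simple_neg]
  exact C.simple_pos i

include K in
theorem X_neg_stab_Vi (i : I) : S.X (C.neg (C.simple i)) ≤ stabSub (Vi S i) := by
  obtain ⟨w, hw, hwp⟩ := K.exists_longest
  obtain ⟨g, hg⟩ := S.exists_rep' hw
  obtain ⟨j, hj⟩ := exists_w0_simple K hw hwp i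
  have h1 : cj g (S.Ui j) = Vi S i := by
    apply le_antisymm
    · unfold Sys.Ui
      rw [cj_iSup]
      refine iSup_le fun s => ?_
      rw [hg.2.2]
      refine X_le_Vi S (hwp _ s.2.1) ?_
      rw [← hj]
      exact fun h => s.2.2 (w.injective h)
    · refine iSup_le fun s => ?_
      have h2 : C.pos (w⁻¹ s.1) := by
        by_contra hn
        have h3 : C.pos (C.neg (w⁻¹ s.1)) := by rw [C.pos_neg]; exact hn
        have h4 := hwp _ h3
        rw [C.W_neg hw, C.pos_neg, ap_inv, not_not] at h4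
        exact s.2.1 h4
      have h3 : w⁻¹ s.1 ≠ C.simple j := by
        intro h
        apply s.2.2
        have h5 : w (w⁻¹ s.1) = C.neg (C.simple i) := by rw [h, hj]
        rwa [ap_inv] at h5
      have h4 : S.X s.1 = cj g (S.X (w⁻¹ s.1)) := by
        rw [hg.2.2]; simp
      rw [h4]
      exact cj_mono (S.X_le_Ui h2 h3)
  have h2 : S.X (C.neg (C.simple i)) = cj g (S.X (C.simple j)) := by rw [hg.2.2, hj]
  rw [h2, ← h1]
  rintro _ ⟨x, hx, rfl⟩
  show cj (g * x * g⁻¹) (cj g (S.Ui j)) = cj g (S.Ui j)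
  rw [← cj_mul]
  have : g * x * g⁻¹ * g = g * x := by group
  rw [this, cj_mul, mem_stabSub.1 (S.X_simple_le_stab_Ui j hx)]

include K in
theorem mem_V_iff (i : I) {y : G} (hy : y ∈ S.V) :
    ∃ a ∈ Vi S i, ∃ z ∈ S.X (C.neg (C.simple i)), y = a * z := by
  rw [← mem_sup_of_normalizes (X_neg_stab_Vi S K i)]
  have : S.V ≤ Vi S i ⊔ S.X (C.neg (C.simple i)) := by
    refine S.V_le fun r hr => ?_
    by_cases h : r = C.neg (C.simple i)
    · rw [h]; exact le_sup_right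
    · exact (X_le_Vi S hr h).trans le_sup_left
  exact this hy

end opp

section spn

variable {G : Type*} [Group G] [Finite G] {Φ I : Type*} [Finite Φ] {C : RootComb Φ I} (S : Sys G C)
variable {k : Type*} [Field k] {V : Type*} [AddCommGroup V] [Module k V] (ρ : Representation k G V)

/-- the span of the `V`-orbit -/
def Mv (v : V) : Submodule k V := Submodule.span k (Set.range fun y : S.V => ρ (y : G) v)

variable {S ρ}

theorem mem_Mv {y : G} (hy : y ∈ S.V) (v : V) : ρ y v ∈ Mv S ρ v := Submodule.subset_span ⟨⟨y, hy⟩, rfl⟩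

theorem self_mem_Mv (v : V) : v ∈ Mv S ρ v := by
  have := mem_Mv (S := S) (ρ := ρ) S.V.one_mem v
  rwa [rone] at this

theorem Mv_st {v : V} {g : G} (h : ∀ y ∈ S.V, ρ g (ρ y v) ∈ Mv S ρ v) :
    ∀ m ∈ Mv S ρ v, ρ g m ∈ Mv S ρ v := by
  intro m hm
  have h1 : (Mv S ρ v).map (ρ g) ≤ Mv S ρ v := by
    rw [Mv, Submodule.map_span_le]
    rintro _ ⟨y, rfl⟩
    exact h y y.2
  exact h1 ⟨m, hm, rfl⟩

theorem Mv_V {v : V} {y : G} (hy : y ∈ S.V) : ∀ m ∈ Mv S ρ v, ρ y m ∈ Mv S ρ v :=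
  Mv_st fun z hz => by rw [← rmul]; exact mem_Mv (S.V.mul_mem hy hz) v

theorem Mv_H {χ : S.H →* kˣ} {v : V} (hv : Wt S ρ χ v) {h : G} (hh : h ∈ S.H) :
    ∀ m ∈ Mv S ρ v, ρ h m ∈ Mv S ρ v :=
  Mv_st fun z hz => by
    have e : h * z = (h * z * h⁻¹) * h := by group
    rw [← rmul, e, rmul, hv.eig ⟨h, hh⟩, map_smul]
    exact Submodule.smul_mem _ _ (mem_Mv (conj_mem_of_stabSub (S.H_le_stab_V hh) hz) v)

theorem xn_mem {χ : S.H →* kˣ} {v : V} (hv : Wt S ρ χ v) (i : I) (x : S.X (C.simple i)) (hx : x ≠ 1) :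
    ρ (x : G) (ρ (S.n i) v) ∈ Mv S ρ v := by
  obtain ⟨a, ha, b, hb, e⟩ := tau_spec i x hx
  have e1 : x * S.n i = ((S.n i)⁻¹ * a * S.n i) * (tau S i x * (b * (S.n i * S.n i))) := by
    have : x * S.n i = (S.n i)⁻¹ * (S.n i * x * (S.n i)⁻¹) * (S.n i * S.n i) := by group
    rw [this, e]; group
  have e2 : ρ (S.n i * S.n i) v = (χ ⟨S.n i * S.n i, S.n_sq i⟩ : k) • v :=
    hv.eig ⟨S.n i * S.n i, S.n_sq i⟩
  rw [← rmul, e1, rmul ρ ((S.n i)⁻¹ * a * S.n i), rmul ρ (tau S i x : G), rmul ρ b, e2, map_smul,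
    hv.fix b (S.X_le_U (C.simple_pos i) hb), map_smul, hv.eig, map_smul, map_smul]
  refine Submodule.smul_mem _ _ (Submodule.smul_mem _ _ (mem_Mv ?_ v))
  apply S.X_neg_simple_le_V i
  rw [← mem_cj, S.cj_n_neg_simple]
  exact ha

theorem n_mem {χ : S.H →* kˣ} {μ : I → k} {v : V} (hv : WV S ρ χ μ v) (i : I) :
    ρ (S.n i) v ∈ Mv S ρ v := by
  classical
  letI := Fintype.ofFinite (S.X (C.simple i))
  have h1 := hv.eig i
  unfold Ti at h1
  rw [sm_eq, ← Finset.add_sum_erase _ _ (Finset.mem_univ 1)] at h1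
  rw [OneMemClass.coe_one, rone] at h1
  rw [eq_sub_of_add_eq h1]
  refine Submodule.sub_mem _ (Submodule.smul_mem _ _ (self_mem_Mv v)) (Submodule.sum_mem _ fun x hx => ?_)
  exact xn_mem hv.wt i x (Finset.ne_of_mem_erase hx)

variable [Fintype I] [DecidableEq I] (K : CoordSys C)

include K in
theorem Mv_n {χ : S.H →* kˣ} {μ : I → k} {v : V} (hv : WV S ρ χ μ v) (i : I) :
    ∀ m ∈ Mv S ρ v, ρ (S.n i) m ∈ Mv S ρ v := by
  refine Mv_st fun y hy => ?_
  obtain ⟨a, ha, z, hz, rfl⟩ := mem_V_iff S K i hy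
  have e : S.n i * (a * z) = (S.n i * a * (S.n i)⁻¹) * ((S.n i * z * (S.n i)⁻¹) * S.n i) := by group
  rw [← rmul, e, rmul]
  refine Mv_V (Vi_le_V S i (conj_mem_of_stabSub (n_stab_Vi S i) ha)) _ ?_
  have hz' : S.n i * z * (S.n i)⁻¹ ∈ S.X (C.simple i) := by
    rw [← S.cj_n_neg_simple]; exact conj_mem_cj hz
  rw [rmul]
  by_cases h1 : S.n i * z * (S.n i)⁻¹ = 1
  · rw [h1, rone]; exact n_mem hv i
  · exact xn_mem hv.wt i ⟨_, hz'⟩ (fun h => h1 (congrArg Subtype.val h))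

include K in
/-- the span of the `V`-orbit of a weight vector is invariant -/
theorem Mv_inv (hΓ : S.Γ = ⊤) {χ : S.H →* kˣ} {μ : I → k} {v : V} (hv : WV S ρ χ μ v) (g : G) :
    ∀ m ∈ Mv S ρ v, ρ g m ∈ Mv S ρ v := by
  let Q : Subgroup G :=
    { carrier := {g | ∀ m ∈ Mv S ρ v, ρ g m ∈ Mv S ρ v ∧ ρ g⁻¹ m ∈ Mv S ρ v}
      one_mem' := fun m hm => by rw [inv_one, rone]; exact ⟨hm, hm⟩
      mul_mem' := fun {a b} ha hb m hm => by
        rw [mul_inv_rev, rmul, rmul]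
        exact ⟨(ha _ (hb _ hm).1).1, (hb _ (ha _ hm).2).2⟩
      inv_mem' := fun {a} ha m hm => by rw [inv_inv]; exact (ha m hm).symm }
  have hV : S.V ≤ Q := fun y hy m hm => ⟨Mv_V hy m hm, Mv_V (S.V.inv_mem hy) m hm⟩
  have hH : S.H ≤ Q := fun y hy m hm => ⟨Mv_H hv.wt hy m hm, Mv_H hv.wt (S.H.inv_mem hy) m hm⟩
  have hn : ∀ i, S.n i ∈ Q := fun i m hm => by
    refine ⟨Mv_n K hv i m hm, ?_⟩
    have : (S.n i)⁻¹ = (S.n i * S.n i)⁻¹ * S.n i := by group
    rw [this, rmul]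
    exact Mv_H hv.wt (S.H.inv_mem (S.n_sq i)) _ (Mv_n K hv i m hm)
  have hN : S.N ≤ Q := by
    refine sup_le hH ?_
    rw [Subgroup.closure_le]
    rintro _ ⟨i, rfl⟩
    exact hn i
  have hU : S.U ≤ Q := by
    obtain ⟨w, hw, hwp⟩ := K.exists_longest
    obtain ⟨g0, hg0⟩ := S.exists_rep' hw
    intro u hu
    have h1 : g0 * u * g0⁻¹ ∈ S.V := by
      rw [← S.cj_U_eq_V hg0 hwp]; exact conj_mem_cj hu
    have h2 := Q.mul_mem (Q.mul_mem (Q.inv_mem (hN hg0.1)) (hV h1)) (hN hg0.1)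
    simpa [mul_assoc] using h2
  have hQ : S.Γ ≤ Q := sup_le (sup_le hU hH) hN
  rw [hΓ] at hQ
  exact fun m hm => (hQ (Subgroup.mem_top g) m hm).1

theorem dual_ap (g : G) (f : Module.Dual k V) (x : V) : ρ.dual g f x = f (ρ g⁻¹ x) := by
  rw [Representation.dual_apply]; rfl

variable (ρ) in
/-- irreducibility -/
def Irr : Prop := Nontrivial V ∧ ∀ W : Submodule k V, (∀ g, ∀ v ∈ W, ρ g v ∈ W) → W = ⊥ ∨ W = ⊤

theorem Irr.dual [FiniteDimensional k V] (h : Irr ρ) : Irr ρ.dual := by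
  haveI := h.1
  refine ⟨inferInstance, fun W hW => ?_⟩
  have h1 : ∀ g, ∀ v ∈ W.dualCoannihilator, ρ g v ∈ W.dualCoannihilator := by
    intro g v hv
    rw [Submodule.mem_dualCoannihilator] at hv ⊢
    intro f hf
    have h2 := hv _ (hW g⁻¹ f hf)
    rw [dual_ap, inv_inv] at h2
    exact h2
  have h3 := Subspace.dualCoannihilator_dualAnnihilator_eq (W := W)
  rcases h.2 _ h1 with h2 | h2
  · right; rw [← h3, h2, Submodule.dualAnnihilator_bot]
  · left; rw [← h3, h2, Submodule.dualAnnihilator_top]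

include K in
theorem Mv_top (hΓ : S.Γ = ⊤) (hirr : Irr ρ) {χ : S.H →* kˣ} {μ : I → k} {v : V}
    (hv : WV S ρ χ μ v) (h0 : v ≠ 0) : Mv S ρ v = ⊤ := by
  rcases hirr.2 _ (fun g => Mv_inv K hΓ hv g) with h | h
  · exfalso
    apply h0
    have := self_mem_Mv (S := S) (ρ := ρ) v
    rwa [h, Submodule.mem_bot] at this
  · exact h

/-- an invariant functional killing `v` kills `Mv v` -/
theorem fun_Mv {f : V →ₗ[k] k} (hf : ∀ y ∈ S.V, ∀ x, f (ρ y x) = f x) {v : V} (h0 : f v = 0) :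
    ∀ m ∈ Mv S ρ v, f m = 0 := by
  intro m hm
  have h1 : Mv S ρ v ≤ LinearMap.ker f := by
    rw [Mv, Submodule.span_le]
    rintro _ ⟨y, rfl⟩
    rw [SetLike.mem_coe, LinearMap.mem_ker, hf y y.2, h0]
  exact h1 hm

variable {p : ℕ} [CharP k p]

include K in
/-- uniqueness of the `U`-fixed line -/
theorem fix_unique [IsAlgClosed k] [FiniteDimensional k V] (hΓ : S.Γ = ⊤) (hp1 : p.Prime)
    (hp : IsPGroup p S.U) (hH : ∀ a ∈ S.H, ∀ b ∈ S.H, a * b = b * a) (hirr : Irr ρ) {v w : V}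
    (hv : Fix S ρ v) (hw : Fix S ρ w) (h0 : v ≠ 0) : ∃ c : k, w = c • v := by
  haveI := hirr.1
  haveI := hirr.dual.1
  obtain ⟨χ, μ, f, hf0, hf⟩ := exists_WV S ρ.dual hp1 hp hH
  have htop := Mv_top K hΓ hirr.dual hf hf0
  have key : ∀ x : V, (∀ y ∈ S.V, ρ y x = x) → f x = 0 → x = 0 := by
    intro x hx hfx
    rw [← Module.forall_dual_apply_eq_zero_iff k]
    intro f'
    have hf' : f' ∈ Mv S ρ.dual f := by rw [htop]; trivial
    rw [Mv] at hf'
    induction hf' using Submodule.span_induction with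
    | mem f'' h =>
      obtain ⟨y, rfl⟩ := h
      show (ρ.dual (y : G) f) x = 0
      rw [dual_ap, hx _ (S.V.inv_mem y.2), hfx]
    | zero => rfl
    | add a b _ _ ha hb => rw [LinearMap.add_apply, ha, hb, add_zero]
    | smul c a _ ha => rw [LinearMap.smul_apply, ha, smul_zero]
  obtain ⟨w0, hw0, hwp⟩ := K.exists_longest
  obtain ⟨g0, hg0⟩ := S.exists_rep' hw0
  have hfix : ∀ x, Fix S ρ x → ∀ y ∈ S.V, ρ y (ρ g0 x) = ρ g0 x := by
    intro x hx y hy
    rw [← S.cj_U_eq_V hg0 hwp, mem_cj] at hy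
    have : y * g0 = g0 * (g0⁻¹ * y * g0) := by group
    rw [← rmul, this, rmul, hx _ hy]
  have h1 : f (ρ g0 v) ≠ 0 := by
    intro h
    have h2 := key _ (hfix v hv) h
    apply h0
    rw [← rinv_r ρ g0 v, h2, map_zero]
  refine ⟨f (ρ g0 w) / f (ρ g0 v), ?_⟩
  have h2 : ρ g0 w - (f (ρ g0 w) / f (ρ g0 v)) • ρ g0 v = 0 := by
    apply key
    · intro y hy
      rw [map_sub, map_smul, hfix w hw y hy, hfix v hv y hy]
    · rw [map_sub, map_smul, smul_eq_mul, div_mul_cancel₀ _ h1, sub_self]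
  rw [sub_eq_zero] at h2
  have h3 := congrArg (ρ g0⁻¹) h2
  rwa [map_smul, rinv_r, rinv_r] at h3

include K in
/-- an invariant functional not vanishing at the weight vector -/
theorem exists_fun [FiniteDimensional k V] (hΓ : S.Γ = ⊤) (hp1 : p.Prime)
    (hp : IsPGroup p S.U) (hirr : Irr ρ) {χ : S.H →* kˣ} {μ : I → k} {v : V}
    (hv : WV S ρ χ μ v) (h0 : v ≠ 0) :
    ∃ f : V →ₗ[k] k, (∀ y ∈ S.V, ∀ x, f (ρ y x) = f x) ∧ f v ≠ 0 := by
  haveI := hirr.1
  haveI := hirr.dual.1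
  have hpV : IsPGroup p S.V := by
    obtain ⟨w0, hw0, hwp⟩ := K.exists_longest
    obtain ⟨g0, hg0⟩ := S.exists_rep' hw0
    rw [← S.cj_U_eq_V hg0 hwp]
    exact hp.map _
  obtain ⟨f, -, hf0, hf⟩ := exists_fix ρ.dual hp1 hpV (⊤ : Submodule k (Module.Dual k V)) top_ne_bot
    (fun _ _ _ _ => Submodule.mem_top)
  have hinv : ∀ y ∈ S.V, ∀ x, f (ρ y x) = f x := by
    intro y hy x
    have h1 := LinearMap.congr_fun (hf y⁻¹ (S.V.inv_mem hy)) x
    rw [dual_ap, inv_inv] at h1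
    exact h1
  refine ⟨f, hinv, fun h => hf0 ?_⟩
  ext x
  have hx : x ∈ Mv S ρ v := by rw [Mv_top K hΓ hirr hv h0]; trivial
  exact fun_Mv hinv h x hx

variable {V' : Type*} [AddCommGroup V'] [Module k V'] {ρ' : Representation k G V'}

variable (ρ ρ') in
/-- the direct sum -/
def rprod : Representation k G (V × V') where
  toFun g := (ρ g).prodMap (ρ' g)
  map_one' := by
    rw [map_one, map_one]
    ext <;> rfl
  map_mul' a b := by
    rw [map_mul, map_mul]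
    ext <;> rfl

theorem rprod_apply (g : G) (x : V × V') : rprod ρ ρ' g x = (ρ g x.1, ρ' g x.2) := rfl

theorem sm_rprod (A : Subgroup G) (x : V × V') : sm (rprod ρ ρ') A x = (sm ρ A x.1, sm ρ' A x.2) := by
  letI := Fintype.ofFinite A
  rw [sm_eq, sm_eq, sm_eq]
  apply Prod.ext
  · rw [Prod.fst_sum]; rfl
  · rw [Prod.snd_sum]; rfl

include K in
/-- Two irreducible modules with the same weight cannot be separated. -/
theorem weight_inj [FiniteDimensional k V] [FiniteDimensional k V'] [Fintype G] (hΓ : S.Γ = ⊤)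
    (hp1 : p.Prime) (hp : IsPGroup p S.U) (hirr : Irr ρ) (hirr' : Irr ρ') {χ : S.H →* kˣ} {μ : I → k}
    {v : V} {v' : V'} (hv : WV S ρ χ μ v) (h0 : v ≠ 0) (hv' : WV S ρ' χ μ v') (h0' : v' ≠ 0)
    (a : G → k) (ha : ∀ x, ∑ g, a g • ρ g x = x) (ha' : ∀ x, ∑ g, a g • ρ' g x = 0) : False := by
  obtain ⟨f, hf, hfv⟩ := exists_fun K hΓ hp1 hp hirr hv h0
  obtain ⟨f', hf', hfv'⟩ := exists_fun K hΓ hp1 hp hirr' hv' h0'
  have hW : WV S (rprod ρ ρ') χ μ (v, v') := by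
    refine ⟨⟨fun u hu => ?_, fun h => ?_⟩, fun i => ?_⟩
    · rw [rprod_apply]
      exact Prod.ext (hv.wt.fix u hu) (hv'.wt.fix u hu)
    · rw [rprod_apply]
      exact Prod.ext (hv.wt.eig h) (hv'.wt.eig h)
    · unfold Ti
      rw [rprod_apply, sm_rprod]
      exact Prod.ext (hv.eig i) (hv'.eig i)
  have h1 : ∑ g, a g • rprod ρ ρ' g (v, v') ∈ Mv S (rprod ρ ρ') (v, v') :=
    Submodule.sum_mem _ fun g _ => Submodule.smul_mem _ _ (Mv_inv K hΓ hW g _ (self_mem_Mv _))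
  have h2 : ∑ g, a g • rprod ρ ρ' g (v, v') = (v, 0) := by
    apply Prod.ext
    · rw [Prod.fst_sum]; exact ha v
    · rw [Prod.snd_sum]; exact ha' v'
  rw [h2] at h1
  let F : V × V' →ₗ[k] k := (f' v') • (f.comp (LinearMap.fst k V V')) - (f v) • (f'.comp (LinearMap.snd k V V'))
  have hF : ∀ y ∈ S.V, ∀ x, F (rprod ρ ρ' y x) = F x := by
    intro y hy x
    show (f' v') * f (ρ y x.1) - (f v) * f' (ρ' y x.2) = (f' v') * f x.1 - (f v) * f' x.2
    rw [hf y hy, hf' y hy]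
  have h3 := fun_Mv hF (v := (v, v')) (by
    show (f' v') * f v - (f v) * f' v' = 0
    ring) _ h1
  have h4 : (f' v') * f v - (f v) * f' 0 = 0 := h3
  rw [map_zero, mul_zero, sub_zero] at h4
  exact (mul_ne_zero hfv' hfv) h4

end spn

end H45.CR
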