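import Cfsg.Agent.Lib.H45.CR2

/-!
# Curtis–Richen theory 3: the monomial subgroups of subsets of simple roots
-/

set_option autoImplicit false
set_option linter.unusedSectionVars false
set_option linter.style.haveILetI false

open H22.RGD H22.Coord

namespace H45.CR

section mono

variable {G : Type*} [Group G] {Φ I : Type*} [Finite Φ] {C : RootComb Φ I} (S : Sys G C)

/-- the rank one subgroup -/
def Li (i : I) : Subgroup G := S.X (C.simple i) ⊔ S.X (C.neg (C.simple i))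

/-- the rank one torus -/
def Ki (i : I) : Subgroup G := S.H ⊓ Li S i

theorem Ki_le_H (i : I) : Ki S i ≤ S.H := inf_le_left

theorem H_stab_Li (i : I) : S.H ≤ stabSub (Li S i) := by
  intro h hh
  rw [mem_stabSub, Li, cj_sup, S.cj_H _ hh, S.cj_H _ hh]

/-- the subgroup generated by the rank one tori of `J` -/
def KJ (J : Set I) : Subgroup G := ⨆ j : J, Ki S j

theorem Ki_le_KJ {J : Set I} {j : I} (hj : j ∈ J) : Ki S j ≤ KJ S J :=
  le_iSup (fun j : J => Ki S j) ⟨j, hj⟩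

theorem KJ_le_H (J : Set I) : KJ S J ≤ S.H := iSup_le fun j => Ki_le_H S j

variable (hn : ∀ i, S.n i ∈ Li S i)
include hn

theorem comm_Ki (i : I) {h : G} (hh : h ∈ S.H) : S.n i * h * (S.n i)⁻¹ * h⁻¹ ∈ Ki S i := by
  refine ⟨S.H.mul_mem (S.N_conj_H (S.n_mem_N i) hh) (S.H.inv_mem hh), ?_⟩
  have h1 := conj_mem_of_stabSub (H_stab_Li S i hh) ((Li S i).inv_mem (hn i))
  have h2 := (Li S i).mul_mem (hn i) h1
  simpa [mul_assoc] using h2

theorem n_sq_Ki (i : I) : S.n i * S.n i ∈ Ki S i := ⟨S.n_sq i, (Li S i).mul_mem (hn i) (hn i)⟩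

theorem n_conj_KJ {J : Set I} {j : I} (hj : j ∈ J) {h : G} (hh : h ∈ KJ S J) :
    S.n j * h * (S.n j)⁻¹ ∈ KJ S J := by
  have h1 := (KJ S J).mul_mem (Ki_le_KJ S hj (comm_Ki S hn j (KJ_le_H S J hh))) hh
  simpa using h1

theorem n_stab_KJ {J : Set I} {j : I} (hj : j ∈ J) : S.n j ∈ stabSub (KJ S J) := by
  have key : cj (S.n j) (KJ S J) ≤ KJ S J := by
    rintro _ ⟨x, hx, rfl⟩
    exact n_conj_KJ S hn hj hx
  apply le_antisymm key
  intro x hx
  have h2 : (S.n j * S.n j)⁻¹ ∈ KJ S J := (KJ S J).inv_mem (Ki_le_KJ S hj (n_sq_Ki S hn j))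
  have h3 := (KJ S J).mul_mem ((KJ S J).mul_mem h2 (n_conj_KJ S hn hj hx)) ((KJ S J).inv_mem h2)
  rw [mem_cj]
  simpa [mul_assoc] using h3

theorem nw_stab_KJ {J : Set I} {L : List I} (hL : ∀ j ∈ L, j ∈ J) : S.nw L ∈ stabSub (KJ S J) := by
  induction L with
  | nil => exact (stabSub _).one_mem
  | cons i L ih =>
    rw [S.nw_cons]
    exact (stabSub _).mul_mem (n_stab_KJ S hn (hL i List.mem_cons_self))
      (ih fun j hj => hL j (List.mem_cons_of_mem _ hj))

theorem conj_n_Ki (L : List I) (i j : I) (h : C.w L (C.simple j) = C.simple i) :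
    ∃ k ∈ Ki S i, S.nw L * S.n j * (S.nw L)⁻¹ = S.n i * k := by
  obtain ⟨k, hk, e⟩ := S.conj_n_of_map_simple L i j h
  refine ⟨k, ⟨hk, ?_⟩, e⟩
  have h1 : cj (S.nw L) (Li S j) = Li S i := by
    rw [Li, cj_sup, S.cj_nw, S.cj_nw, C.w_neg, h]; rfl
  have h2 : S.nw L * S.n j * (S.nw L)⁻¹ ∈ Li S i := by
    rw [← h1]; exact conj_mem_cj (hn j)
  have h3 : k = (S.n i)⁻¹ * (S.nw L * S.n j * (S.nw L)⁻¹) := by rw [e]; group
  rw [h3]
  exact (Li S i).mul_mem ((Li S i).inv_mem (hn i)) h2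

theorem deletion_J {J : Set I} (L₁ L₂ : List I) (hL : ∀ j ∈ L₂, j ∈ J) (i j : I) (hi : i ∈ J)
    (h : C.w L₂ (C.simple j) = C.simple i) :
    ∃ k ∈ KJ S J, S.nw (L₁ ++ i :: L₂ ++ [j]) = S.nw (L₁ ++ L₂) * k := by
  obtain ⟨k, hk, e⟩ := conj_n_Ki S hn L₂ i j h
  have e2 : S.nw L₂ * S.n j = S.n i * k * S.nw L₂ := by
    rw [← e]; simp [mul_assoc]
  refine ⟨(S.nw L₂)⁻¹ * (S.n i * S.n i * k) * S.nw L₂, ?_, ?_⟩
  · exact inv_conj_mem_of_stabSub (nw_stab_KJ S hn hL)
      (Ki_le_KJ S hi ((Ki S i).mul_mem (n_sq_Ki S hn i) hk))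
  · rw [S.nw_append, S.nw_append, S.nw_cons, S.nw_singleton, S.nw_append]
    simp only [mul_assoc]
    rw [e2]; simp [mul_assoc]

theorem exists_reduced_J {J : Set I} (L : List I) (hL : ∀ j ∈ L, j ∈ J) :
    ∃ M, (∀ j ∈ M, j ∈ J) ∧ M.length = C.len (C.w L) ∧ C.w M = C.w L ∧
      ∃ k ∈ KJ S J, S.nw L = S.nw M * k := by
  induction L using List.reverseRecOn with
  | nil => exact ⟨[], by simp, by simp, rfl, 1, (KJ S J).one_mem, by simp⟩
  | append_singleton L j ih =>
    have hj : j ∈ J := hL j (by simp)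
    obtain ⟨M, hMJ, hM, hw, k, hk, e⟩ := ih fun l hl => hL l (by simp [hl])
    have hL' : S.nw (L ++ [j]) = S.nw (M ++ [j]) * ((S.n j)⁻¹ * k * S.n j) := by
      rw [S.nw_append, e, S.nw_append, S.nw_singleton]; simp [mul_assoc]
    have hk' : (S.n j)⁻¹ * k * S.n j ∈ KJ S J := inv_conj_mem_of_stabSub (n_stab_KJ S hn hj) hk
    have hwL : C.w (L ++ [j]) = C.w (M ++ [j]) := by
      rw [RootComb.w_append, RootComb.w_append, hw]
    by_cases hp : C.pos (C.w M (C.simple j))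
    · refine ⟨M ++ [j], ?_, ?_, hwL.symm, _, hk', hL'⟩
      · intro l hl
        rcases List.mem_append.1 hl with h | h
        · exact hMJ l h
        · rw [List.mem_singleton] at h; rw [h]; exact hj
      rw [List.length_append, hM, hwL, RootComb.w_append, RootComb.w_singleton,
        C.len_mul_refl_of_pos _ j (C.w_neg M) hp, ← hw]
      simp
    · obtain ⟨L₁, i, L₂, rfl, hi⟩ := C.exchange M j hp
      have hiJ : i ∈ J := hMJ i (by simp)
      obtain ⟨k2, hk2, e2⟩ := deletion_J S hn (J := J) L₁ L₂ (fun l hl => hMJ l (by simp [hl])) i j hiJ hi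
      have hrep : C.w (L₁ ++ i :: L₂ ++ [j]) = C.w (L₁ ++ L₂) := by
        have r1 := S.rep_nw (L₁ ++ i :: L₂ ++ [j])
        rw [e2] at r1
        have r2 := (S.rep_nw (L₁ ++ L₂)).mul (S.rep_H (KJ_le_H S J hk2))
        rw [mul_one] at r2
        exact r1.unique r2
      refine ⟨L₁ ++ L₂, ?_, ?_, ?_, k2 * ((S.n j)⁻¹ * k * S.n j), (KJ S J).mul_mem hk2 hk', ?_⟩
      · intro l hl
        rcases List.mem_append.1 hl with h | h
        · exact hMJ l (by simp [h])
        · exact hMJ l (by simp [h])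
      · have h1 := C.len_mul_refl_of_neg _ j (C.w_neg (L₁ ++ i :: L₂)) hp
        rw [hwL, RootComb.w_append, RootComb.w_singleton]
        have h2 : (L₁ ++ i :: L₂).length = (L₁ ++ L₂).length + 1 := by simp; omega
        rw [← hw] at hM
        omega
      · rw [hwL, hrep]
      · rw [hL', e2]; simp [mul_assoc]

/-- every element of `⟨n_j : j ∈ J⟩` is a word times an element of `KJ` -/
theorem exists_word_J {J : Set I} {g : G} (hg : g ∈ Subgroup.closure (S.n '' J)) :
    ∃ L : List I, (∀ j ∈ L, j ∈ J) ∧ ∃ k ∈ KJ S J, g = S.nw L * k := by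
  induction hg using Subgroup.closure_induction with
  | mem x hx =>
    obtain ⟨j, hj, rfl⟩ := hx
    exact ⟨[j], by simpa using hj, 1, (KJ S J).one_mem, by simp [S.nw_singleton]⟩
  | one => exact ⟨[], by simp, 1, (KJ S J).one_mem, by simp⟩
  | mul x y _ _ hx hy =>
    obtain ⟨L, hL, h, hh, rfl⟩ := hx
    obtain ⟨M, hM, k, hk, rfl⟩ := hy
    refine ⟨L ++ M, ?_, (S.nw M)⁻¹ * h * S.nw M * k,
      (KJ S J).mul_mem (inv_conj_mem_of_stabSub (nw_stab_KJ S hn hM) hh) hk, ?_⟩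
    · intro l hl
      rcases List.mem_append.1 hl with h | h
      · exact hL l h
      · exact hM l h
    rw [S.nw_append]; simp [mul_assoc]
  | inv x _ hx =>
    obtain ⟨L, hL, h, hh, rfl⟩ := hx
    have key : ∀ L : List I, (∀ j ∈ L, j ∈ J) → ∃ M : List I, (∀ j ∈ M, j ∈ J) ∧
        ∃ h ∈ KJ S J, (S.nw L)⁻¹ = S.nw M * h := by
      intro L
      induction L with
      | nil => exact fun _ => ⟨[], by simp, 1, (KJ S J).one_mem, by simp⟩
      | cons i L ih =>
        intro hL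
        have hi : i ∈ J := hL i List.mem_cons_self
        obtain ⟨M, hM, h, hh, e⟩ := ih fun j hj => hL j (List.mem_cons_of_mem _ hj)
        refine ⟨M ++ [i], ?_, (S.n i)⁻¹ * h * (S.n i) * (S.n i * S.n i)⁻¹,
          (KJ S J).mul_mem (inv_conj_mem_of_stabSub (n_stab_KJ S hn hi) hh)
            ((KJ S J).inv_mem (Ki_le_KJ S hi (n_sq_Ki S hn i))), ?_⟩
        · intro l hl
          rcases List.mem_append.1 hl with h | h
          · exact hM l h
          · rw [List.mem_singleton] at h; rw [h]; exact hi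
        rw [S.nw_cons, mul_inv_rev, e, S.nw_append, S.nw_singleton]
        simp [mul_assoc]
    obtain ⟨M, hM, k, hk, e⟩ := key L hL
    refine ⟨M, hM, (S.nw M)⁻¹ * h⁻¹ * S.nw M * k,
      (KJ S J).mul_mem (inv_conj_mem_of_stabSub (nw_stab_KJ S hn hM) ((KJ S J).inv_mem hh)) hk, ?_⟩
    rw [mul_inv_rev, e]; simp [mul_assoc]

theorem closure_inf_H {J : Set I} {g : G} (hg : g ∈ Subgroup.closure (S.n '' J)) (hH : g ∈ S.H) :
    g ∈ KJ S J := by
  obtain ⟨L, hL, k, hk, rfl⟩ := exists_word_J S hn hg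
  obtain ⟨M, hM, hlen, hw, k', hk', e⟩ := exists_reduced_J S hn L hL
  have h1 : S.Rep (S.nw L * k) (C.w L) := by
    have := (S.rep_nw L).mul (S.rep_H (KJ_le_H S J hk))
    rwa [mul_one] at this
  have h2 : C.w L = 1 := h1.unique (S.rep_H hH)
  rw [h2] at hlen
  have h3 : M = [] := by
    rw [← List.length_eq_zero_iff, hlen]; simp
  rw [e, h3]
  simpa using (KJ S J).mul_mem hk' hk

variable [Fintype I] [DecidableEq I] (K : CoordSys C)

include K in
theorem pos_of_notMem {J : Set I} {g : G} (hg : g ∈ Subgroup.closure (S.n '' J)) {w : Equiv.Perm Φ}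
    (hw : S.Rep g w) {i : I} (hi : i ∉ J) : C.pos (w⁻¹ (C.simple i)) := by
  obtain ⟨L, hL, k, hk, rfl⟩ := exists_word_J S hn hg
  have h1 : S.Rep (S.nw L * k) (C.w L) := by
    have := (S.rep_nw L).mul (S.rep_H (KJ_le_H S J hk))
    rwa [mul_one] at this
  have h2 := hw.unique h1
  have key : ∀ (M : List I) (r : Φ), (∀ j ∈ M, j ∈ J) → K.co (C.w M r) i = K.co r i := by
    intro M r
    induction M with
    | nil => intro _; rfl
    | cons j M ih =>
      intro hM
      rw [C.w_cons, Equiv.Perm.mul_apply, K.co_refl_ne, ih fun l hl => hM l (List.mem_cons_of_mem _ hl)]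
      rintro rfl
      exact hi (hM i List.mem_cons_self)
  rw [h2, ← C.w_reverse]
  apply K.pos_of_co_pos (j := i)
  rw [key _ _ (fun j hj => hL j (List.mem_reverse.1 hj)), K.co_simple]
  simp

end mono

section chars

variable {G : Type*} [Group G] [Finite G] {Φ I : Type*} [Finite Φ] {C : RootComb Φ I} (S : Sys G C)
variable {k : Type*} [Field k]

/-- `χ` is trivial on the rank one torus `K_i` -/
def TrK (χ : S.H →* kˣ) (i : I) : Prop := ∀ h : S.H, (h : G) ∈ Ki S i → χ h = 1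

theorem triv_KJ {χ : S.H →* kˣ} {J : Set I} (hχ : ∀ j ∈ J, TrK S χ j) (h : S.H) (hh : (h : G) ∈ KJ S J) :
    χ h = 1 := by
  have h1 : KJ S J ≤ χ.ker.map S.H.subtype := by
    refine iSup_le fun j => ?_
    intro x hx
    exact ⟨⟨x, Ki_le_H S j hx⟩, hχ j j.2 ⟨x, Ki_le_H S j hx⟩ hx, rfl⟩
  obtain ⟨y, hy, e⟩ := h1 hh
  have : y = h := Subtype.ext e
  rw [← this]; exact hy

variable (hn : ∀ i, S.n i ∈ Li S i)
include hn

/-- invariance of `χ` under `⟨n_j : j ∈ J⟩` -/
theorem char_inv {χ : S.H →* kˣ} {J : Set I} (hχ : ∀ j ∈ J, TrK S χ j) {g : G}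
    (hg : g ∈ Subgroup.closure (S.n '' J)) (hgN : g ∈ S.N) : χ.comp (cH S hgN) = χ := by
  have hcl : Subgroup.closure (S.n '' J) ≤ S.N := by
    rw [Subgroup.closure_le]; rintro _ ⟨j, _, rfl⟩; exact S.n_mem_N j
  have key : ∀ (g : G) (hg : g ∈ Subgroup.closure (S.n '' J)), χ.comp (cH S (hcl hg)) = χ := by
    intro g hg
    induction hg using Subgroup.closure_induction with
    | mem x hx =>
      obtain ⟨j, hj, rfl⟩ := hx
      ext h
      congr 1
      show χ (cH S _ h) = χ h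
      have h1 := comm_Ki S hn j (S.N_inv_conj_H (S.n_mem_N j) h.2)
      have h2 : h * (cH S (S.n_mem_N j) h)⁻¹ ∈ (χ.ker) := by
        refine hχ j hj _ ?_
        have e : ((h * (cH S (S.n_mem_N j) h)⁻¹ : S.H) : G) =
            S.n j * ((S.n j)⁻¹ * h * S.n j) * (S.n j)⁻¹ * ((S.n j)⁻¹ * h * S.n j)⁻¹ := by
          rw [Subgroup.coe_mul, Subgroup.coe_inv, cH_coe]; group
        rw [e]; exact h1
      rw [MonoidHom.mem_ker, map_mul, map_inv, mul_inv_eq_one] at h2
      exact h2.symm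
    | one => ext h; congr 1; show χ (cH S _ h) = χ h; congr 1; apply Subtype.ext; simp
    | mul x y hx hy ihx ihy =>
      ext h
      congr 1
      have h1 := DFunLike.congr_fun ihx h
      have h2 := DFunLike.congr_fun ihy (cH S (hcl hx) h)
      rw [← h1]
      show χ (cH S _ h) = χ (cH S _ h)
      rw [← show χ (cH S (hcl hy) (cH S (hcl hx) h)) = χ (cH S (hcl hx) h) from h2]
      congr 1
      apply Subtype.ext
      simp [mul_assoc]
    | inv x hx ihx =>
      ext h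
      congr 1
      have h1 : χ (cH S (hcl hx) (cH S (S.N.inv_mem (hcl hx)) h)) =
          χ (cH S (S.N.inv_mem (hcl hx)) h) :=
        DFunLike.congr_fun ihx (cH S (S.N.inv_mem (hcl hx)) h)
      have h2 : cH S (hcl hx) (cH S (S.N.inv_mem (hcl hx)) h) = h := by
        apply Subtype.ext; simp [mul_assoc]
      rw [h2] at h1
      exact h1.symm
  exact key g hg

end chars

end H45.CR
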