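import Cfsg.Agent.Lib.H45.CR3

/-!
# Curtis–Richen theory 4: existence of weight vectors of every admissible weight
-/

set_option autoImplicit false
set_option linter.unusedSectionVars false
set_option linter.style.haveILetI false

open H22.RGD H22.Coord

namespace H45.CR

section freg

variable (G : Type*) [Group G] (k : Type*) [Field k]

/-- left translation on functions -/
def freg : Representation k G (G → k) where
  toFun g := { toFun := fun f x => f (g⁻¹ * x), map_add' := fun _ _ => rfl, map_smul' := fun _ _ => rfl }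
  map_one' := by
    ext f x
    simp
  map_mul' a b := by
    refine LinearMap.ext fun f => ?_
    funext x
    show f ((a * b)⁻¹ * x) = f (b⁻¹ * (a⁻¹ * x))
    rw [mul_inv_rev, mul_assoc]

end freg

section sys

variable {G : Type*} [Group G] [Finite G] {Φ I : Type*} [Finite Φ] {C : RootComb Φ I} (S : Sys G C)
variable {k : Type*} [Field k]

theorem freg_apply (g : G) (f : G → k) (x : G) : freg G k g f x = f (g⁻¹ * x) := rfl

theorem exists_hpart {x : G} (hx : x ∈ S.B) : ∃ h : S.H, ∃ u ∈ S.U, x = u * h := by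
  obtain ⟨u, hu, h, hh, e⟩ := S.mem_B.1 hx
  exact ⟨⟨h, hh⟩, u, hu, e⟩

open Classical in
/-- the basic function -/
noncomputable def eps (χ : S.H →* kˣ) (x : G) : k :=
  if hx : x ∈ S.B then (((χ (exists_hpart S hx).choose)⁻¹ : kˣ) : k) else 0

theorem eps_mul {χ : S.H →* kˣ} {u : G} (hu : u ∈ S.U) (h : S.H) :
    eps S χ (u * h) = (((χ h)⁻¹ : kˣ) : k) := by
  have hx : u * h ∈ S.B := S.B.mul_mem (S.U_le_B hu) (S.H_le_B h.2)
  unfold eps
  rw [dif_pos hx]
  obtain ⟨u', hu', e⟩ := (exists_hpart S hx).choose_spec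
  set h' := (exists_hpart S hx).choose with hh'
  have h1 : u'⁻¹ * u = h' * (h : G)⁻¹ := by
    have : u = u' * h' * (h : G)⁻¹ := by rw [← e]; simp
    rw [this]; simp [mul_assoc]
  have h2 : u'⁻¹ * u = 1 := S.eq_one_of_mem_U_H (S.U.mul_mem (S.U.inv_mem hu') hu)
    (by rw [h1]; exact S.H.mul_mem h'.2 (S.H.inv_mem h.2))
  rw [h2] at h1
  have h3 : h' = h := Subtype.ext (mul_inv_eq_one.1 h1.symm)
  rw [h3]

theorem eps_of_notMem {χ : S.H →* kˣ} {x : G} (hx : x ∉ S.B) : eps S χ x = 0 := by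
  unfold eps
  rw [dif_neg hx]

theorem eps_one {χ : S.H →* kˣ} : eps S χ 1 = 1 := by
  have := eps_mul S (χ := χ) S.U.one_mem 1
  simpa using this

theorem eps_Wt (χ : S.H →* kˣ) : Wt S (freg G k) χ (eps S χ) := by
  refine ⟨fun u hu => ?_, fun h => ?_⟩
  · funext x
    rw [freg_apply]
    by_cases hx : x ∈ S.B
    · obtain ⟨h, v, hv, rfl⟩ := exists_hpart S hx
      rw [← mul_assoc, eps_mul S (S.U.mul_mem (S.U.inv_mem hu) hv), eps_mul S hv]
    · rw [eps_of_notMem S hx, eps_of_notMem S]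
      intro h
      apply hx
      have := S.B.mul_mem (S.U_le_B hu) h
      simpa using this
  · funext x
    rw [freg_apply, Pi.smul_apply, smul_eq_mul]
    by_cases hx : x ∈ S.B
    · obtain ⟨h', v, hv, rfl⟩ := exists_hpart S hx
      have e : (h : G)⁻¹ * (v * h') = ((h : G)⁻¹ * v * h) * ((h⁻¹ * h' : S.H) : G) := by
        rw [Subgroup.coe_mul, Subgroup.coe_inv]; group
      rw [e, eps_mul S (inv_conj_mem_of_stabSub (S.H_le_stab_U h.2) hv), eps_mul S hv, ← Units.val_mul]
      congr 1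
      rw [map_mul, map_inv, mul_inv_rev, inv_inv, mul_comm]
    · rw [eps_of_notMem S hx, eps_of_notMem S, mul_zero]
      intro h'
      apply hx
      have := S.B.mul_mem (S.H_le_B h.2) h'
      simpa using this

/-- values of the translates -/
theorem T_eps_ne {χ : S.H →* kˣ} {w w0 : Equiv.Perm Φ} {g g0 : G} (hg : S.Rep g w) (hg0 : S.Rep g0 w0)
    (h : T S (freg G k) w g (eps S χ) g0 ≠ 0) : w = w0 := by
  classical
  letI := Fintype.ofFinite (S.Um w⁻¹)
  unfold T at h
  rw [sm_eq, Finset.sum_apply] at h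
  obtain ⟨u, -, hu⟩ := Finset.exists_ne_zero_of_sum_ne_zero h
  rw [freg_apply, freg_apply] at hu
  have h1 : g⁻¹ * ((u : G)⁻¹ * g0) ∈ S.B := by
    by_contra hn
    exact hu (eps_of_notMem S hn)
  exact S.double_coset_unique hg hg0 (S.U_le_B (S.Um_le_U _ u.2)) h1 (by group)

theorem T_eps_self {χ : S.H →* kˣ} {w0 : Equiv.Perm Φ} {g0 : G} (hg0 : S.Rep g0 w0) :
    T S (freg G k) w0 g0 (eps S χ) g0 = 1 := by
  classical
  letI := Fintype.ofFinite (S.Um w0⁻¹)
  unfold T
  rw [sm_eq, Finset.sum_apply, Finset.sum_eq_single 1]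
  · rw [OneMemClass.coe_one, rone, freg_apply, inv_mul_cancel, eps_one]
  · intro u _ hu
    rw [freg_apply, freg_apply]
    apply eps_of_notMem
    intro h1
    apply hu
    have h2 : g0⁻¹ * ((u : G)⁻¹ * g0) ∈ S.V := by
      have h3 := S.cj_Um_le_V hg0.inv (conj_mem_cj (g := g0⁻¹) ((S.Um _).inv_mem u.2))
      rw [inv_inv] at h3
      rwa [← mul_assoc]
    have h3 := S.eq_one_of_mem_B_V h1 h2
    have h4 : (u : G)⁻¹ = g0 * (g0⁻¹ * ((u : G)⁻¹ * g0)) * g0⁻¹ := by group
    rw [h3] at h4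
    have h5 : (u : G)⁻¹ = 1 := by rw [h4]; group
    exact Subtype.ext (inv_eq_one.1 h5)
  · intro h; exact absurd (Finset.mem_univ _) h

/-- the coefficient `c_i` for a character trivial on `K_i` -/
theorem ci_triv {p : ℕ} [CharP k p] (hp1 : p.Prime) (hp : IsPGroup p S.U) (hn : ∀ i, S.n i ∈ Li S i)
    {i : I} {χ : S.H →* kˣ} (hχ : TrK S χ i) : ci S i χ = -1 := by
  classical
  letI := Fintype.ofFinite (S.X (C.simple i))
  unfold ci
  have h1 : ∀ x : S.X (C.simple i), (if x = 1 then (0 : k) else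
      ((χ (tau S i x) : k) * (χ ⟨S.n i * S.n i, S.n_sq i⟩ : k))) = 1 - (if x = 1 then 1 else 0) := by
    intro x
    by_cases hx : x = 1
    · rw [if_pos hx, if_pos hx, sub_self]
    · rw [if_neg hx, if_neg hx, sub_zero, hχ ⟨S.n i * S.n i, S.n_sq i⟩ (n_sq_Ki S hn i), hχ _ ?_]
      · simp
      · refine ⟨(tau S i x).2, ?_⟩
        obtain ⟨a, ha, b, hb, e⟩ := tau_spec i x hx
        have e2 : ((tau S i x : S.H) : G) = (S.n i)⁻¹ * (a⁻¹ * (S.n i * x * (S.n i)⁻¹) * b⁻¹) := by
          rw [e]; group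
        rw [e2]
        have hX : S.X (C.simple i) ≤ Li S i := le_sup_left
        exact (Li S i).mul_mem ((Li S i).inv_mem (hn i)) ((Li S i).mul_mem ((Li S i).mul_mem
          ((Li S i).inv_mem (hX ha)) ((Li S i).mul_mem ((Li S i).mul_mem (hn i) (hX x.2))
            ((Li S i).inv_mem (hn i)))) ((Li S i).inv_mem (hX hb)))
  have hcard : (Fintype.card (S.X (C.simple i)) : k) = 0 := by
    haveI := Fact.mk hp1
    have h1 : IsPGroup p (S.X (C.simple i)) := hp.to_le (S.X_le_U (C.simple_pos i))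
    obtain ⟨m, hm⟩ := IsPGroup.iff_card.1 h1
    have h2 : m ≠ 0 := by
      rintro rfl
      rw [pow_zero] at hm
      exact S.nontriv (C.simple i) (Subgroup.card_eq_one.1 hm)
    rw [← Nat.card_eq_fintype_card, hm, Nat.cast_pow, CharP.cast_eq_zero, zero_pow h2]
  have h2 : (∑ x : S.X (C.simple i), (if x = 1 then (0 : k) else
      ((χ (tau S i x) : k) * (χ ⟨S.n i * S.n i, S.n_sq i⟩ : k)))) =
      ∑ x : S.X (C.simple i), ((1 : k) - (if x = 1 then 1 else 0)) :=
    Finset.sum_congr rfl fun x _ => h1 x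
  convert h2 using 1
  rw [Finset.sum_sub_distrib, Finset.sum_ite_eq' Finset.univ (1 : S.X (C.simple i))]
  simp [hcard]

open Classical in
/-- the eigenvalues attached to `(χ, J)` -/
noncomputable def muJ (χ : S.H →* kˣ) (J : Set I) (i : I) : k :=
  if i ∈ J then 0 else if TrK S χ i then -1 else 0

variable [Fintype I] [DecidableEq I] (K : CoordSys C)

include K in
/-- Existence of weight vectors. -/
theorem exists_weight {p : ℕ} [CharP k p] (hp1 : p.Prime) (hp : IsPGroup p S.U)
    (hpH : ¬ p ∣ Nat.card S.H) (hn : ∀ i, S.n i ∈ Li S i)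
    (hc : ∀ (i : I) (χ : S.H →* kˣ), ¬ TrK S χ i → ci S i χ = 0)
    (χ : S.H →* kˣ) (J : Set I) (hJ : ∀ j ∈ J, TrK S χ j) :
    ∃ v : G → k, v ≠ 0 ∧ WV S (freg G k) χ (muJ S χ J) v := by
  classical
  obtain ⟨w0, hw0, hwp⟩ := K.exists_longest
  obtain ⟨g0, hg0⟩ := S.exists_rep' hw0
  set NJ : Subgroup G := Subgroup.closure (S.n '' J) with hNJ
  have hcl : NJ ≤ S.N := by
    rw [hNJ, Subgroup.closure_le]; rintro _ ⟨j, _, rfl⟩; exact S.n_mem_N j
  letI := Fintype.ofFinite NJ
  have hnJ : ∀ j ∈ J, S.n j ∈ NJ := fun j hj => Subgroup.subset_closure ⟨j, hj, rfl⟩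
  have hex : ∀ g : NJ, ∃ w, S.Rep (g : G) w := fun g => S.exists_rep (hcl g.2)
  choose pr hpr using hex
  set χ0 : S.H →* kˣ := χ.comp (cH S (S.N.inv_mem hg0.1)) with hχ0
  set e0 : G → k := eps S χ0 with he0
  have he0W : Wt S (freg G k) χ0 e0 := eps_Wt S χ0
  have hrep : ∀ g : NJ, S.Rep ((g : G) * g0) (pr g * w0) := fun g => (hpr g).mul hg0
  set F : NJ → G → k := fun g => T S (freg G k) (pr g * w0) (g * g0) e0 with hF
  -- characters
  have hchar : ∀ (g : G) (hg : g ∈ NJ) (hN : g * g0 ∈ S.N), χ0.comp (cH S hN) = χ := by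
    intro g hg hN
    rw [← char_inv S hn hJ hg (hcl hg)]
    ext h
    congr 1
    show χ (cH S _ (cH S _ h)) = χ (cH S _ h)
    congr 1
    apply Subtype.ext
    simp only [cH_coe]
    group
  have hWt : ∀ g : NJ, Wt S (freg G k) χ (F g) := by
    intro g
    have h1 := he0W.T (hrep g)
    rwa [hchar g g.2] at h1
  have hneg : ∀ (g : NJ) (i : I), ¬ C.pos ((pr g * w0)⁻¹ (C.simple i)) →
      Ti S (freg G k) i (F g) = (if TrK S χ i then (-1 : k) else 0) • F g := by
    intro g i hi
    obtain ⟨e, h1, h2⟩ := T_desc S (freg G k) (hrep g) i hi e0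
    have h3 := he0W.T h1
    have e' : F g = Ti S (freg G k) i (T S (freg G k) (C.refl i * (pr g * w0)) ((S.n i)⁻¹ * (g * g0)) e0) := e
    rw [e', Ti_Ti hp h3 hp1 i]
    congr 1
    -- the character of `h3`
    have hch : ∀ h : S.H, (χ0.comp (cH S h1.1)) h = χ (cH S (S.N.inv_mem (S.n_mem_N i)) h) := by
      intro h
      rw [← hchar g g.2 (hrep g).1]
      show χ0 (cH S _ h) = χ0 (cH S _ (cH S _ h))
      congr 1
      apply Subtype.ext
      simp only [cH_coe]
      group
    have hKi : ∀ x : G, x ∈ Ki S i → S.n i * x * (S.n i)⁻¹ ∈ Ki S i := fun x hx => by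
      refine ⟨S.N_conj_H (S.n_mem_N i) hx.1, ?_⟩
      exact (Li S i).mul_mem ((Li S i).mul_mem (hn i) hx.2) ((Li S i).inv_mem (hn i))
    have hKi' : ∀ x : G, x ∈ Ki S i → (S.n i)⁻¹ * x * S.n i ∈ Ki S i := fun x hx => by
      refine ⟨S.N_inv_conj_H (S.n_mem_N i) hx.1, ?_⟩
      exact (Li S i).mul_mem ((Li S i).mul_mem ((Li S i).inv_mem (hn i)) hx.2) (hn i)
    by_cases ht : TrK S χ i
    · rw [if_pos ht]
      apply ci_triv S hp1 hp hn
      intro h hh
      rw [hch]
      apply ht
      rw [cH_coe, inv_inv]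
      exact hKi _ hh
    · rw [if_neg ht]
      apply hc
      intro h1'
      apply ht
      intro h hh
      have h4 := h1' (cH S (S.n_mem_N i) h) (by rw [cH_coe]; exact hKi' _ hh)
      rw [hch] at h4
      have h5 : cH S (S.N.inv_mem (S.n_mem_N i)) (cH S (S.n_mem_N i) h) = h := by
        apply Subtype.ext; simp [mul_assoc]
      rwa [h5] at h4
  set v : G → k := ∑ g : NJ, F g with hv
  refine ⟨v, ?_, ⟨⟨?_, ?_⟩, ?_⟩⟩
  · -- nonzero
    intro h0
    have h1 : v g0 = 0 := by rw [h0]; rfl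
    have h2 : ∀ g : NJ, F g g0 = if (g : G) ∈ S.H then 1 else 0 := by
      intro g
      split_ifs with hgH
      · have h3 : pr g = 1 := (hpr g).unique (S.rep_H hgH)
        have h4 : χ ⟨g, hgH⟩ = 1 := triv_KJ S hJ _ (closure_inf_H S hn g.2 hgH)
        have h5 : freg G k ((g : G) * g0) e0 = freg G k g0 e0 := by
          have h6 : (g : G) * g0 = g0 * (cH S hg0.1 ⟨g, hgH⟩ : S.H) := by
            rw [cH_coe]; group
          have h7 : χ0 (cH S hg0.1 ⟨g, hgH⟩) = χ ⟨g, hgH⟩ := by
            show χ (cH S _ (cH S _ _)) = _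
            congr 1
            apply Subtype.ext
            simp only [cH_coe]
            group
          rw [h6, rmul, he0W.eig, h7, h4, Units.val_one, one_smul]
        have h8 : F g = T S (freg G k) w0 g0 e0 := by
          rw [hF]
          show T S (freg G k) (pr g * w0) (g * g0) e0 = _
          rw [h3, one_mul]
          unfold T
          rw [h5]
        rw [h8]
        exact T_eps_self S hg0
      · by_contra hne
        apply hgH
        have h3 : pr g * w0 = w0 := T_eps_ne S (hrep g) hg0 hne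
        have h4 : pr g = 1 := by simpa using h3
        have h5 := hpr g
        rw [h4] at h5
        exact S.mem_H_of_rep_one h5
    rw [hv, Finset.sum_apply, Finset.sum_congr rfl fun g _ => h2 g, Finset.sum_boole] at h1
    have h3 : (Finset.univ.filter fun g : NJ => (g : G) ∈ S.H).card =
        Nat.card (S.H.subgroupOf NJ) := by
      rw [Nat.card_eq_fintype_card, Fintype.card_subtype]
      congr 1
    rw [h3] at h1
    have h4 : p ∣ Nat.card (S.H.subgroupOf NJ) := (CharP.cast_eq_zero_iff k p _).1 h1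
    apply hpH
    refine h4.trans ?_
    have h5 : Nat.card (S.H.subgroupOf NJ) = Nat.card (NJ ⊓ S.H : Subgroup G) := by
      rw [← Subgroup.inf_subgroupOf_left]
      exact Nat.card_congr (Subgroup.subgroupOfEquivOfLe inf_le_left).toEquiv
    rw [h5]
    exact Subgroup.card_dvd_of_le inf_le_right
  · exact Fix.sum _ fun g _ => (hWt g).fix
  · intro h
    rw [hv, map_sum, Finset.smul_sum]
    exact Finset.sum_congr rfl fun g _ => (hWt g).eig h
  · intro i
    rw [hv, Ti_sum]
    by_cases hi : i ∈ J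
    · have hmu : muJ S χ J i = 0 := by unfold muJ; rw [if_pos hi]
      rw [hmu, zero_smul]
      have ht : TrK S χ i := hJ i hi
      -- left multiplication by `n i`
      let σ : NJ ≃ NJ := Equiv.mulLeft (⟨S.n i, hnJ i hi⟩ : NJ)
      have hσ : ∀ g : NJ, ((σ g : NJ) : G) = S.n i * g := fun g => rfl
      have hprσ : ∀ g : NJ, pr (σ g) = C.refl i * pr g := fun g =>
        (hpr (σ g)).unique (by rw [hσ]; exact (S.rep_n i).mul (hpr g))
      have hposσ : ∀ g : NJ, C.pos ((pr (σ g) * w0)⁻¹ (C.simple i)) ↔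
          ¬ C.pos ((pr g * w0)⁻¹ (C.simple i)) := by
        intro g
        rw [hprσ, mul_assoc, mul_inv_rev, C.refl_inv, Equiv.Perm.mul_apply, C.refl_simple,
          C.W_neg (C.W.inv_mem (hrep g).2.1), C.pos_neg]
      have h1 : ∀ g : NJ, Ti S (freg G k) i (F g) =
          (if C.pos ((pr g * w0)⁻¹ (C.simple i)) then F (σ g) else 0) -
            (if C.pos ((pr g * w0)⁻¹ (C.simple i)) then 0 else F g) := by
        intro g
        split_ifs with hp'
        · rw [sub_zero]
          have h2 := T_mul S (freg G k) (hrep g) i hp' e0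
          rw [← h2]
          show T S (freg G k) (C.refl i * (pr g * w0)) (S.n i * (g * g0)) e0 =
            T S (freg G k) (pr (σ g) * w0) ((σ g : G) * g0) e0
          rw [hprσ, hσ, mul_assoc, mul_assoc]
        · rw [hneg g i hp', if_pos ht, zero_sub, neg_smul, one_smul]
      rw [Finset.sum_congr rfl fun g _ => h1 g, Finset.sum_sub_distrib, sub_eq_zero]
      refine Fintype.sum_equiv σ _ _ fun g => ?_
      by_cases hp' : C.pos ((pr g * w0)⁻¹ (C.simple i))
      · rw [if_pos hp', if_neg]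
        rw [hposσ]; exact not_not.2 hp'
      · rw [if_neg hp', if_pos ((hposσ g).2 hp')]
    · have hmu : muJ S χ J i = if TrK S χ i then (-1 : k) else 0 := by
        unfold muJ; rw [if_neg hi]
      rw [hmu, Finset.smul_sum]
      refine Finset.sum_congr rfl fun g _ => hneg g i ?_
      have h1 := pos_of_notMem S hn K g.2 (hpr g) hi
      rw [mul_inv_rev, Equiv.Perm.mul_apply]
      intro h2
      have h3 := hwp _ h2
      rw [ap_inv] at h3
      exact h3 h1

end sys

end H45.CR
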