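import Cfsg.Agent.Lib.H45.CR4
import Cfsg.Agent.Lib.H20.BrT5
import Cfsg.Agent.Lib.H78.Cong

/-!
# Curtis–Richen theory 5: counting simple modules
-/

set_option autoImplicit false
set_option linter.unusedSectionVars false
set_option linter.style.haveILetI false

open H22.RGD H22.Coord H20.BrT

namespace H45.CR

section mat

variable {k : Type*} [Field k] {n : ℕ}

/-- a proper left ideal of a matrix algebra kills a nonzero vector -/
theorem exists_kill (P : Submodule k (Matrix (Fin n) (Fin n) k))
    (hP : ∀ a, ∀ m ∈ P, a * m ∈ P) (h1 : (1 : Matrix (Fin n) (Fin n) k) ∉ P) :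
    ∃ v : Fin n → k, v ≠ 0 ∧ ∀ m ∈ P, m.mulVec v = 0 := by
  classical
  -- the space of rows
  let R : Submodule k (Fin n → k) :=
    { carrier := {r | ∀ j : Fin n, Matrix.of (fun a b => if a = j then r b else 0) ∈ P}
      add_mem' := by
        intro r s hr hs j
        have := P.add_mem (hr j) (hs j)
        convert this using 1
        ext a b
        simp only [Matrix.of_apply, Matrix.add_apply, Pi.add_apply]
        split_ifs <;> simp
      zero_mem' := by
        intro j
        convert P.zero_mem using 1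
        ext a b
        simp
      smul_mem' := by
        intro c r hr j
        have := P.smul_mem c (hr j)
        convert this using 1
        ext a b
        simp only [Matrix.of_apply, Matrix.smul_apply, Pi.smul_apply, smul_eq_mul]
        split_ifs <;> simp }
  have hrow : ∀ m ∈ P, ∀ i, (fun b => m i b) ∈ R := by
    intro m hm i j
    have := hP (Matrix.single j i 1) m hm
    convert this using 1
    ext a b
    rw [Matrix.of_apply]
    by_cases ha : a = j
    · subst ha
      rw [if_pos rfl, Matrix.single_mul_apply_same, one_mul]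
    · rw [if_neg ha, Matrix.single_mul_apply_of_ne _ _ _ _ _ ha]
  have hR : R ≠ ⊤ := by
    intro h
    apply h1
    have h2 : (1 : Matrix (Fin n) (Fin n) k) =
        ∑ j : Fin n, Matrix.of (fun a b => if a = j then (Pi.single j (1 : k) : Fin n → k) b else 0) := by
      ext a b
      rw [Matrix.sum_apply]
      simp only [Matrix.of_apply]
      rw [Finset.sum_ite_eq Finset.univ a, if_pos (Finset.mem_univ _), Matrix.one_apply,
        Pi.single_apply]
      simp only [eq_comm]
    rw [h2]
    refine P.sum_mem fun j _ => ?_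
    have h3 : (Pi.single j (1 : k) : Fin n → k) ∈ R := by rw [h]; trivial
    exact h3 j
  obtain ⟨f, hf0, hf⟩ := Submodule.exists_le_ker_of_lt_top R (lt_top_iff_ne_top.2 hR)
  refine ⟨fun j => f (Pi.single j 1), ?_, ?_⟩
  · intro h
    apply hf0
    refine LinearMap.pi_ext' fun j => ?_
    ext
    simpa using congrFun h j
  · intro m hm
    funext i
    have h2 := hf (hrow m hm i)
    rw [LinearMap.mem_ker] at h2
    have h3 : (fun b => m i b) = ∑ j, m i j • (Pi.single j (1 : k) : Fin n → k) := by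
      funext b
      rw [Finset.sum_apply]
      simp [Pi.single_apply]
    rw [h3, map_sum] at h2
    simp only [map_smul, smul_eq_mul] at h2
    simpa [Matrix.mulVec, dotProduct] using h2

end mat

section dat

variable {k : Type*} [Field k] {G : Type*} [Group G] [Finite G]
variable (D : Dat k (MonoidAlgebra k G))

/-- the `i`-th simple module -/
noncomputable def rho (i : Fin D.n) : Representation k G (Fin (D.d i) → k) where
  toFun g := Matrix.mulVecLin (D.π (MonoidAlgebra.single g 1) i)
  map_one' := by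
    rw [← MonoidAlgebra.one_def, map_one, Pi.one_apply, Matrix.mulVecLin_one]; rfl
  map_mul' a b := by
    have h1 : (MonoidAlgebra.single (a * b) 1 : MonoidAlgebra k G) =
        MonoidAlgebra.single a 1 * MonoidAlgebra.single b 1 := by
      rw [MonoidAlgebra.single_mul_single, mul_one]
    rw [h1, D.pi_mul, Matrix.mulVecLin_mul]
    rfl

theorem rho_apply (i : Fin D.n) (g : G) (x : Fin (D.d i) → k) :
    rho D i g x = (D.π (MonoidAlgebra.single g 1) i).mulVec x := rfl

theorem asAlg (i : Fin D.n) (A : MonoidAlgebra k G) (x : Fin (D.d i) → k) :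
    (rho D i).asAlgebraHom A x = (D.π A i).mulVec x := by
  induction A using MonoidAlgebra.induction_on with
  | of g =>
    rw [Representation.asAlgebraHom_of]; rfl
  | add a b ha hb =>
    rw [map_add, LinearMap.add_apply, ha, hb, map_add, Pi.add_apply, Matrix.add_mulVec]
  | smul c a ha =>
    rw [map_smul, LinearMap.smul_apply, ha, map_smul, Pi.smul_apply, Matrix.smul_mulVec]

theorem exists_coef (A : MonoidAlgebra k G) [Fintype G] :
    A = ∑ g : G, A.coeff g • (MonoidAlgebra.single g 1 : MonoidAlgebra k G) := by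
  classical
  conv_lhs => rw [← MonoidAlgebra.sum_coeff_single A]
  rw [Finsupp.sum_fintype _ _ (by simp)]
  refine Finset.sum_congr rfl fun g _ => ?_
  rw [MonoidAlgebra.smul_single, smul_eq_mul, mul_one]

theorem sum_rho [Fintype G] (i : Fin D.n) (A : MonoidAlgebra k G) (x : Fin (D.d i) → k) :
    ∑ g, A.coeff g • rho D i g x = (D.π A i).mulVec x := by
  rw [← asAlg]
  conv_rhs => rw [exists_coef A]
  rw [map_sum, LinearMap.sum_apply]
  refine Finset.sum_congr rfl fun g _ => ?_
  rw [map_smul, LinearMap.smul_apply, Representation.asAlgebraHom_single, one_smul]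

theorem irr_rho (i : Fin D.n) : Irr (rho D i) := by
  classical
  haveI := D.hd i
  letI := Fintype.ofFinite G
  refine ⟨inferInstance, fun W hW => ?_⟩
  by_cases h : W = ⊥
  · exact Or.inl h
  right
  obtain ⟨w, hw, hw0⟩ := Submodule.exists_mem_ne_zero_of_ne_bot h
  rw [eq_top_iff]
  intro x _
  obtain ⟨j, hj⟩ : ∃ j, w j ≠ 0 := by
    by_contra hcon
    push Not at hcon
    exact hw0 (funext hcon)
  let m : Matrix (Fin (D.d i)) (Fin (D.d i)) k := Matrix.of fun a b => if b = j then x a / w j else 0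
  have hm : m.mulVec w = x := by
    funext a
    simp only [m, Matrix.mulVec, dotProduct, Matrix.of_apply, ite_mul, zero_mul,
      Finset.sum_ite_eq', Finset.mem_univ, if_true]
    exact div_mul_cancel₀ _ hj
  obtain ⟨A, hA⟩ := D.surj (Pi.single i m)
  have h1 : (D.π A i).mulVec w = x := by rw [hA, Pi.single_eq_same, hm]
  rw [← h1, ← sum_rho]
  exact W.sum_mem fun g _ => W.smul_mem _ (hW g w hw)

variable {V : Type*} [AddCommGroup V] [Module k V] (ρ : Representation k G V)

/-- transfer of annihilators to a simple module -/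
theorem exists_transfer {v : V} (hv : v ≠ 0) : ∃ (i : Fin D.n) (x : Fin (D.d i) → k), x ≠ 0 ∧
    ∀ A : MonoidAlgebra k G, ρ.asAlgebraHom A v = 0 → (D.π A i).mulVec x = 0 := by
  classical
  let L : Submodule k (MonoidAlgebra k G) :=
    LinearMap.ker ((LinearMap.applyₗ v).comp ρ.asAlgebraHom.toLinearMap : MonoidAlgebra k G →ₗ[k] V)
  have hL : ∀ A, A ∈ L ↔ ρ.asAlgebraHom A v = 0 := fun A => by
    rw [LinearMap.mem_ker]; rfl
  have hLl : ∀ B, ∀ A ∈ L, B * A ∈ L := by
    intro B A hA
    rw [hL] at hA ⊢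
    rw [map_mul, Module.End.mul_apply, hA, map_zero]
  have h1 : ∃ i, ∀ A ∈ L, D.π A i ≠ 1 := by
    by_contra hcon
    push Not at hcon
    choose A hA hA1 using hcon
    have hE : ∀ i : Fin D.n, ∃ E, D.π E = Pi.single i 1 := fun i => D.surj _
    choose E hE using hE
    let Bq : MonoidAlgebra k G := ∑ i, E i * A i
    have hB : Bq ∈ L := L.sum_mem fun i _ => hLl _ _ (hA i)
    have hπB : D.π Bq = 1 := by
      funext j
      simp only [Bq]
      rw [map_sum, Finset.sum_apply, Finset.sum_eq_single j]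
      · rw [map_mul, Pi.mul_apply, hE, Pi.single_eq_same, one_mul, hA1]; rfl
      · intro i _ hij
        rw [map_mul, Pi.mul_apply, hE, Pi.single_eq_of_ne (Ne.symm hij), zero_mul]
      · intro h; exact absurd (Finset.mem_univ _) h
    have h2 : IsNilpotent (1 - Bq) := D.nil _ (by rw [map_sub, map_one, hπB, sub_self])
    have h3 : IsUnit Bq := by
      have := h2.isUnit_one_sub
      rwa [sub_sub_cancel] at this
    obtain ⟨u, hu⟩ := h3
    have h4 : (1 : MonoidAlgebra k G) ∈ L := by
      have := hLl (↑u⁻¹) Bq hB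
      rwa [← hu, Units.inv_mul] at this
    rw [hL, map_one] at h4
    exact hv h4
  obtain ⟨i, hi⟩ := h1
  let P : Submodule k (Matrix (Fin (D.d i)) (Fin (D.d i)) k) :=
    L.map ((LinearMap.proj i).comp D.π.toLinearMap)
  have hPmem : ∀ m, m ∈ P ↔ ∃ A ∈ L, D.π A i = m := fun m => Iff.rfl
  obtain ⟨x, hx0, hx⟩ := exists_kill P (by
    rintro a _ ⟨A, hA, rfl⟩
    obtain ⟨B, hB⟩ := D.surj (Pi.single i a)
    refine ⟨B * A, hLl B A hA, ?_⟩
    show D.π (B * A) i = a * D.π A i
    rw [D.pi_mul, hB, Pi.single_eq_same]) (by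
    rintro ⟨A, hA, hA1⟩
    exact hi A hA hA1)
  exact ⟨i, x, hx0, fun A hA => hx _ ⟨A, (hL A).2 hA, rfl⟩⟩

end dat

section main

variable {G : Type*} [Group G] [Finite G] {Φ I : Type*} [Finite Φ] {C : RootComb Φ I} (S : Sys G C)
variable {k : Type*} [Field k] (D : Dat k (MonoidAlgebra k G))

theorem alg_Ti {W : Type*} [AddCommGroup W] [Module k W] (σ : Representation k G W) (j : I) (c : k)
    [Fintype (S.X (C.simple j))] (y : W) :
    σ.asAlgebraHom ((∑ x : S.X (C.simple j), MonoidAlgebra.single ((x : G) * S.n j) 1) - c • 1) y =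
      Ti S σ j y - c • y := by
  rw [map_sub, LinearMap.sub_apply, map_sum, LinearMap.sum_apply, map_smul, map_one]
  congr 1
  unfold Ti
  rw [sm_eq]
  refine Finset.sum_congr rfl fun x _ => ?_
  rw [Representation.asAlgebraHom_single, one_smul, rmul]

theorem transfer_WV {V : Type*} [AddCommGroup V] [Module k V] {ρ : Representation k G V}
    {χ : S.H →* kˣ} {μ : I → k} {v : V} (hv : WV S ρ χ μ v) (h0 : v ≠ 0) :
    ∃ (i : Fin D.n) (x : Fin (D.d i) → k), x ≠ 0 ∧ WV S (rho D i) χ μ x := by
  classical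
  obtain ⟨i, x, hx, h⟩ := exists_transfer D ρ h0
  refine ⟨i, x, hx, ⟨⟨fun u hu => ?_, fun a => ?_⟩, fun j => ?_⟩⟩
  · have h1 := h (MonoidAlgebra.single u 1 - 1) (by
      rw [map_sub, LinearMap.sub_apply, Representation.asAlgebraHom_single, one_smul, map_one,
        hv.wt.fix u hu]
      exact sub_self _)
    rw [← asAlg, map_sub, LinearMap.sub_apply, Representation.asAlgebraHom_single, one_smul, map_one,
      sub_eq_zero] at h1
    exact h1
  · have h1 := h (MonoidAlgebra.single (a : G) 1 - (χ a : k) • 1) (by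
      rw [map_sub, LinearMap.sub_apply, Representation.asAlgebraHom_single, one_smul, map_smul, map_one,
        hv.wt.eig a]
      exact sub_self _)
    rw [← asAlg, map_sub, LinearMap.sub_apply, Representation.asAlgebraHom_single, one_smul, map_smul,
      map_one, sub_eq_zero] at h1
    exact h1
  · letI := Fintype.ofFinite (S.X (C.simple j))
    have h1 := h ((∑ x : S.X (C.simple j), MonoidAlgebra.single ((x : G) * S.n j) 1) - (μ j) • 1) (by
      rw [alg_Ti S ρ, hv.eig j, sub_self])
    rw [← asAlg, alg_Ti S (rho D i), sub_eq_zero] at h1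
    exact h1

theorem char_unique {V : Type*} [AddCommGroup V] [Module k V] {ρ : Representation k G V}
    {χ χ' : S.H →* kˣ} {v : V} (h0 : v ≠ 0) (h : Wt S ρ χ v) (h' : Wt S ρ χ' v) : χ = χ' := by
  ext a
  exact smul_left_injective k h0 ((h.eig a).symm.trans (h'.eig a))

theorem mu_unique {V : Type*} [AddCommGroup V] [Module k V] {ρ : Representation k G V}
    {χ χ' : S.H →* kˣ} {μ μ' : I → k} {v : V} (h0 : v ≠ 0) (h : WV S ρ χ μ v) (h' : WV S ρ χ' μ' v) :
    μ = μ' := by
  funext i
  exact smul_left_injective k h0 ((h.eig i).symm.trans (h'.eig i))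

theorem WV_smul {V : Type*} [AddCommGroup V] [Module k V] {ρ : Representation k G V}
    {χ : S.H →* kˣ} {μ : I → k} {v : V} (h : WV S ρ χ μ v) (c : k) : WV S ρ χ μ (c • v) := by
  refine ⟨⟨h.wt.fix.smul c, fun a => ?_⟩, fun i => ?_⟩
  · rw [map_smul, h.wt.eig, smul_comm]
  · rw [Ti_smul, h.eig, smul_comm]

open Classical in
/-- the eigenvalues of a weight vector -/
theorem mu_eq {p : ℕ} [CharP k p] (hp1 : p.Prime) (hp : IsPGroup p S.U) (hn : ∀ i, S.n i ∈ Li S i)
    (hc : ∀ (i : I) (χ : S.H →* kˣ), ¬ TrK S χ i → ci S i χ = (0 : k)) {V : Type*} [AddCommGroup V]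
    [Module k V] {ρ : Representation k G V} {χ : S.H →* kˣ} {μ : I → k} {v : V} (h0 : v ≠ 0)
    (h : WV S ρ χ μ v) : μ = muJ S χ {j | TrK S χ j ∧ μ j = 0} := by
  funext i
  have h1 := Ti_Ti hp h.wt hp1 i
  rw [h.eig, Ti_smul, h.eig, smul_smul, smul_smul] at h1
  have h2 : μ i * μ i = ci S i χ * μ i := smul_left_injective k h0 h1
  unfold muJ
  by_cases ht : TrK S χ i
  · rw [ci_triv S hp1 hp hn ht] at h2
    by_cases h3 : μ i = 0
    · rw [if_pos ⟨ht, h3⟩, h3]
    · rw [if_neg (fun h => h3 h.2), if_pos ht]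
      exact mul_right_cancel₀ h3 h2
  · rw [hc i χ ht, zero_mul] at h2
    rw [if_neg (fun h => ht h.1), if_neg ht]
    exact mul_self_eq_zero.1 h2

variable [Fintype I] [DecidableEq I] (K : CoordSys C)

include K in
/-- **Curtis–Richen**: the number of simple modules is the number of weights. -/
theorem n_eq [IsAlgClosed k] {p : ℕ} [CharP k p] (hΓ : S.Γ = ⊤) (hp1 : p.Prime) (hp : IsPGroup p S.U)
    (hpH : ¬ p ∣ Nat.card S.H) (hH : ∀ a ∈ S.H, ∀ b ∈ S.H, a * b = b * a)
    (hn : ∀ i, S.n i ∈ Li S i)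
    (hc : ∀ (i : I) (χ : S.H →* kˣ), ¬ TrK S χ i → ci S i χ = (0 : k)) :
    Nat.card {x : (S.H →* kˣ) × Set I // ∀ j ∈ x.2, TrK S x.1 j} = D.n := by
  classical
  letI := Fintype.ofFinite G
  have hex : ∀ i : Fin D.n, ∃ (χ : S.H →* kˣ) (μ : I → k) (v : Fin (D.d i) → k), v ≠ 0 ∧
      WV S (rho D i) χ μ v := by
    intro i
    haveI := D.hd i
    exact exists_WV S (rho D i) hp1 hp hH
  choose χ μ v hv0 hv using hex
  let f : Fin D.n → {x : (S.H →* kˣ) × Set I // ∀ j ∈ x.2, TrK S x.1 j} := fun i =>
    ⟨(χ i, {j | TrK S (χ i) j ∧ μ i j = 0}), fun j hj => hj.1⟩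
  have hf : Function.Bijective f := by
    constructor
    · intro i j hij
      by_contra hne
      have h1 : χ i = χ j := congrArg (fun x => x.1.1) hij
      have h2 : {l | TrK S (χ i) l ∧ μ i l = 0} = {l | TrK S (χ j) l ∧ μ j l = 0} :=
        congrArg (fun x => x.1.2) hij
      have h3 : μ i = μ j := by
        rw [mu_eq S hp1 hp hn hc (hv0 i) (hv i), mu_eq S hp1 hp hn hc (hv0 j) (hv j), h1]
        congr 1
        rw [← h1] at h2 ⊢
        exact h2
      obtain ⟨A, hA⟩ := D.surj (Pi.single i 1)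
      refine weight_inj K hΓ hp1 hp (irr_rho D i) (irr_rho D j) (hv i) (hv0 i)
        (by rw [h1, h3]; exact hv j) (hv0 j) (fun g => A.coeff g) (fun x => ?_) (fun x => ?_)
      · rw [sum_rho, hA, Pi.single_eq_same, Matrix.one_mulVec]
      · rw [sum_rho, hA, Pi.single_eq_of_ne (Ne.symm hne), Matrix.zero_mulVec]
    · rintro ⟨⟨χ', J⟩, hJ⟩
      obtain ⟨w, hw0, hw⟩ := exists_weight S (k := k) K hp1 hp hpH hn hc χ' J hJ
      obtain ⟨i, x, hx0, hx⟩ := transfer_WV S D hw hw0
      haveI := D.hd i
      obtain ⟨c, hc'⟩ := fix_unique K hΓ hp1 hp hH (irr_rho D i) hx.wt.fix (hv i).wt.fix hx0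
      have h1 : WV S (rho D i) χ' (muJ S χ' J) (v i) := by
        rw [hc']; exact WV_smul S hx c
      have h2 : χ i = χ' := char_unique S (hv0 i) (hv i).wt h1.wt
      have h3 : μ i = muJ S χ' J := mu_unique S (hv0 i) (hv i) h1
      refine ⟨i, Subtype.ext (Prod.ext h2 ?_)⟩
      show {j | TrK S (χ i) j ∧ μ i j = 0} = J
      ext j
      rw [Set.mem_setOf_eq, h2, h3]
      unfold muJ
      constructor
      · rintro ⟨h4, h5⟩
        by_contra hj
        rw [if_neg hj, if_pos h4, neg_eq_zero] at h5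
        exact one_ne_zero h5
      · intro hj
        exact ⟨hJ j hj, if_pos hj⟩
  rw [← Nat.card_congr (Equiv.ofBijective f hf), Nat.card_eq_fintype_card, Fintype.card_fin]

end main

end H45.CR
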