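import Cfsg.Agent.Lib.H45.CR5

/-!
# Curtis–Richen theory 6: the number of classes of elements of order prime to `p`
-/

set_option autoImplicit false
set_option linter.unusedSectionVars false
set_option linter.style.haveILetI false

open H22.RGD H22.Coord H20.BrT H20.Loc Cfsg

universe u

namespace H45.CR

section cls

variable {M : Ideal AlgInt} [M.IsMaximal] {G : Type u} [Group G] [Finite G] {p : ℕ}

/-- Brauer: the number of simple modules is the number of classes of `p`-regular elements. -/
theorem n_eq_classes (D : Dat (ResF M) (KG M G)) (hM : IsPModular p M) :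
    Nat.card {c : ConjClasses G // ∃ g : G, ConjClasses.mk g = c ∧ (orderOf g).Coprime p} = D.n := by
  classical
  letI := Fintype.ofFinite G
  letI : Fintype {c : ConjClasses G // ∃ g : G, ConjClasses.mk g = c ∧ (orderOf g).Coprime p} :=
    Fintype.ofFinite _
  have hreg : ∀ g : G, IsPRegular p g ↔ (orderOf g).Coprime p := by
    intro g
    unfold IsPRegular
    rw [← hM.1.coprime_iff_not_dvd, Nat.coprime_comm]
  set X := {c : ConjClasses G // ∃ g : G, ConjClasses.mk g = c ∧ (orderOf g).Coprime p} with hX
  have hrep : ∀ c : X, ∃ g : G, ConjClasses.mk g = c.1 ∧ (orderOf g).Coprime p := fun c => c.2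
  choose r hr1 hr2 using hrep
  have hcl : ∀ (θ : G → ℂ), IsClassFunction G θ → ∀ g h : G, ConjClasses.mk g = ConjClasses.mk h →
      θ g = θ h := by
    intro θ hθ g h hgh
    rw [ConjClasses.mk_eq_mk_iff_isConj, isConj_iff] at hgh
    obtain ⟨c, rfl⟩ := hgh
    exact (hθ _ _).symm
  let b : Fin D.n → X → ℂ := fun i c => th D hM i (r c)
  have hb : LinearIndependent ℂ b := by
    rw [Fintype.linearIndependent_iff]
    intro a ha i
    have h1 := th_indep D hM (a := a) (by
      intro g hg
      let c : X := ⟨ConjClasses.mk g, g, rfl, (hreg g).1 hg⟩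
      have h2 := congrFun ha c
      rw [Finset.sum_apply, Pi.zero_apply] at h2
      rw [← h2]
      refine Finset.sum_congr rfl fun j _ => ?_
      show a j * th D hM j g = a j * th D hM j (r c)
      rw [hcl _ (th_class D hM j) g (r c) (hr1 c).symm])
    exact congrFun h1 i
  have hspan : ⊤ ≤ Submodule.span ℂ (Set.range b) := by
    intro φ _
    let θ : G → ℂ := fun g => if h : (orderOf g).Coprime p then φ ⟨ConjClasses.mk g, g, rfl, h⟩ else 0
    have hθ : IsClassFunction G θ := by
      intro g h
      have e : ConjClasses.mk (h * g * h⁻¹) = ConjClasses.mk g := by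
        rw [ConjClasses.mk_eq_mk_iff_isConj, isConj_iff]
        exact ⟨h⁻¹, by group⟩
      have e2 : orderOf (h * g * h⁻¹) = orderOf g := by
        exact (MulAut.conj h).orderOf_eq g
      simp only [θ]
      by_cases hg : (orderOf g).Coprime p
      · rw [dif_pos hg, dif_pos (by rw [e2]; exact hg)]
        congr 1
        exact Subtype.ext e
      · rw [dif_neg hg, dif_neg (by rw [e2]; exact hg)]
    have h1 : φ = ∑ i, (val θ (D.E i)) • b i := by
      funext c
      rw [Finset.sum_apply]
      have h2 : θ (r c) = φ c := by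
        simp only [θ]
        rw [dif_pos (hr2 c)]
        congr 1
        exact Subtype.ext (hr1 c)
      rw [← h2, reg_expand D hM hθ ((hreg _).2 (hr2 c))]
      refine Finset.sum_congr rfl fun i _ => ?_
      show _ = val θ (D.E i) * th D hM i (r c)
      rw [mul_comm]
    rw [h1]
    exact Submodule.sum_mem _ fun i _ => Submodule.smul_mem _ _ (Submodule.subset_span ⟨i, rfl⟩)
  have h1 := Module.finrank_eq_card_basis (Module.Basis.mk hb hspan)
  rw [Module.finrank_fintype_fun_eq_card, Fintype.card_fin] at h1
  rw [Nat.card_eq_fintype_card, h1]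

/-- the number of `p'`-classes in a group with a system of root subgroups -/
theorem card_classes {Φ I : Type*} [Finite Φ] {C : RootComb Φ I} [Fintype I] [DecidableEq I]
    (S : Sys G C) (K : CoordSys C) (hp1 : p.Prime) (hΓ : S.Γ = ⊤) (hp : IsPGroup p S.U)
    (hpH : ¬ p ∣ Nat.card S.H) (hH : ∀ a ∈ S.H, ∀ b ∈ S.H, a * b = b * a)
    (hn : ∀ i, S.n i ∈ Li S i)
    (hc : ∀ (k : Type) [Field k] [CharP k p] (i : I) (χ : S.H →* kˣ), ¬ TrK S χ i → ci S i χ = (0 : k)) :
    ∃ (k : Type) (_ : Field k) (_ : CharP k p) (_ : IsAlgClosed k),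
    Nat.card {c : ConjClasses G // ∃ g : G, ConjClasses.mk g = c ∧ (orderOf g).Coprime p} =
      Nat.card {x : (S.H →* kˣ) × Set I // ∀ j ∈ x.2, TrK S x.1 j} := by
  obtain ⟨M, hM⟩ := H78.Cong.exists_isPModular hp1
  haveI : M.IsMaximal := hM.2.1
  haveI : IsAlgClosed (ResF M) := isAlgClosed_resF
  haveI : CharP (ResF M) p := charP_resF hM
  obtain ⟨D⟩ : Nonempty (Dat (ResF M) (KG M G)) := by
    haveI : FiniteDimensional (ResF M) (KG M G) := inferInstance
    exact Dat.exists_dat
  refine ⟨ResF M, inferInstance, inferInstance, inferInstance, ?_⟩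
  rw [n_eq_classes D hM, n_eq S D K hΓ hp1 hp hpH hH hn (fun i χ h => hc (ResF M) i χ h)]

end cls

end H45.CR
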