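import Cfsg.Agent.Lib.H45.CR6

/-!
# Curtis–Richen theory 7: the rank one torus, counting weights
-/

set_option autoImplicit false
set_option linter.unusedSectionVars false
set_option linter.style.haveILetI false

open H22.RGD H22.Coord

namespace H45.CR

section rk

variable {G : Type*} [Group G] {Φ I : Type*} [Finite Φ] {C : RootComb Φ I} (S : Sys G C)

/-- a criterion for `K_i ≤ A` -/
theorem Ki_le {i : I} {A : Subgroup G} (hA : A ≤ S.H) (h1 : ∀ a ∈ A, S.n i * a * (S.n i)⁻¹ ∈ A)
    (h2 : S.n i * S.n i ∈ A)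
    (h3 : ∀ x ∈ S.X (C.simple i), x ≠ 1 → ∃ y ∈ S.X (C.simple i), ∃ h ∈ A, ∃ z ∈ S.X (C.simple i),
      S.n i * x * (S.n i)⁻¹ = y * (S.n i * h) * z) : Ki S i ≤ A := by
  have h1' : ∀ a ∈ A, (S.n i)⁻¹ * a * S.n i ∈ A := by
    intro a ha
    have := A.mul_mem (A.mul_mem (A.inv_mem h2) (h1 a ha)) h2
    simpa [mul_assoc] using this
  have hXA : ∀ a ∈ A, ∀ x ∈ S.X (C.simple i), a * x * a⁻¹ ∈ S.X (C.simple i) := fun a ha x hx =>
    conj_mem_of_stabSub (S.H_le _ (hA ha)) hx
  let Q : Subgroup G :=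
    { carrier := {g | (∃ x ∈ S.X (C.simple i), ∃ a ∈ A, g = x * a) ∨
        ∃ x ∈ S.X (C.simple i), ∃ a ∈ A, ∃ y ∈ S.X (C.simple i), g = x * (S.n i * a) * y}
      one_mem' := Or.inl ⟨1, (S.X _).one_mem, 1, A.one_mem, by simp⟩
      mul_mem' := by
        rintro _ _ (⟨x, hx, a, ha, rfl⟩ | ⟨x, hx, a, ha, y, hy, rfl⟩)
          (⟨x', hx', a', ha', rfl⟩ | ⟨x', hx', a', ha', y', hy', rfl⟩)
        · left
          exact ⟨x * (a * x' * a⁻¹), (S.X _).mul_mem hx (hXA a ha _ hx'), a * a', A.mul_mem ha ha',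
            by group⟩
        · right
          refine ⟨x * (a * x' * a⁻¹), (S.X _).mul_mem hx (hXA a ha _ hx'),
            ((S.n i)⁻¹ * a * S.n i) * a', A.mul_mem (h1' a ha) ha', y', hy', by group⟩
        · right
          refine ⟨x, hx, a * a', A.mul_mem ha ha', a'⁻¹ * (y * x') * a', ?_, by group⟩
          have := hXA a'⁻¹ (A.inv_mem ha') _ ((S.X _).mul_mem hy hx')
          simpa using this
        · -- x n a (y x') n a' y'
          set z := a * (y * x') * a⁻¹ with hz
          have hzX : z ∈ S.X (C.simple i) := hXA a ha _ ((S.X _).mul_mem hy hx')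
          have e : x * (S.n i * a) * y * (x' * (S.n i * a') * y') =
              x * (S.n i * z * (S.n i)⁻¹) * ((S.n i * a * (S.n i)⁻¹) * (S.n i * S.n i) * a') * y' := by
            rw [hz]; group
          by_cases hz1 : z = 1
          · left
            set b := (S.n i * a * (S.n i)⁻¹) * (S.n i * S.n i) * a' with hb
            have hbA : b ∈ A := A.mul_mem (A.mul_mem (h1 a ha) h2) ha'
            refine ⟨x * (b * y' * b⁻¹), (S.X _).mul_mem hx (hXA b hbA _ hy'), b, hbA, ?_⟩
            rw [e, hz1]; group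
          · right
            obtain ⟨y₁, hy₁, h, hh, z₁, hz₁, e₁⟩ := h3 z hzX hz1
            set b := (S.n i * a * (S.n i)⁻¹) * (S.n i * S.n i) * a' with hb
            have hbA : b ∈ A := A.mul_mem (A.mul_mem (h1 a ha) h2) ha'
            refine ⟨x * y₁, (S.X _).mul_mem hx hy₁, h * b, A.mul_mem hh hbA, (b⁻¹ * z₁ * b) * y', ?_, ?_⟩
            · have := hXA b⁻¹ (A.inv_mem hbA) _ hz₁
              exact (S.X _).mul_mem (by simpa using this) hy'
            · rw [e, e₁]; group
      inv_mem' := by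
        rintro _ (⟨x, hx, a, ha, rfl⟩ | ⟨x, hx, a, ha, y, hy, rfl⟩)
        · left
          refine ⟨a⁻¹ * x⁻¹ * a, ?_, a⁻¹, A.inv_mem ha, by group⟩
          have := hXA a⁻¹ (A.inv_mem ha) _ ((S.X _).inv_mem hx)
          simpa using this
        · right
          refine ⟨y⁻¹, (S.X _).inv_mem hy, ((S.n i)⁻¹ * a⁻¹ * S.n i) * (S.n i * S.n i)⁻¹,
            A.mul_mem (h1' _ (A.inv_mem ha)) (A.inv_mem h2), x⁻¹, (S.X _).inv_mem hx, by group⟩ }
  have hXQ : S.X (C.simple i) ≤ Q := fun x hx => Or.inl ⟨x, hx, 1, A.one_mem, by simp⟩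
  have hXQ' : S.X (C.neg (C.simple i)) ≤ Q := by
    intro x hx
    by_cases hx1 : x = 1
    · rw [hx1]; exact Q.one_mem
    · rw [← S.cj_n_simple, mem_cj] at hx
      have hx2 : (S.n i)⁻¹ * x * S.n i ≠ 1 := by
        intro h
        apply hx1
        have : x = S.n i * ((S.n i)⁻¹ * x * S.n i) * (S.n i)⁻¹ := by group
        rw [this, h]; group
      obtain ⟨y, hy, h, hh, z, hz, e⟩ := h3 _ hx hx2
      have e2 : x = S.n i * ((S.n i)⁻¹ * x * S.n i) * (S.n i)⁻¹ := by group
      rw [e2, e]
      exact Or.inr ⟨y, hy, h, hh, z, hz, rfl⟩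
  rintro g ⟨hgH, hgL⟩
  have hgQ : g ∈ Q := (sup_le hXQ hXQ' : Li S i ≤ Q) hgL
  rcases hgQ with ⟨x, hx, a, ha, e⟩ | ⟨x, hx, a, ha, y, hy, e⟩
  · have h4 : x = 1 := by
      apply S.eq_one_of_mem_U_H (S.X_le_U (C.simple_pos i) hx)
      have : x = g * a⁻¹ := by rw [e]; group
      rw [this]
      exact S.H.mul_mem hgH (S.H.inv_mem (hA ha))
    rw [e, h4, one_mul]; exact ha
  · exfalso
    apply S.n_not_mem_B i
    have h5 : S.n i = x⁻¹ * g * y⁻¹ * a⁻¹ := by rw [e]; group
    rw [h5]
    have hXB : S.X (C.simple i) ≤ S.B := (S.X_le_U (C.simple_pos i)).trans S.U_le_B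
    exact S.B.mul_mem (S.B.mul_mem (S.B.mul_mem (S.B.inv_mem (hXB hx)) (S.H_le_B hgH))
      (S.B.inv_mem (hXB hy))) (S.B.inv_mem (S.H_le_B (hA ha)))

end rk

section count

variable {k : Type*} [Field k]

theorem card_opt (P : Type*) [Finite P] (a : P) :
    Nat.card {y : P × Prop // y.2 → y.1 = a} = Nat.card P + 1 := by
  classical
  have e : {y : P × Prop // y.2 → y.1 = a} ≃ Option P :=
    { toFun := fun y => if y.1.2 then none else some y.1.1
      invFun := fun o => match o with
        | none => ⟨(a, True), fun _ => rfl⟩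
        | some x => ⟨(x, False), fun h => h.elim⟩
      left_inv := by
        rintro ⟨⟨x, q⟩, h⟩
        by_cases hq : q
        · have := h hq
          simp only at this
          subst this
          simp [hq]
        · simp [hq]
      right_inv := by
        intro o
        cases o with
        | none => simp
        | some x => simp }
  rw [Nat.card_congr e, Finite.card_option]

theorem card_weights {T : Type*} [CommGroup T] [Finite T] {I : Type*} [Fintype I] [DecidableEq I]
    [IsAlgClosed k] {p : ℕ} [CharP k p] (hp : p.Prime) (hT : ¬ p ∣ Nat.card T) {Hh : Type*} [Group Hh]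
    (Θ : (I → T) ≃* Hh) :
    Nat.card {x : (Hh →* kˣ) × Set I // ∀ j ∈ x.2, ∀ u : T, x.1 (Θ (Pi.mulSingle j u)) = 1} =
      (Nat.card T + 1) ^ Fintype.card I := by
  classical
  haveI : NeZero ((Monoid.exponent T : ℕ) : k) := ⟨by
    intro h
    have h1 : p ∣ Monoid.exponent T := (CharP.cast_eq_zero_iff k p _).1 h
    exact hT (h1.trans Group.exponent_dvd_nat_card)⟩
  haveI : HasEnoughRootsOfUnity k (Monoid.exponent T) := inferInstance
  haveI : Finite (T →* kˣ) := by
    apply Nat.finite_of_card_ne_zero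
    rw [CommGroup.card_monoidHom_of_hasEnoughRootsOfUnity]
    exact Nat.card_pos.ne'
  have e1 : {x : (Hh →* kˣ) × Set I // ∀ j ∈ x.2, ∀ u : T, x.1 (Θ (Pi.mulSingle j u)) = 1} ≃
      (I → {y : (T →* kˣ) × Prop // y.2 → y.1 = 1}) :=
    { toFun := fun x j => ⟨((x.1.1.comp Θ.toMonoidHom).comp (MonoidHom.mulSingle (fun _ => T) j), j ∈ x.1.2),
        fun h => MonoidHom.ext fun u => x.2 j h u⟩
      invFun := fun y => ⟨(((Pi.monoidHomMulEquiv (fun _ : I => T) kˣ).symm fun j => (y j).1.1).comp
          Θ.symm.toMonoidHom, {j | (y j).1.2}), by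
          intro j hj u
          show ((Pi.monoidHomMulEquiv (fun _ : I => T) kˣ).symm fun j => (y j).1.1)
            (Θ.symm (Θ (Pi.mulSingle j u))) = 1
          rw [MulEquiv.symm_apply_apply]
          have h1 := congrFun ((Pi.monoidHomMulEquiv (fun _ : I => T) kˣ).apply_symm_apply
            (fun j => (y j).1.1)) j
          have h2 := DFunLike.congr_fun h1 u
          have h3 : (y j).1.1 = 1 := (y j).2 hj
          rw [h3] at h2
          exact h2⟩
      left_inv := by
        rintro ⟨⟨χ, J⟩, h⟩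
        apply Subtype.ext
        refine Prod.ext ?_ rfl
        show (((Pi.monoidHomMulEquiv (fun _ : I => T) kˣ).symm fun j =>
          (χ.comp Θ.toMonoidHom).comp (MonoidHom.mulSingle (fun _ => T) j)).comp
          Θ.symm.toMonoidHom) = χ
        have h1 : ((Pi.monoidHomMulEquiv (fun _ : I => T) kˣ).symm fun j =>
            (χ.comp Θ.toMonoidHom).comp (MonoidHom.mulSingle (fun _ => T) j)) = χ.comp Θ.toMonoidHom :=
          (Pi.monoidHomMulEquiv (fun _ : I => T) kˣ).symm_apply_apply (χ.comp Θ.toMonoidHom)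
        rw [h1]
        ext x
        simp
      right_inv := by
        intro y
        funext j
        apply Subtype.ext
        refine Prod.ext ?_ rfl
        have h1 := congrFun ((Pi.monoidHomMulEquiv (fun _ : I => T) kˣ).apply_symm_apply
            (fun j => (y j).1.1)) j
        refine Eq.trans ?_ h1
        ext u
        show (((((Pi.monoidHomMulEquiv (fun _ : I => T) kˣ).symm fun j => (y j).1.1)
            (Θ.symm (Θ (Pi.mulSingle j u))) : kˣ)) : k) = _
        rw [MulEquiv.symm_apply_apply]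
        rfl }
  rw [Nat.card_congr e1, Nat.card_fun, card_opt, CommGroup.card_monoidHom_of_hasEnoughRootsOfUnity,
    Nat.card_eq_fintype_card (α := I)]

end count

end H45.CR
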