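import Mathlib
import Cfsg.Agent.Lib.H45.LemZ
import Cfsg.Agent.Lib.H45.ChevBT

/-!
# Centralisers of unipotent radicals in the Chevalley groups (helper45)
-/

set_option autoImplicit false
set_option linter.unusedSectionVars false
set_option linter.unusedVariables false

namespace H45.ChevZ

open H22.RGD H22.Coord H22.RCCheck H22.RCComb H22.ChevTri H22.ChevRel H22.ChevSys H22.ChevMain H22.ChevStd
open H22.ChevPar H45.BTits H45.LemZ H45.ChevBT
open Cfsg.Lie (ChevalleyDatum)
open scoped MatrixGroups Matrix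

/-- connectedness, as a check on the tables -/
def connP (D : ChevalleyDatum) : Prop := ∀ k < D.rank, ∀ j < D.rank, j ≠ k →
  ∃ e ∈ (D.chain.getD (D.simple j) #[]).toList, 0 < e.2.toList.length ∧ 0 < (D.coroot.getD e.1 #[]).getD k 0

instance (D : ChevalleyDatum) : Decidable (connP D) := by unfold connP; infer_instance

theorem conn_of_connP {D : ChevalleyDatum} (X : RCX D) (h : connP D) : Conn (coord X) := by
  intro k j hjk
  obtain ⟨e, he, hl, hk⟩ := h k k.2 j j.2 (fun h' => hjk (Fin.ext h'))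
  have hsj := X.rc.simple_lt j j.2
  obtain ⟨h1, h2⟩ := X.rc.chain_lt (D.simple j) hsj e he
  have h3 : (e.2.toList[0]).1 < D.nroots := h2 _ (List.getElem_mem hl)
  have h4 := X.rc.chain_co (D.simple j) hsj e he 0 hl
  have h5 := (X.rc.coroot_pos e.1 h1 k k.2).1 hk
  refine ⟨⟨e.1, h1⟩, ⟨(e.2.toList[0]).1, h3⟩, h5, ?_, ?_⟩
  · show 0 < X.rc.co (e.2.toList[0]).1 k
    rw [h4 k k.2, X.rc.co_simple j j.2 k k.2, if_neg (fun h' => hjk (Fin.ext h'.symm))]
    simpa using h5
  · intro l
    show X.rc.co (e.2.toList[0]).1 l = X.rc.co e.1 l + _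
    rw [h4 l l.2, X.rc.co_simple j j.2 l l.2]
    simp only [Fin.ext_iff]
    push_cast
    ring

set_option maxRecDepth 100000 in
theorem connP_all {D : ChevalleyDatum} (hD : D ∈ [Cfsg.Lie.chevG2, Cfsg.Lie.chevB2, Cfsg.Lie.chevD4, Cfsg.Lie.chevF4, Cfsg.Lie.chevE6, Cfsg.Lie.chevE7, Cfsg.Lie.chevE8]) : connP D := by
  simp only [List.mem_cons, List.not_mem_nil, or_false] at hD
  rcases hD with rfl | rfl | rfl | rfl | rfl | rfl | rfl
  · decide +kernel
  · decide +kernel
  · decide +kernel
  · decide +kernel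
  · decide +kernel
  · decide +kernel
  · decide +kernel

variable {D : ChevalleyDatum} {F : Type*} [Field F] (R : Rel D F) (X : RCX D)

/-- the value of the character `ψ` at the root `s` -/
noncomputable def chr (ψ : ℕ → F) (s : ℕ) : F := ∏ j ∈ Finset.range D.rank, ψ j ^ (X.rc.co s j)

theorem prod_zpow_sum {c : F} (hc : c ≠ 0) (s : Finset ℕ) (f : ℕ → ℤ) : ∏ j ∈ s, c ^ f j = c ^ ∑ j ∈ s, f j := by
  classical
  induction s using Finset.induction_on with
  | empty => simp
  | insert a s ha ih => rw [Finset.prod_insert ha, Finset.sum_insert ha, zpow_add₀ hc, ih]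

theorem Hs_char {g : GL D.Idx F} (hg : g ∈ Hs R) : ∃ ψ : ℕ → F, (∀ j, ψ j ≠ 0) ∧
    (∀ s < D.nroots, ∀ t : F, g * xg R s t * g⁻¹ = xg R s (chr X ψ s * t)) ∧
    (g : Matrix D.Idx D.Idx F) = Matrix.diagonal (Sum.elim (fun _ => (1 : F)) (fun s : Fin D.nroots => chr X ψ s)) := by
  unfold Hs at hg
  induction hg using Subgroup.closure_induction with
  | mem x hx =>
    obtain ⟨i, hi, c, hc, rfl⟩ := hx
    have hch : ∀ s < D.nroots, chr X (fun j => c ^ X.rc.A i j) s = c ^ D.cartan i s := by
      intro s hs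
      unfold chr
      rw [X.rc.cartan_eq i hi s hs, Finset.prod_congr rfl fun j _ => (zpow_mul c _ _).symm]
      exact prod_zpow_sum hc _ _
    refine ⟨fun j => c ^ X.rc.A i j, fun s => zpow_ne_zero _ hc, fun s hs' t => ?_, ?_⟩
    · rw [hch s hs']
      exact hs_conj R hi hc hs' X.rc t
    · rw [hs_val R hi hc]
      congr 2
      funext s
      rw [hch s s.2]
  | one =>
    have h1 : ∀ s, chr X (fun _ => (1 : F)) s = 1 := by intro s; unfold chr; simp
    refine ⟨fun _ => 1, fun _ => one_ne_zero, fun s _ t => by rw [h1]; simp, ?_⟩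
    rw [Units.val_one, ← Matrix.diagonal_one]
    congr 1
    funext x
    rcases x with x | x
    · rfl
    · simp [h1]
  | mul x y _ _ hx hy =>
    obtain ⟨χ, h1, h3, h4⟩ := hx
    obtain ⟨ψ, k1, k3, k4⟩ := hy
    have hm : ∀ s, chr X (fun j => χ j * ψ j) s = chr X χ s * chr X ψ s := by
      intro s
      unfold chr
      rw [← Finset.prod_mul_distrib]
      exact Finset.prod_congr rfl fun j _ => mul_zpow _ _ _
    refine ⟨fun s => χ s * ψ s, fun s => mul_ne_zero (h1 s) (k1 s), fun s hs' t => ?_, ?_⟩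
    · calc x * y * xg R s t * (x * y)⁻¹ = x * (y * xg R s t * y⁻¹) * x⁻¹ := by simp [mul_assoc]
        _ = xg R s (chr X χ s * (chr X ψ s * t)) := by rw [k3 s hs', h3 s hs']
        _ = _ := by rw [hm, mul_assoc]
    · rw [Units.val_mul, h4, k4, Matrix.diagonal_mul_diagonal]
      congr 1
      funext z
      rcases z with z | z
      · simp
      · simp [hm]
  | inv x _ hx =>
    obtain ⟨χ, h1, h3, h4⟩ := hx
    have hc0 : ∀ s, chr X χ s ≠ 0 := fun s => Finset.prod_ne_zero_iff.2 fun j _ => zpow_ne_zero _ (h1 j)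
    have hi : ∀ s, chr X (fun j => (χ j)⁻¹) s = (chr X χ s)⁻¹ := by
      intro s
      unfold chr
      rw [← Finset.prod_inv_distrib]
      exact Finset.prod_congr rfl fun j _ => inv_zpow _ _
    refine ⟨fun s => (χ s)⁻¹, fun s => inv_ne_zero (h1 s), fun s hs' t => ?_, ?_⟩
    · have h5 := h3 s hs' ((chr X χ s)⁻¹ * t)
      rw [← mul_assoc, mul_inv_cancel₀ (hc0 s), one_mul] at h5
      rw [hi, ← h5]; simp [mul_assoc]
    · have h5 : (x : Matrix D.Idx D.Idx F) * ((x⁻¹ : GL D.Idx F) : Matrix D.Idx D.Idx F) = 1 := x.mul_inv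
      have h6 : (x : Matrix D.Idx D.Idx F) * Matrix.diagonal (Sum.elim (fun _ => (1 : F)) (fun s : Fin D.nroots => chr X (fun j => (χ j)⁻¹) s)) = 1 := by
        rw [h4, Matrix.diagonal_mul_diagonal, ← Matrix.diagonal_one]
        congr 1
        funext z
        rcases z with z | z
        · simp
        · simp only [Sum.elim_inr]
          rw [hi, mul_inv_cancel₀ (hc0 _)]
      have h7 := congrArg (fun M => ((x⁻¹ : GL D.Idx F) : Matrix D.Idx D.Idx F) * M) (h5.trans h6.symm)
      simp only [← mul_assoc] at h7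
      have h8 : ((x⁻¹ : GL D.Idx F) : Matrix D.Idx D.Idx F) * (x : Matrix D.Idx D.Idx F) = 1 := x.inv_mul
      rw [h8, one_mul, one_mul] at h7
      exact h7

/-- an element of the torus centralising the root groups involving `α_k` is trivial -/
theorem eq_one_of_Hs (hc : Conn (coord X)) {g : GL D.Idx F} (hg : g ∈ Hs R) (k : Fin D.rank)
    (h : ∀ r : Fin D.nroots, 0 < (coord X).co r k → ∀ y ∈ (chevSys R X).X r, g * y = y * g) : g = 1 := by
  obtain ⟨ψ, h0, h1, h2⟩ := Hs_char R X hg
  have hch : ∀ r : Fin D.nroots, 0 < (coord X).co r k → chr X ψ r = 1 := by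
    intro r hr
    have h3 := h r hr (xg R r (1 : F)) (by rw [chevSys_X]; exact xg_mem R _ _)
    have h4 := h1 r r.2 1
    rw [h3, mul_assoc, mul_inv_cancel, mul_one, mul_one] at h4
    exact (xg_inj R X.rc r.2 h4).symm
  have hψ : ∀ j < D.rank, ψ j = 1 := by
    intro j hj
    by_cases hjk : j = k
    · have h3 := hch ⟨D.simple k, X.rc.simple_lt k k.2⟩ (by
        show 0 < X.rc.co (D.simple k) k
        rw [X.rc.co_simple k k.2 k k.2, if_pos rfl]; exact one_pos)
      unfold chr at h3
      rw [Finset.prod_eq_single (k : ℕ)] at h3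
      · rw [X.rc.co_simple k k.2 k k.2, if_pos rfl, zpow_one] at h3
        rw [hjk]; exact h3
      · intro i hi hik
        show ψ i ^ X.rc.co (D.simple k) i = 1
        rw [X.rc.co_simple k k.2 i (Finset.mem_range.1 hi), if_neg hik, zpow_zero]
      · intro hk; exact absurd (Finset.mem_range.2 k.2) hk
    · obtain ⟨r, s, hr, hs, hrs⟩ := hc k ⟨j, hj⟩ (fun h' => hjk (congrArg Fin.val h'))
      have h3 := hch r hr
      have h4 := hch s hs
      have h5 : chr X ψ s = chr X ψ r * ψ j := by
        unfold chr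
        have h6 : ∀ i ∈ Finset.range D.rank, ψ i ^ X.rc.co s i = ψ i ^ X.rc.co r i * (if i = j then ψ j else 1) := by
          intro i hi
          have h7 := hrs ⟨i, Finset.mem_range.1 hi⟩
          have h8 : X.rc.co s i = X.rc.co r i + if i = j then 1 else 0 := by
            have h9 : X.rc.co s i = X.rc.co r i + if (⟨i, Finset.mem_range.1 hi⟩ : Fin D.rank) = ⟨j, hj⟩ then 1 else 0 := h7
            rw [h9]
            simp only [Fin.mk.injEq]
          rw [h8]
          split_ifs with hij
          · rw [zpow_add₀ (h0 i), zpow_one, hij]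
          · rw [add_zero, mul_one]
        rw [Finset.prod_congr rfl h6, Finset.prod_mul_distrib, Finset.prod_ite_eq' (Finset.range D.rank) j, if_pos (Finset.mem_range.2 hj)]
      rw [h3, h4, one_mul] at h5
      exact h5.symm
  have hall : ∀ s, chr X ψ s = 1 := by
    intro s
    unfold chr
    apply Finset.prod_eq_one
    intro j hj
    rw [hψ j (Finset.mem_range.1 hj), one_zpow]
  apply Units.ext
  rw [h2, Units.val_one, ← Matrix.diagonal_one]
  congr 1
  funext z
  rcases z with z | z
  · rfl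
  · simp [hall]

variable [Fintype F]

include R X in
/-- **Lemma Z**: a `p`-regular element centralising a unipotent radical is trivial. -/
theorem lemZ (hc : Conn (coord X)) {p : ℕ} [hp : Fact p.Prime] [CharP F p] {J : Set (Fin D.rank)} (hJ : J ≠ Set.univ)
    {x : GL D.Idx F} (hx : x ∈ D.group F) (hreg : ¬ p ∣ orderOf x)
    (h : ∀ y ∈ H47.SysSt.RJ (chevSys R X) (coord X) J, x * y = y * x) : x = 1 := by
  have hfin : Finite (GL D.Idx F) := inferInstance
  obtain ⟨b, hb, hbH, k, hk⟩ := conj_H_of_centralizes (chevSys R X) (coord X) (p := p)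
    (by rw [chevSys_U]; exact H47.ChevSt.isPGroup_U R X) (by rw [chevSys_H]; exact H47.ChevSt.not_dvd_card_H R X) hc (hcj R X) hJ
    (by rw [chevSys_Γ]; exact hx) hreg h
  have h1 : b * x * b⁻¹ = 1 := by
    apply eq_one_of_Hs R X hc _ k hk
    rw [chevSys_H, diagonalSubgroup_eq R X] at hbH
    exact hbH
  have e : x = b⁻¹ * (b * x * b⁻¹) * b := by group
  rw [e, h1]; group

end H45.ChevZ
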