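import Cfsg.Agent.Lib.H45.CR7
import Cfsg.Agent.Lib.H47.ChevSt
import Cfsg.Agent.Lib.H40.RGDSyl
import Cfsg.Agent.Lib.H22.ChevTorusCard
import Cfsg.Agent.Lib.H22.ChevAll
import Cfsg.Agent.Lib.H45.ChevZ

/-!
# Curtis–Richen theory 8: the Chevalley groups
-/

set_option autoImplicit false
set_option linter.unusedSectionVars false
set_option linter.style.haveILetI false

open H22.RGD H22.Coord
open H22.RCCheck H22.RCComb H22.ChevTri H22.ChevRel H22.ChevSys H22.ChevMain H22.ChevStd H22.ChevTorus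
open Cfsg.Lie (ChevalleyDatum)
open scoped MatrixGroups Matrix

namespace H45.CR

section chev

variable {D : ChevalleyDatum} {F : Type*} [Field F] (R : Rel D F) (X : RCX D)

theorem X_le_group (r : Fin D.nroots) : (chevSys R X).X r ≤ D.group F := rootSubgroup_le_group R r.2

theorem H_le_group : (chevSys R X).H ≤ D.group F := by
  rw [← chevSys_Γ R X]; exact (chevSys R X).H_le_B.trans (chevSys R X).B_le_Γ

theorem n_mem_group (i : Fin D.rank) : (chevSys R X).n i ∈ D.group F := by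
  rw [← chevSys_Γ R X]; exact (chevSys R X).N_le_Γ ((chevSys R X).n_mem_N i)

/-- the root group system inside the Chevalley group itself -/
def CS : Sys (D.group F) (comb X) :=
  H40.RGDSyl.restrict (chevSys R X) (D.group F) (X_le_group R X) (H_le_group R X) (n_mem_group R X)

theorem CS_Γ : (CS R X).Γ = ⊤ := H40.RGDSyl.restrict_Γ _ _ _ _ _ (chevSys_Γ R X)

theorem CS_U_map : (CS R X).U.map (D.group F).subtype = D.posUnipotent F := by
  rw [← chevSys_U R X]; exact H40.RGDSyl.restrict_U_map _ _ _ _ _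

theorem mem_CS_X {r : Fin D.nroots} {g : D.group F} : g ∈ (CS R X).X r ↔ ∃ t, (g : GL D.Idx F) = xg R r t := by
  show (g : GL D.Idx F) ∈ D.rootSubgroup F r ↔ _
  exact mem_rootSubgroup R

theorem mem_CS_H {g : D.group F} : g ∈ (CS R X).H ↔ (g : GL D.Idx F) ∈ D.diagonalSubgroup F := Iff.rfl

theorem CS_n (i : Fin D.rank) : (((CS R X).n i : D.group F) : GL D.Idx F) = ns R i := rfl

/-- the torus parametrisation -/
def Th (D : ChevalleyDatum) (F : Type*) [Field F] : (Fin D.rank → Fˣ) →* GL D.Idx F := (dg D F).comp (chi D F)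

theorem Th_single (i : Fin D.rank) (u : Fˣ) : Th D F (Pi.mulSingle i u) = hs R i (u : F) := by
  apply Units.ext
  rw [hs_val R i.2 u.ne_zero]
  show Matrix.diagonal _ = _
  congr 1
  funext x
  rcases x with x | x
  · rfl
  · simp only [Sum.elim_inr]
    show ((∏ j, (Pi.mulSingle i u : Fin D.rank → Fˣ) j ^ (D.cartan j x) : Fˣ) : F) = _
    rw [Finset.prod_eq_single i]
    · rw [Pi.mulSingle_eq_same]; simp
    · intro j _ hj
      rw [Pi.mulSingle_eq_of_ne hj, one_zpow]
    · intro h; exact absurd (Finset.mem_univ _) h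

/-- `(Fˣ)^l ≃* H` when the character map is injective -/
noncomputable def ThE (hinj : (chi D F).ker = ⊥) : (Fin D.rank → Fˣ) ≃* (CS R X).H :=
  have h1 : Function.Injective (Th D F) := by
    unfold Th
    rw [MonoidHom.coe_comp]
    exact dg_injective.comp ((MonoidHom.ker_eq_bot_iff _).1 hinj)
  ((MonoidHom.ofInjective h1).trans (MulEquiv.subgroupCongr (diagonalSubgroup_eq_range R X).symm)).trans
    (Subgroup.subgroupOfEquivOfLe (H_le_group R X)).symm

theorem ThE_coe (hinj : (chi D F).ker = ⊥) (c : Fin D.rank → Fˣ) :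
    (((ThE R X hinj c : (CS R X).H) : D.group F) : GL D.Idx F) = Th D F c := rfl

include X in
theorem ng_eq (i : Fin D.rank) {u : F} (hu : u ≠ 0) :
    ng R (D.simple i) u = ns R i * hs R i u⁻¹ := by
  have h1 : ng R (D.simple i) u = hs R i u * ns R i := by
    unfold hs ns; rw [hg_def, mul_assoc, ← ng_inv (t := (1 : F))]; simp
  have hu' : u⁻¹ ≠ 0 := inv_ne_zero hu
  have h2 := ns_hs R i.2 i.2 hu' X
  have h3 : D.cartan i (D.simple i) = 2 := by
    rw [cartan_simple X.rc i.2 i.2]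
    exact (coord X).pair_self i
  rw [h3, hs_mul R i.2 hu' (zpow_ne_zero _ hu')] at h2
  have h4 : u⁻¹ * u⁻¹ ^ (-2 : ℤ) = u := by
    rw [zpow_neg, inv_zpow, inv_inv]
    field_simp
  rw [h4] at h2
  rw [h1, ← h2]; group

include X in
/-- conjugation of a simple root element by `n_i` -/
theorem ns_xg (i : Fin D.rank) : ∃ η : F, (η = 1 ∨ η = -1) ∧ ∀ t : F, t ≠ 0 →
    ns R i * xg R (D.simple i) t * (ns R i)⁻¹ =
      xg R (D.simple i) (η * t)⁻¹ * (ns R i * hs R i (-(η * t))) * xg R (D.simple i) (η * t)⁻¹ := by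
  obtain ⟨η, h1, h2⟩ := exists_sign R i
  have hs' := X.rc.simple_lt i i.2
  refine ⟨η (D.simple i), (h1 _ hs').1, fun t ht => ?_⟩
  have hη : η (D.simple i) ≠ 0 := by
    rcases (h1 _ hs').1 with h | h <;> rw [h] <;> simp
  have hηt : η (D.simple i) * t ≠ 0 := mul_ne_zero hη ht
  have h3 : D.reflectRoot i (D.simple i) = D.neg (D.simple i) := by
    have := (comb X).refl_simple i
    exact congrArg Fin.val this
  rw [h2 _ hs', h3, xg_neg_eq, ng_eq R X i (neg_ne_zero.2 (inv_ne_zero hηt))]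
  congr 4
  rw [inv_neg, inv_inv]

/-- `h_i(u)` inside the group -/
noncomputable def hk (i : Fin D.rank) : Fˣ →* D.group F where
  toFun u := ⟨hs R i (u : F), by
    have h1 : hs R i (u : F) ∈ (chevSys R X).H := by
      rw [chevSys_H, diagonalSubgroup_eq R X]; exact hs_mem R i.2 u.ne_zero
    exact H_le_group R X h1⟩
  map_one' := Subtype.ext (by simpa using hs_one R i.2)
  map_mul' a b := Subtype.ext (by
    simp only [Units.val_mul, Subgroup.coe_mul]
    exact (hs_mul R i.2 a.ne_zero b.ne_zero).symm)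

theorem hk_coe (i : Fin D.rank) (u : Fˣ) : ((hk R X i u : D.group F) : GL D.Idx F) = hs R i (u : F) := rfl

theorem hk_mem (i : Fin D.rank) (u : Fˣ) : hk R X i u ∈ (CS R X).H := by
  rw [mem_CS_H, hk_coe, diagonalSubgroup_eq R X]
  exact hs_mem R i.2 u.ne_zero

include X in
theorem xgs_mem (i : Fin D.rank) (t : F) : xg R (D.simple i) t ∈ D.group F :=
  xg_mem_group R (X.rc.simple_lt i i.2) t

/-- `x_i(t)` inside the group -/
def xk (i : Fin D.rank) (t : F) : D.group F := ⟨xg R (D.simple i) t, xgs_mem R X i t⟩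

theorem xk_mem (i : Fin D.rank) (t : F) : xk R X i t ∈ (CS R X).X ((comb X).simple i) :=
  (mem_CS_X R X).2 ⟨t, rfl⟩

theorem nxk (i : Fin D.rank) : ∃ η : Fˣ, ∀ t : Fˣ,
    (CS R X).n i * xk R X i (t : F) * ((CS R X).n i)⁻¹ =
      xk R X i ((η * t)⁻¹ : Fˣ) * ((CS R X).n i * hk R X i (-(η * t))) * xk R X i ((η * t)⁻¹ : Fˣ) := by
  obtain ⟨η, h1, h2⟩ := ns_xg R X i
  have hη : η ≠ 0 := by
    rcases h1 with h | h <;> rw [h] <;> simp
  refine ⟨Units.mk0 η hη, fun t => Subtype.ext ?_⟩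
  have h3 := h2 t t.ne_zero
  simp only [Subgroup.coe_mul, Subgroup.coe_inv, hk_coe, CS_n, xk]
  rw [h3]
  simp

theorem xk_ne (i : Fin D.rank) {x : D.group F} (hx : x ∈ (CS R X).X ((comb X).simple i)) (hx1 : x ≠ 1) :
    ∃ t : Fˣ, x = xk R X i t := by
  obtain ⟨t, ht⟩ := (mem_CS_X R X).1 hx
  have ht0 : t ≠ 0 := by
    rintro rfl
    apply hx1
    apply Subtype.ext
    rw [ht, xg_zero]; rfl
  exact ⟨Units.mk0 t ht0, Subtype.ext ht⟩

theorem n_mem_Li (i : Fin D.rank) : (CS R X).n i ∈ Li (CS R X) i := by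
  have hXn : ∀ t : F, ∀ h : xg R (D.neg (D.simple i)) t ∈ D.group F,
      (⟨xg R (D.neg (D.simple i)) t, h⟩ : D.group F) ∈ (CS R X).X ((comb X).neg ((comb X).simple i)) :=
    fun t h => (mem_CS_X R X).2 ⟨t, rfl⟩
  have hneg : D.neg (D.simple i) < D.nroots := ((comb X).neg ((comb X).simple i)).2
  have e : (CS R X).n i = xk R X i 1 * ⟨xg R (D.neg (D.simple i)) (-(1 : F)⁻¹), xg_mem_group R hneg _⟩ *
      xk R X i 1 := by
    apply Subtype.ext
    rw [CS_n]
    exact ng_def R _ _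
  rw [e]
  have h1 : (CS R X).X ((comb X).simple i) ≤ Li (CS R X) i := le_sup_left
  have h2 : (CS R X).X ((comb X).neg ((comb X).simple i)) ≤ Li (CS R X) i := le_sup_right
  exact (Li _ i).mul_mem ((Li _ i).mul_mem (h1 (xk_mem R X i 1)) (h2 (hXn _ _))) (h1 (xk_mem R X i 1))

theorem n_conj_hk (i : Fin D.rank) (u : Fˣ) :
    (CS R X).n i * hk R X i u * ((CS R X).n i)⁻¹ = hk R X i u⁻¹ := by
  apply Subtype.ext
  simp only [Subgroup.coe_mul, Subgroup.coe_inv, hk_coe, CS_n]
  have h2 := ns_hs R i.2 i.2 u.ne_zero X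
  have h3 : D.cartan i (D.simple i) = 2 := by
    rw [cartan_simple X.rc i.2 i.2]
    exact (coord X).pair_self i
  rw [h3, hs_mul R i.2 u.ne_zero (zpow_ne_zero _ u.ne_zero)] at h2
  rw [h2]
  congr 1
  have := u.ne_zero
  rw [Units.val_inv_eq_inv_val, zpow_neg]
  field_simp

theorem n_sq_hk (i : Fin D.rank) : (CS R X).n i * (CS R X).n i = hk R X i (-1) := by
  apply Subtype.ext
  simp only [Subgroup.coe_mul, hk_coe, CS_n]
  have h1 : ns R i * ns R i = (hs R i (-1))⁻¹ := ng_sq R _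
  rw [h1, hs_inv R i.2 (neg_ne_zero.2 one_ne_zero)]
  congr 1
  rw [Units.val_neg, Units.val_one, inv_neg, inv_one]

/-- the rank one torus -/
theorem Ki_eq (i : Fin D.rank) : Ki (CS R X) i = (hk R X i).range := by
  apply le_antisymm
  · apply Ki_le
    · rintro _ ⟨u, rfl⟩; exact hk_mem R X i u
    · rintro _ ⟨u, rfl⟩
      rw [n_conj_hk]; exact ⟨_, rfl⟩
    · rw [n_sq_hk]; exact ⟨_, rfl⟩
    · intro x hx hx1
      obtain ⟨t, rfl⟩ := xk_ne R X i hx hx1
      obtain ⟨η, h⟩ := nxk R X i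
      exact ⟨_, xk_mem R X i _, _, ⟨_, rfl⟩, _, xk_mem R X i _, h t⟩
  · rintro _ ⟨u, rfl⟩
    refine ⟨hk_mem R X i u, ?_⟩
    obtain ⟨η, h⟩ := nxk R X i
    have h1 := h (-(η⁻¹ * u))
    have e1 : -(η * -(η⁻¹ * u)) = u := by
      rw [mul_neg, _root_.neg_neg, mul_inv_cancel_left]
    rw [e1] at h1
    set a := xk R X i ((η * -(η⁻¹ * u))⁻¹ : Fˣ) with ha
    have h2 : hk R X i u = ((CS R X).n i)⁻¹ * (a⁻¹ * ((CS R X).n i * xk R X i ((-(η⁻¹ * u) : Fˣ) : F) *
        ((CS R X).n i)⁻¹) * a⁻¹) := by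
      rw [h1]; group
    rw [h2]
    have h3 : (CS R X).X ((comb X).simple i) ≤ Li (CS R X) i := le_sup_left
    have hn := n_mem_Li R X i
    have haL : a ∈ Li (CS R X) i := h3 (xk_mem R X i _)
    exact (Li _ i).mul_mem ((Li _ i).inv_mem hn) ((Li _ i).mul_mem ((Li _ i).mul_mem ((Li _ i).inv_mem haL)
      ((Li _ i).mul_mem ((Li _ i).mul_mem hn (h3 (xk_mem R X i _))) ((Li _ i).inv_mem hn)))
      ((Li _ i).inv_mem haL))

variable [Finite F]

/-- `h_i` as a homomorphism into `H` -/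
noncomputable def hH (i : Fin D.rank) : Fˣ →* (CS R X).H :=
  (hk R X i).codRestrict _ (hk_mem R X i)

theorem hH_coe (i : Fin D.rank) (u : Fˣ) : (((hH R X i u : (CS R X).H)) : D.group F) = hk R X i u := rfl

theorem hH_eq (hinj : (chi D F).ker = ⊥) (i : Fin D.rank) (u : Fˣ) :
    hH R X i u = ThE R X hinj (Pi.mulSingle i u) := by
  apply Subtype.ext
  apply Subtype.ext
  rw [ThE_coe, Th_single]; rfl

variable {k : Type*} [Field k]

theorem TrK_iff (χ : (CS R X).H →* kˣ) (i : Fin D.rank) :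
    TrK (CS R X) χ i ↔ ∀ u : Fˣ, χ (hH R X i u) = 1 := by
  unfold TrK
  rw [Ki_eq]
  constructor
  · intro h u
    exact h _ ⟨u, rfl⟩
  · rintro h a ⟨u, hu⟩
    rw [← h u]
    congr 1
    exact Subtype.ext hu.symm

/-- the quadratic coefficient vanishes for nontrivial characters -/
theorem ci_zero (χ : (CS R X).H →* kˣ) (i : Fin D.rank) (hχ : ¬ TrK (CS R X) χ i) :
    ci (CS R X) i χ = (0 : k) := by
  classical
  letI := Fintype.ofFinite F
  letI := Fintype.ofFinite ((CS R X).X ((comb X).simple i))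
  obtain ⟨η, hη⟩ := nxk R X i
  set c : k := (χ ⟨(CS R X).n i * (CS R X).n i, (CS R X).n_sq i⟩ : k) with hc
  have e1 : ci (CS R X) i χ = ∑ x : (CS R X).X ((comb X).simple i), if x = 1 then 0 else
      ((χ (tau (CS R X) i x) : k) * c) := by
    unfold ci
    convert rfl
  rw [e1]
  -- reindex over the units
  have e2 : (∑ x : (CS R X).X ((comb X).simple i), if x = 1 then (0 : k) else
      ((χ (tau (CS R X) i x) : k) * c)) =
      ∑ x ∈ Finset.univ.filter (fun x : (CS R X).X ((comb X).simple i) => x ≠ 1),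
        ((χ (tau (CS R X) i x) : k) * c) := by
    rw [Finset.sum_filter]
    refine Finset.sum_congr rfl fun x _ => ?_
    by_cases hx : x = 1 <;> simp [hx]
  rw [e2]
  have hxk1 : ∀ t : Fˣ, (⟨xk R X i t, xk_mem R X i t⟩ : (CS R X).X ((comb X).simple i)) ≠ 1 := by
    intro t h
    have h1 : xg R (D.simple i) (t : F) = xg R (D.simple i) 0 := by
      rw [xg_zero]
      exact congrArg (fun y : (CS R X).X ((comb X).simple i) => ((y : D.group F) : GL D.Idx F)) h
    exact t.ne_zero (xg_inj R X.rc (X.rc.simple_lt i i.2) h1)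
  have e3 : ∑ u : Fˣ, ((χ (hH R X i (-(η * u))) : k) * c) =
      ∑ x ∈ Finset.univ.filter (fun x : (CS R X).X ((comb X).simple i) => x ≠ 1),
        ((χ (tau (CS R X) i x) : k) * c) := by
    refine Finset.sum_bij (fun u _ => ⟨xk R X i u, xk_mem R X i u⟩) ?_ ?_ ?_ ?_
    · intro u _
      exact Finset.mem_filter.2 ⟨Finset.mem_univ _, hxk1 u⟩
    · intro u _ v _ h
      apply Units.ext
      exact xg_inj R X.rc (X.rc.simple_lt i i.2)
        (congrArg (fun y : (CS R X).X ((comb X).simple i) => ((y : D.group F) : GL D.Idx F)) h)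
    · intro x hx
      obtain ⟨t, ht⟩ := xk_ne R X i x.2 (fun h => (Finset.mem_filter.1 hx).2 (Subtype.ext h))
      exact ⟨t, Finset.mem_univ _, Subtype.ext ht.symm⟩
    · intro u _
      congr 3
      apply Subtype.ext
      exact (tau_eq i _ (hxk1 u) (xk_mem R X i _) (xk_mem R X i _) (hk_mem R X i _) (hη u)).symm
  rw [← e3, ← Finset.sum_mul]
  have e4 : ∑ u : Fˣ, (χ (hH R X i (-(η * u))) : k) = ∑ u : Fˣ, (χ (hH R X i u) : k) := by
    refine Fintype.sum_equiv ((Equiv.mulLeft η).trans (Equiv.neg Fˣ)) _ _ fun u => ?_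
    rfl
  rw [e4]
  have e5 : ∑ u : Fˣ, (((Units.coeHom k).comp (χ.comp (hH R X i))) u : k) = 0 := by
    apply sum_hom_units_eq_zero
    intro h
    apply hχ
    rw [TrK_iff]
    intro u
    have := DFunLike.congr_fun h u
    exact Units.ext this
  have e6 : ∑ u : Fˣ, (χ (hH R X i u) : k) = 0 := e5
  rw [e6, zero_mul]

end chev

end H45.CR
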