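import Cfsg.Agent.Lib.H45.CR8
import Cfsg.Agent.Lib.H22.ChevOrder

/-!
# Curtis–Richen theory 9: the number of semisimple classes of the Chevalley groups
-/

set_option autoImplicit false
set_option linter.unusedSectionVars false
set_option linter.style.haveILetI false

open H22.RGD H22.Coord
open H22.RCCheck H22.RCComb H22.ChevTri H22.ChevRel H22.ChevSys H22.ChevMain H22.ChevStd H22.ChevTorus
open Cfsg.Lie (ChevalleyDatum)
open scoped MatrixGroups Matrix

universe u

namespace H45.CR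

theorem chev_classes {D : ChevalleyDatum} {F : Type u} [Field F] [Fintype F] (R : Rel D F) (X : RCX D)
    {q : ℕ} (hq : Fintype.card F = q) (p : ℕ) [hp : Fact p.Prime] [CharP F p]
    (hker : (chi D F).ker = ⊥) :
    Nat.card {c : ConjClasses ↥(D.group F) // ∃ g : ↥(D.group F), ConjClasses.mk g = c ∧
      (orderOf g).Coprime p} = q ^ D.rank := by
  classical
  have hU : IsPGroup p (CS R X).U := by
    have h1 : IsPGroup p ((CS R X).U.map (D.group F).subtype) := by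
      rw [CS_U_map]; exact H47.ChevSt.isPGroup_U R X
    exact h1.of_equiv ((CS R X).U.equivMapOfInjective _ (D.group F).subtype_injective).symm
  have hH : ¬ p ∣ Nat.card (CS R X).H := by
    have h1 : Nat.card (CS R X).H = Nat.card (D.diagonalSubgroup F) :=
      Nat.card_congr (Subgroup.subgroupOfEquivOfLe (H_le_group R X)).toEquiv
    rw [h1]
    exact H47.ChevSt.not_dvd_card_H R X
  have hcomm : ∀ a ∈ (CS R X).H, ∀ b ∈ (CS R X).H, a * b = b * a := by
    intro a ha b hb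
    have h1 := (ThE R X hker).apply_symm_apply ⟨a, ha⟩
    have h2 := (ThE R X hker).apply_symm_apply ⟨b, hb⟩
    have h3 : (⟨a, ha⟩ : (CS R X).H) * ⟨b, hb⟩ = ⟨b, hb⟩ * ⟨a, ha⟩ := by
      rw [← h1, ← h2]
      exact (map_mul (ThE R X hker) _ _).symm.trans
        ((congrArg (ThE R X hker) (mul_comm _ _)).trans (map_mul (ThE R X hker) _ _))
    exact congrArg Subtype.val h3
  obtain ⟨k, _, _, _, hk⟩ := card_classes (CS R X) (coord X) hp.1 (CS_Γ R X) hU hH hcomm
    (n_mem_Li R X) (fun k _ _ i χ h => ci_zero R X χ i h)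
  rw [hk]
  have hT : Nat.card Fˣ = q - 1 := by rw [Nat.card_eq_fintype_card, Fintype.card_units, hq]
  have hpq : p ∣ q := by
    obtain ⟨n, -, hn⟩ := FiniteField.card F p
    rw [← hq, hn]
    exact dvd_pow_self p n.ne_zero
  have hq1 : 1 < q := by rw [← hq]; exact Fintype.one_lt_card
  have hTp : ¬ p ∣ Nat.card Fˣ := by
    rw [hT]
    intro h
    have h1 : p ∣ 1 := by
      have := (Nat.dvd_sub_iff_right (Nat.sub_le q 1) hpq).2 h
      rwa [Nat.sub_sub_self hq1.le] at this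
    exact hp.1.one_lt.ne' (Nat.dvd_one.1 h1)
  have h1 := card_weights (k := k) hp.1 hTp (ThE R X hker)
  have h2 : Nat.card {x : ((CS R X).H →* kˣ) × Set (Fin D.rank) // ∀ j ∈ x.2, TrK (CS R X) x.1 j} =
      Nat.card {x : ((CS R X).H →* kˣ) × Set (Fin D.rank) // ∀ j ∈ x.2, ∀ u : Fˣ,
        x.1 (ThE R X hker (Pi.mulSingle j u)) = 1} := by
    refine Nat.card_congr (Equiv.subtypeEquivRight fun x => ?_)
    refine forall_congr' fun j => ?_
    refine imp_congr_right fun _ => ?_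
    rw [TrK_iff]
    simp_rw [hH_eq R X hker]
  rw [h2, h1, hT, Nat.sub_add_cancel hq1.le, Fintype.card_fin]

theorem s2382 {F : Type u} [Field F] [Fintype F] {q : ℕ} (hq : Fintype.card F = q) (p : ℕ)
    [Fact p.Prime] [CharP F p]
    (D : Cfsg.Lie.ChevalleyDatum) (hD : D ∈ [Cfsg.Lie.chevG2, Cfsg.Lie.chevF4, Cfsg.Lie.chevE8]) :
    Nat.card {c : ConjClasses ↥(D.group F) // ∃ g : ↥(D.group F), ConjClasses.mk g = c ∧
      (orderOf g).Coprime p} = q ^ D.rank := by
  have hD' : D ∈ [Cfsg.Lie.chevG2, Cfsg.Lie.chevB2, Cfsg.Lie.chevD4, Cfsg.Lie.chevF4,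
      Cfsg.Lie.chevE6, Cfsg.Lie.chevE7, Cfsg.Lie.chevE8] := by
    simp only [List.mem_cons, List.not_mem_nil, or_false] at hD ⊢
    tauto
  obtain ⟨X, -⟩ := H22.ChevRC.exists_rcx hD'
  refine chev_classes (H22.ChevAll.rel D hD' F) X hq p (Subgroup.card_eq_one.1 ?_)
  simp only [List.mem_cons, List.not_mem_nil, or_false] at hD
  rcases hD with rfl | rfl | rfl
  · exact H22.ChevTorusCard.kerG2 hq
  · exact H22.ChevTorusCard.kerF4 hq
  · exact H22.ChevTorusCard.kerE8 hq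

theorem s2383 {F : Type u} [Field F] [Fintype F] {q : ℕ} (hq : Fintype.card F = q) [CharP F 2]
    (D : Cfsg.Lie.ChevalleyDatum) (hD : D ∈ [Cfsg.Lie.chevB2, Cfsg.Lie.chevD4, Cfsg.Lie.chevE7]) :
    Nat.card {c : ConjClasses ↥(D.group F) // ∃ g : ↥(D.group F), ConjClasses.mk g = c ∧ Odd (orderOf g)} =
      q ^ D.rank := by
  have hD' : D ∈ [Cfsg.Lie.chevG2, Cfsg.Lie.chevB2, Cfsg.Lie.chevD4, Cfsg.Lie.chevF4,
      Cfsg.Lie.chevE6, Cfsg.Lie.chevE7, Cfsg.Lie.chevE8] := by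
    simp only [List.mem_cons, List.not_mem_nil, or_false] at hD ⊢
    tauto
  haveI : Fact (Nat.Prime 2) := ⟨Nat.prime_two⟩
  have hqe : 2 ∣ q := by
    obtain ⟨n, -, hn⟩ := FiniteField.card F 2
    rw [← hq, hn]
    exact dvd_pow_self 2 n.ne_zero
  have hq1 : 1 < q := by rw [← hq]; exact Fintype.one_lt_card
  have hgcd : Nat.gcd 2 (q - 1) = 1 := by
    rw [← Nat.Coprime, Nat.coprime_two_left, Nat.odd_iff]
    omega
  obtain ⟨X, -⟩ := H22.ChevRC.exists_rcx hD'
  have h1 := chev_classes (H22.ChevAll.rel D hD' F) X hq 2 (Subgroup.card_eq_one.1 (by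
    simp only [List.mem_cons, List.not_mem_nil, or_false] at hD
    rcases hD with rfl | rfl | rfl
    · rw [H22.ChevTorusCard.kerB2 hq, hgcd]
    · rw [H22.ChevTorusCard.kerD4 hq, hgcd, one_pow]
    · rw [H22.ChevTorusCard.kerE7 hq, hgcd]))
  rw [← h1]
  refine Nat.card_congr (Equiv.subtypeEquivRight fun c => ?_)
  refine exists_congr fun g => and_congr_right fun _ => ?_
  rw [Nat.coprime_two_right]

theorem s2404 {F : Type u} [Field F] [Fintype F] {q : ℕ} (hq : Fintype.card F = q) (hq3 : q % 3 ≠ 1)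
    (p : ℕ) [Fact p.Prime] [CharP F p] :
    Nat.card {c : ConjClasses ↥(Cfsg.Lie.chevE6.group F) // ∃ g : ↥(Cfsg.Lie.chevE6.group F),
      ConjClasses.mk g = c ∧ (orderOf g).Coprime p} = q ^ 6 := by
  have hD' : Cfsg.Lie.chevE6 ∈ [Cfsg.Lie.chevG2, Cfsg.Lie.chevB2, Cfsg.Lie.chevD4, Cfsg.Lie.chevF4,
      Cfsg.Lie.chevE6, Cfsg.Lie.chevE7, Cfsg.Lie.chevE8] := by
    simp
  have hq1 : 1 < q := by rw [← hq]; exact Fintype.one_lt_card
  have hgcd : Nat.gcd 3 (q - 1) = 1 := by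
    rw [← Nat.Coprime, Nat.Prime.coprime_iff_not_dvd Nat.prime_three]
    omega
  obtain ⟨X, -⟩ := H22.ChevRC.exists_rcx hD'
  exact chev_classes (H22.ChevAll.rel _ hD' F) X hq p (Subgroup.card_eq_one.1 (by
    rw [H22.ChevTorusCard.kerE6 hq, hgcd]))

end H45.CR
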