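import Mathlib
import Cfsg.Agent.Lib.H45.ChevZ
import Cfsg.Agent.Lib.H45.DefBlk
import Cfsg.Agent.Lib.H22.StSys

/-!
# Blocks of the Chevalley groups in defining characteristic (helper45)
-/

set_option autoImplicit false
set_option linter.unusedSectionVars false
set_option linter.unusedVariables false

namespace H45.ChevBlk

open H22.RGD H22.Coord H22.RCCheck H22.RCComb H22.ChevTri H22.ChevRel H22.ChevSys H22.ChevMain
open H22.ChevPar H45.BTits H45.LemZ H45.ChevBT H45.ChevZ H45.DefBlk Cfsg
open Cfsg.Lie (ChevalleyDatum)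
open scoped MatrixGroups Matrix

variable {D : ChevalleyDatum} {F : Type} [Field F] [Fintype F] (R : Rel D F) (X : RCX D)
variable {p : ℕ} [hp : Fact p.Prime] [CharP F p]

include R X in
theorem bt (hc : Conn (coord X)) : BT p (D.group F) := by
  intro P hP hne
  set P' : Subgroup (GL D.Idx F) := P.map (D.group F).subtype with hP'
  have hP'G : P' ≤ D.group F := by
    rintro _ ⟨y, _, rfl⟩
    exact y.2
  have hP'p : IsPGroup p P' := hP.map _
  have hP'ne : P' ≠ ⊥ := by
    rw [Ne, Subgroup.map_eq_bot_iff_of_injective _ (D.group F).subtype_injective]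
    exact hne
  obtain ⟨g, hg, J, hJ, h1, h2⟩ := borel_tits R X hP'G hP'p hP'ne
  set Q : Subgroup (GL D.Idx F) := cj g (H47.SysSt.RJ (chevSys R X) (coord X) J) with hQ
  have hRJ : H47.SysSt.RJ (chevSys R X) (coord X) J ≤ D.posUnipotent F := by
    rw [← chevSys_U R X]
    exact H47.SysSt.RJ_le_U _ _ _
  have hRG : H47.SysSt.RJ (chevSys R X) (coord X) J ≤ D.group F := by
    refine hRJ.trans ?_
    rw [← chevSys_U R X, ← chevSys_Γ R X]
    exact (chevSys R X).U_le_B.trans (chevSys R X).B_le_Γ
  refine ⟨Q.subgroupOf (D.group F), ?_, ?_, ?_, ?_⟩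
  · have h3 : IsPGroup p Q := ((H47.ChevSt.isPGroup_U R X (p := p)).to_le hRJ).map _
    exact h3.comap_of_injective (D.group F).subtype (D.group F).subtype_injective
  · intro y hy
    rw [Subgroup.mem_subgroupOf]
    exact h2 ⟨y, hy, rfl⟩
  · intro y hy
    have hy' : (y : GL D.Idx F) ∈ stabSub P' := by
      rw [stabSub_eq_normalizer, Subgroup.mem_normalizer_iff]
      rw [Subgroup.mem_normalizer_iff] at hy
      intro z
      constructor
      · rintro ⟨w, hw, rfl⟩
        exact ⟨y * w * y⁻¹, (hy w).1 hw, rfl⟩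
      · rintro ⟨w, hw, e⟩
        have e' : z = ((y⁻¹ * w * y : D.group F) : GL D.Idx F) := by
          have e2 : (w : GL D.Idx F) = y * z * (y : GL D.Idx F)⁻¹ := e
          push_cast
          rw [e2]; group
        rw [e']
        refine ⟨y⁻¹ * w * y, (hy _).2 ?_, rfl⟩
        have : y * (y⁻¹ * w * y) * y⁻¹ = w := by group
        rw [this]; exact hw
    have h3 := h1 y y.2 hy'
    have h4 : g⁻¹ * (y : GL D.Idx F) * g ∈ stabSub (H47.SysSt.RJ (chevSys R X) (coord X) J) := by
      have h5 : (chevSys R X).par J ≤ stabSub (H47.SysSt.RJ (chevSys R X) (coord X) J) :=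
        le_stabSub_of_conj (hcj R X J)
      exact h5 h3
    have h6 : (y : GL D.Idx F) ∈ stabSub Q := by
      rw [mem_stabSub] at h4 ⊢
      rw [hQ]
      conv_rhs => rw [← h4]
      rw [← cj_mul, ← cj_mul]
      congr 1
      group
    rw [stabSub_eq_normalizer, Subgroup.mem_normalizer_iff] at h6
    rw [Subgroup.mem_normalizer_iff]
    intro z
    exact h6 z
  · intro x hx hxc
    have h3 : g⁻¹ * (x : GL D.Idx F) * g = 1 := by
      refine lemZ R X hc (p := p) hJ ((D.group F).mul_mem ((D.group F).mul_mem ((D.group F).inv_mem hg) x.2) hg) ?_ ?_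
      · have e1 : orderOf (g⁻¹ * (x : GL D.Idx F) * g) = orderOf x := by
          have := MulEquiv.orderOf_eq (MulAut.conj g⁻¹) (x : GL D.Idx F)
          rw [MulAut.conj_apply, inv_inv] at this
          rw [this, Subgroup.orderOf_coe]
        rw [e1]; exact hx
      · intro y hy
        have hyG := hRG hy
        have h4 : (⟨g * y * g⁻¹, (D.group F).mul_mem ((D.group F).mul_mem hg hyG) ((D.group F).inv_mem hg)⟩ : D.group F) ∈
            Q.subgroupOf (D.group F) := by
          rw [Subgroup.mem_subgroupOf]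
          exact conj_mem_cj hy
        have h5 := (Subgroup.mem_centralizer_iff.1 hxc) _ h4
        have h6 : g * y * g⁻¹ * (x : GL D.Idx F) = x * (g * y * g⁻¹) := congrArg Subtype.val h5
        calc g⁻¹ * (x : GL D.Idx F) * g * y = g⁻¹ * (x * (g * y * g⁻¹)) * g := by group
          _ = g⁻¹ * (g * y * g⁻¹ * (x : GL D.Idx F)) * g := by rw [h6]
          _ = _ := by group
    have h4 : (x : GL D.Idx F) = 1 := by
      have e : (x : GL D.Idx F) = g * (g⁻¹ * (x : GL D.Idx F) * g) * g⁻¹ := by group
      rw [e, h3]; group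
    have h5 : x = 1 := Subtype.ext h4
    rw [h5]; exact Subgroup.one_mem _

include R X in
theorem center_bot : Subgroup.center (D.group F) = ⊥ := by
  rw [eq_bot_iff]
  intro z hz
  rw [Subgroup.mem_bot]
  apply Subtype.ext
  apply H22.St.center_trivial R X z.2
  intro g hg
  exact (congrArg Subtype.val (Subgroup.mem_center_iff.1 hz ⟨g, hg⟩)).symm

include R X in
theorem charDegree_st : charDegree (D.steinbergCharacter F) = Nat.card (D.posUnipotent F) := by
  show ⌊((D.steinbergCharacter F) 1).re⌋₊ = _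
  rw [H47.ChevSt.steinberg_eq R X, H47.SysSt.St_one (chevSys R X) (D.group F) (chevSys_Γ R X) ((coord X).exists_longest), chevSys_U]
  simp

include R X in
theorem card_defzero : Nat.card {χ : IrrCharacter (D.group F) //
    (charDegree (χ : D.group F → ℂ)).factorization p = (Nat.card (D.group F)).factorization p} = 1 := by
  rw [Nat.card_eq_one_iff_unique]
  have hall : ∀ χ : IrrCharacter (D.group F), (charDegree (χ : D.group F → ℂ)).factorization p = (Nat.card (D.group F)).factorization p →
      (χ : D.group F → ℂ) = D.steinbergCharacter F := by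
    intro χ hχ
    refine H47.ChevSt.s2318 R X p _ χ.2 ⟨charDegree (χ : D.group F → ℂ), (H20.Defect.charDegree_irr χ).symm, ?_⟩
    rw [← hχ]
    exact Nat.ordProj_dvd _ _
  refine ⟨⟨fun a b => Subtype.ext (Subtype.ext ?_)⟩, ⟨⟨⟨D.steinbergCharacter F, H47.ChevSt.s2311 R X⟩, ?_⟩⟩⟩
  · rw [hall a.1 a.2, hall b.1 b.2]
  · show (charDegree (D.steinbergCharacter F)).factorization p = _
    rw [charDegree_st R X, ← H47.ChevSt.card_sylow R X p, Nat.factorization_pow, Finsupp.smul_apply,
      Nat.Prime.factorization_self hp.out, smul_eq_mul, mul_one]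

include R X in
theorem card_blocks (hc : Conn (coord X)) {M : Ideal AlgInt} (hM : IsPModular p M) (hr : 0 < D.rank) :
    Nat.card {B : Set (IrrCharacter (D.group F)) // IsPBlock M B} = 2 := by
  obtain ⟨P, hP⟩ := H47.ChevSt.s2326 R X (F := F) p
  have hUne : D.posUnipotent F ≠ ⊥ := by
    intro h
    apply (chevSys R X).nontriv ((comb X).simple ⟨0, hr⟩)
    rw [eq_bot_iff, ← h, ← chevSys_U R X]
    exact (chevSys R X).X_le_U ((comb X).simple_pos _)
  have hPne : (P : Subgroup (D.group F)) ≠ ⊥ := by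
    intro h
    apply hUne
    rw [hP] at h
    rw [eq_bot_iff]
    intro u hu
    have huG : u ∈ D.group F := by
      rw [← chevSys_U R X] at hu
      rw [← chevSys_Γ R X]
      exact (chevSys R X).B_le_Γ ((chevSys R X).U_le_B hu)
    have h1 : (⟨u, huG⟩ : D.group F) ∈ (D.posUnipotent F).subgroupOf (D.group F) := by
      rw [Subgroup.mem_subgroupOf]; exact hu
    rw [h, Subgroup.mem_bot] at h1
    rw [Subgroup.mem_bot]
    exact congrArg Subtype.val h1
  obtain ⟨U, hU, hle, -, hC⟩ := bt R X (p := p) hc P P.isPGroup' hPne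
  have h1 : U = P := P.is_maximal' hU hle
  rw [h1] at hC
  have hf : (Nat.card (D.group F)).factorization p ≠ 0 := by
    intro h
    have h2 := H47.ChevSt.card_sylow R X (F := F) p
    rw [h, pow_zero] at h2
    exact hUne (Subgroup.card_eq_one.1 h2.symm)
  rw [DefBlk.card_blocks hM (bt R X hc) P hf hC ?_ (card_defzero R X), center_bot R X, Subgroup.card_bot]
  intro x hx
  rw [center_bot R X, Subgroup.mem_bot] at hx
  rw [hx, orderOf_one]
  exact fun h => hp.out.one_lt.ne' (Nat.dvd_one.1 h)

theorem s2441 {D : ChevalleyDatum} (hD : D ∈ [Cfsg.Lie.chevG2, Cfsg.Lie.chevB2, Cfsg.Lie.chevD4, Cfsg.Lie.chevF4, Cfsg.Lie.chevE6, Cfsg.Lie.chevE7, Cfsg.Lie.chevE8])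
    (hr : 0 < D.rank) {M : Ideal AlgInt} (hM : IsPModular p M) :
    Nat.card {B : Set (IrrCharacter (D.group F)) // IsPBlock M B} = 2 := by
  obtain ⟨X, -⟩ := H22.ChevRC.exists_rcx hD
  exact card_blocks (H22.ChevAll.rel D hD F) X (conn_of_connP X (connP_all hD)) hM hr

end H45.ChevBlk
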