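import Mathlib
import Cfsg.Agent.Lib.H45.ChevZ
import Cfsg.Agent.Lib.H26.GenFitting

/-!
# The generalized Fitting subgroup of a parabolic subgroup (helper45)
-/

set_option autoImplicit false
set_option linter.unusedSectionVars false
set_option linter.unusedVariables false

namespace H45.ChevFS

open H22.RGD H22.Coord H22.RCCheck H22.RCComb H22.ChevTri H22.ChevRel H22.ChevSys H22.ChevMain
open H22.ChevPar H45.BTits H45.LemZ H45.ChevBT H45.ChevZ Cfsg
open Cfsg.Lie (ChevalleyDatum)
open scoped MatrixGroups Matrix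

variable {D : ChevalleyDatum} {F : Type*} [Field F] [Fintype F] (R : Rel D F) (X : RCX D)
variable {p : ℕ} [hp : Fact p.Prime] [CharP F p]

theorem isPGroup_of_regular {G : Type*} [Group G] [Finite G] (C : Subgroup G)
    (h : ∀ x ∈ C, ¬ p ∣ orderOf x → x = 1) : IsPGroup p C := by
  intro x
  have hn : orderOf (x : G) ≠ 0 := (orderOf_pos _).ne'
  refine ⟨(orderOf (x : G)).factorization p, ?_⟩
  apply Subtype.ext
  show (x : G) ^ p ^ (orderOf (x : G)).factorization p = 1
  apply h _ (C.pow_mem x.2 _)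
  rw [orderOf_pow' _ (pow_ne_zero _ hp.out.ne_zero), Nat.gcd_eq_right (Nat.ordProj_dvd _ _)]
  exact Nat.not_dvd_ordCompl hp.out hn

include R X in
theorem main (hc : Conn (coord X)) (J : Set ℕ) (hJ : ∃ i, i < D.rank ∧ i ∉ J) :
    IsPGroup p ↥(Cfsg.generalizedFittingSubgroup ↥(D.parabolicSubgroup F J)) := by
  set P := D.parabolicSubgroup F J with hP
  set J' : Set (Fin D.rank) := {i | (i : ℕ) ∈ J} with hJ'
  have hPe : P = (chevSys R X).par J' := H22.ChevPar.par_eq R X J
  have hJ'ne : J' ≠ Set.univ := by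
    obtain ⟨i, hi, hiJ⟩ := hJ
    intro h
    apply hiJ
    have : (⟨i, hi⟩ : Fin D.rank) ∈ J' := by rw [h]; trivial
    exact this
  have hfin : Finite P := inferInstance
  rw [H26.GenFitting.isPGroup_gFitting_iff, H26.GenFitting.gFitting_eq_pCore_iff]
  have hRP : H47.SysSt.RJ (chevSys R X) (coord X) J' ≤ P := by
    rw [hPe]
    exact (H47.SysSt.RJ_le_U _ _ _).trans ((chevSys R X).U_le_B.trans ((chevSys R X).B_le_par _))
  have hRn : ((H47.SysSt.RJ (chevSys R X) (coord X) J').subgroupOf P).Normal := by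
    constructor
    intro x hx g
    rw [Subgroup.mem_subgroupOf] at hx ⊢
    exact hcj R X J' g (by rw [← hPe]; exact g.2) x hx
  have hRp : IsPGroup p ((H47.SysSt.RJ (chevSys R X) (coord X) J').subgroupOf P) := by
    have h1 : H47.SysSt.RJ (chevSys R X) (coord X) J' ≤ D.posUnipotent F := by
      rw [← chevSys_U R X]
      exact H47.SysSt.RJ_le_U _ _ _
    exact ((H47.ChevSt.isPGroup_U R X (p := p)).to_le h1).comap_of_injective P.subtype P.subtype_injective
  have hRc : (H47.SysSt.RJ (chevSys R X) (coord X) J').subgroupOf P ≤ pCore p P := le_sSup ⟨hRn, hRp⟩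
  have hPG : P ≤ D.group F := by
    rw [hPe, ← chevSys_Γ R X]
    refine sup_le (chevSys R X).B_le_Γ ?_
    rw [Subgroup.closure_le]
    rintro _ ⟨i, -, rfl⟩
    exact (chevSys R X).N_le_Γ ((chevSys R X).n_mem_N i)
  have hCn : (Subgroup.centralizer (pCore p P : Set P)).Normal := by
    have : (pCore p P).Normal := inferInstance
    infer_instance
  have hCp : IsPGroup p (Subgroup.centralizer (pCore p P : Set P)) := by
    apply isPGroup_of_regular
    intro x hx hreg
    apply Subtype.ext
    apply lemZ R X hc (p := p) hJ'ne (hPG x.2) (by rw [Subgroup.orderOf_coe]; exact hreg)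
    intro y hy
    have h1 : (⟨y, hRP hy⟩ : P) ∈ pCore p P := hRc (by rw [Subgroup.mem_subgroupOf]; exact hy)
    exact (congrArg Subtype.val ((Subgroup.mem_centralizer_iff.1 hx) _ h1)).symm
  exact le_sSup ⟨hCn, hCp⟩

end H45.ChevFS
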