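import Cfsg.Agent.Lib.H22.ChevAll
import Cfsg.Prelude.Def_ChevAutomorphisms

/-!
Generation of Chevalley groups by the monomial subgroup and few root subgroups (helper45).
-/

set_option autoImplicit false
set_option linter.unusedSectionVars false

namespace H45.ChevGen

open H22.RCCheck H22.RCComb H22.ChevRel H22.ChevUni H22.ChevLex H22.ChevSys H22.ChevMain H22.RGD
open Cfsg.Lie (ChevalleyDatum)

variable {D : ChevalleyDatum} {F : Type*} [Field F] (R : Rel D F) (X : RCX D)

/-- the root subgroup is contained in `K` -/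
def P (K : Subgroup (GL D.Idx F)) (r : ℕ) : Prop := D.rootSubgroup F r ≤ K

include R X

theorem P_iff {K : Subgroup (GL D.Idx F)} {r : ℕ} : P K r ↔ ∀ t, xg R r t ∈ K := by
  constructor
  · intro h t
    exact h (xg_mem R r t)
  · intro h x hx
    rw [mem_rootSubgroup R] at hx
    obtain ⟨t, rfl⟩ := hx
    exact h t

theorem ns_mem {K : Subgroup (GL D.Idx F)} (hN : D.monomialSubgroup F ≤ K) {i : ℕ}
    (hi : i < D.rank) : ns R i ∈ K := by
  apply hN
  unfold ChevalleyDatum.monomialSubgroup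
  refine Subgroup.mem_sup_right (Subgroup.subset_closure ⟨D.simple i, X.rc.simple_lt i hi, ?_⟩)
  exact ng_val R _ _

theorem P_refl {K : Subgroup (GL D.Idx F)} (hn : ∀ i < D.rank, ns R i ∈ K) {i r : ℕ}
    (hi : i < D.rank) (hr : r < D.nroots) (h : P K r) : P K (D.reflectRoot i r) := by
  have h1 := cj_ns R X ⟨i, hi⟩ ⟨r, hr⟩
  unfold P
  have h2 : D.rootSubgroup F (D.reflectRoot i r) = cj (ns R i) (D.rootSubgroup F r) := h1.symm
  rw [h2]
  rintro _ ⟨x, hx, rfl⟩
  exact K.mul_mem (K.mul_mem (hn i hi) (h hx)) (K.inv_mem (hn i hi))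

theorem P_all {K : Subgroup (GL D.Idx F)} (hn : ∀ i < D.rank, ns R i ∈ K)
    (h : ∀ j < D.rank, P K (D.simple j)) (r : Fin D.nroots) : P K r := by
  obtain ⟨L, i, hL⟩ := exists_simple_conj X r
  have key : ∀ L : List (Fin D.rank), P K ((comb X).w L ((comb X).simple i) : Fin D.nroots) := by
    intro L
    induction L with
    | nil => exact h i i.2
    | cons j L ih =>
      have h1 : ((comb X).w (j :: L) ((comb X).simple i) : Fin D.nroots) =
        (comb X).refl j ((comb X).w L ((comb X).simple i)) := rfl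
      rw [h1, comb_refl_val]
      exact P_refl R X hn j.2 ((comb X).w L ((comb X).simple i)).2 ih
  rw [← hL]
  exact key L

theorem group_le {K : Subgroup (GL D.Idx F)} (hn : ∀ i < D.rank, ns R i ∈ K)
    (h : ∀ j < D.rank, P K (D.simple j)) : D.group F ≤ K := by
  rw [group_eq_closure, Subgroup.closure_le]
  rintro g ⟨r, t, hr, hg⟩
  rw [xg_eq R hg]
  exact (P_iff R X).1 (P_all R X hn h ⟨r, hr⟩) t

/-- a commutator step -/
theorem P_comm {K : Subgroup (GL D.Idx F)} {r s k : ℕ} {c : ℤ} (hr : r < D.nroots)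
    (hs : s < D.nroots) (h1 : s ≠ r) (h2 : s ≠ D.neg r) (hc : D.commTerms r s = [(k, c, 1, 1)])
    (hc0 : (c : F) ≠ 0) (hPr : P K r) (hPs : P K s) : P K k := by
  rw [P_iff R X] at hPr hPs ⊢
  intro t
  have h3 := comm_g R hr hs h1 h2 (1 : F) (-((c : F)⁻¹ * t))
  have h4 : wg R (D.commWord F r s 1 (-((c : F)⁻¹ * t))) = xg R k t := by
    unfold ChevalleyDatum.commWord
    rw [hc]
    simp only [List.map_cons, List.map_nil, pow_one, wg, List.prod_cons, List.prod_nil, mul_one]
    congr 1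
    field_simp
  rw [h4] at h3
  have h5 : xg R k t = (xg R r 1 * xg R s (-((c : F)⁻¹ * t)))⁻¹ *
      (xg R s (-((c : F)⁻¹ * t)) * xg R r 1) := by
    rw [h3]; group
  rw [h5]
  exact K.mul_mem (K.inv_mem (K.mul_mem (hPr _) (hPs _))) (K.mul_mem (hPs _) (hPr _))

omit R X in
/-- adjacency by a simple bond -/
def adj (D : ChevalleyDatum) (i j : ℕ) : Bool :=
  decide (D.reflectRoot i (D.reflectRoot j (D.simple i)) = D.simple j)

omit R X in
/-- closure under adjacency -/
def reach (D : ChevalleyDatum) : ℕ → List ℕ → List ℕ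
  | 0, S => S
  | n + 1, S => reach D n ((List.range D.rank).filter
      (fun j => S.contains j || S.any (fun i => adj D i j)))

theorem P_adj {K : Subgroup (GL D.Idx F)} (hn : ∀ i < D.rank, ns R i ∈ K) {i j : ℕ}
    (hi : i < D.rank) (hj : j < D.rank) (ha : adj D i j = true) (h : P K (D.simple i)) :
    P K (D.simple j) := by
  unfold adj at ha
  rw [decide_eq_true_iff] at ha
  rw [← ha]
  refine P_refl R X hn hi ?_ (P_refl R X hn hj (X.rc.simple_lt i hi) h)
  exact X.rc.refl_lt j hj _ (X.rc.simple_lt i hi)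

theorem P_reach {K : Subgroup (GL D.Idx F)} (hn : ∀ i < D.rank, ns R i ∈ K) (n : ℕ) :
    ∀ S : List ℕ, (∀ i ∈ S, i < D.rank ∧ P K (D.simple i)) → ∀ j ∈ reach D n S,
      P K (D.simple j) := by
  induction n with
  | zero =>
    intro S hS j hj
    exact (hS j hj).2
  | succ n ih =>
    intro S hS j hj
    refine ih _ ?_ j hj
    intro i hi
    rw [List.mem_filter, List.mem_range] at hi
    refine ⟨hi.1, ?_⟩
    have h2 := hi.2
    rw [Bool.or_eq_true, List.contains_iff_mem, List.any_eq_true] at h2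
    rcases h2 with h2 | ⟨k, hk, h2⟩
    · exact (hS i h2).2
    · exact P_adj R X hn (hS k hk).1 hi.1 h2 (hS k hk).2

theorem group_le_of_reach {K : Subgroup (GL D.Idx F)} (hn : ∀ i < D.rank, ns R i ∈ K)
    (S : List ℕ) (hS : ∀ i ∈ S, i < D.rank ∧ P K (D.simple i)) (n : ℕ)
    (hr : ∀ j < D.rank, j ∈ reach D n S) : D.group F ≤ K :=
  group_le R X hn fun j hj => P_reach R X hn n S hS j (hr j hj)

end H45.ChevGen
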