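import Cfsg.Agent.Lib.H22.CoxCalc

/-!
Centres of the Coxeter groups G₂, B₂, D₄, F₄, E₆, E₇, E₈.
-/

set_option autoImplicit false

namespace H45.CoxCen

open H22.RGD H22.Coord H22.Poincare H22.CoxIso H22.RCComb H22.CoxCalc

section general

variable {Φ : Type*} {l : ℕ} {C : RootComb Φ (Fin l)} (K : CoordSys C)

theorem central_simple {z : C.W} (hz : z ∈ Subgroup.center C.W) (i : Fin l) :
    (z : Equiv.Perm Φ) (C.simple i) = C.simple i ∨
      (z : Equiv.Perm Φ) (C.simple i) = C.neg (C.simple i) := by
  have h1 : (z : Equiv.Perm Φ) * C.refl i = C.refl i * z := by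
    have := Subgroup.mem_center_iff.1 hz (fr C i)
    have h2 := congrArg Subtype.val this
    rw [Subgroup.coe_mul, Subgroup.coe_mul] at h2
    exact h2.symm
  have h2 : C.refl i ((z : Equiv.Perm Φ) (C.simple i)) = C.neg ((z : Equiv.Perm Φ) (C.simple i)) := by
    have := congrArg (fun f : Equiv.Perm Φ => f (C.simple i)) h1
    simp only [Equiv.Perm.mul_apply] at this
    rw [C.refl_simple, C.W_neg z.2] at this
    exact this.symm
  set r := (z : Equiv.Perm Φ) (C.simple i) with hr
  by_cases hp : C.pos r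
  · left
    by_contra hne
    have := C.refl_pos i r hp hne
    rw [h2, C.pos_neg] at this
    exact this hp
  · right
    by_contra hne
    have hp' : C.pos (C.neg r) := (C.pos_neg r).2 hp
    have hne' : C.neg r ≠ C.simple i := by
      intro h; apply hne; rw [← h, C.neg_neg]
    have := C.refl_pos i _ hp' hne'
    rw [C.refl_neg, h2, C.neg_neg] at this
    exact hp this

theorem simple_ne_neg (i : Fin l) : C.simple i ≠ C.neg (C.simple i) := by
  intro h
  have h1 := (C.pos_neg (C.simple i)).1 (h ▸ C.simple_pos i)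
  exact h1 (C.simple_pos i)

include K in
/-- adjacent nodes have the same sign -/
theorem sign_adj {z : C.W} (hz : z ∈ Subgroup.center C.W) {i j : Fin l} (hA : K.A i j ≠ 0)
    (hij : i ≠ j) (hi : (z : Equiv.Perm Φ) (C.simple i) = C.simple i) :
    (z : Equiv.Perm Φ) (C.simple j) = C.simple j := by
  rcases central_simple hz j with h | h
  · exact h
  exfalso
  have h1 : (z : Equiv.Perm Φ) (C.refl i (C.simple j)) = C.refl i ((z : Equiv.Perm Φ) (C.simple j)) := by
    have := Subgroup.mem_center_iff.1 hz (fr C i)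
    have h2 := congrArg Subtype.val this
    rw [Subgroup.coe_mul, Subgroup.coe_mul] at h2
    exact (congrArg (fun f : Equiv.Perm Φ => f (C.simple j)) h2).symm
  have h2 := congrArg (fun r => K.co r i) h1
  rw [K.co_mul_refl z.2, h, hi, K.co_refl_self, K.pair_neg, K.pair_simple] at h2
  rw [K.co_neg, K.co_simple, K.co_simple, if_neg hij, if_pos rfl] at h2
  omega

include K in
theorem sign_adj' {z : C.W} (hz : z ∈ Subgroup.center C.W) {i j : Fin l} (hA : K.A i j ≠ 0)
    (hij : i ≠ j) (hi : (z : Equiv.Perm Φ) (C.simple i) = C.neg (C.simple i)) :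
    (z : Equiv.Perm Φ) (C.simple j) = C.neg (C.simple j) := by
  rcases central_simple hz j with h | h
  · exfalso
    have h1 : (z : Equiv.Perm Φ) (C.refl i (C.simple j)) =
        C.refl i ((z : Equiv.Perm Φ) (C.simple j)) := by
      have := Subgroup.mem_center_iff.1 hz (fr C i)
      have h2 := congrArg Subtype.val this
      rw [Subgroup.coe_mul, Subgroup.coe_mul] at h2
      exact (congrArg (fun f : Equiv.Perm Φ => f (C.simple j)) h2).symm
    have h2 := congrArg (fun r => K.co r i) h1
    rw [K.co_mul_refl z.2, h, hi, K.co_refl_self, K.pair_simple] at h2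
    rw [K.co_neg, K.co_simple, K.co_simple, if_neg hij, if_pos rfl] at h2
    omega
  · exact h

/-- connectivity check by a path -/
def pathB (rows : List (List ℤ)) : ℕ → List ℕ → Bool
  | _, [] => true
  | i, j :: L => !(Nat.beq i j) && !((rows.getD i []).getD j 0 == 0) && pathB rows j L

def conB (rows : List (List ℤ)) (l : ℕ) (L : List ℕ) : Bool :=
  pathB rows 0 L && (L.all fun j => Nat.blt j l) && (List.range l).all fun k => (0 :: L).contains k

include K in
theorem path_const {rows : List (List ℤ)} (hr : RowsOk K rows) {z : C.W}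
    (hz : z ∈ Subgroup.center C.W) :
    ∀ (L : List ℕ) (i : ℕ) (hi : i < l), (L.all fun j => Nat.blt j l) = true →
      pathB rows i L = true →
      (∀ j (hj : j < l), j ∈ i :: L →
        ((z : Equiv.Perm Φ) (C.simple ⟨i, hi⟩) = C.simple ⟨i, hi⟩ →
          (z : Equiv.Perm Φ) (C.simple ⟨j, hj⟩) = C.simple ⟨j, hj⟩) ∧
        ((z : Equiv.Perm Φ) (C.simple ⟨i, hi⟩) = C.neg (C.simple ⟨i, hi⟩) →
          (z : Equiv.Perm Φ) (C.simple ⟨j, hj⟩) = C.neg (C.simple ⟨j, hj⟩)))
  | [], i, hi, _, _, j, hj, hm => by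
    rw [List.mem_singleton] at hm
    subst hm
    exact ⟨fun h => h, fun h => h⟩
  | k :: L, i, hi, hL, hp, j, hj, hm => by
    rw [List.all_cons, Bool.and_eq_true] at hL
    have hk : k < l := by
      have := hL.1
      simpa [Nat.blt_eq] using this
    unfold pathB at hp
    simp only [Bool.and_eq_true, Bool.not_eq_true', beq_eq_false_iff_ne, ne_eq] at hp
    obtain ⟨⟨h1, h2⟩, h3⟩ := hp
    have hik : i ≠ k := by
      rintro rfl
      rw [Nat.beq_refl] at h1
      exact Bool.noConfusion h1
    have hik' : (⟨i, hi⟩ : Fin l) ≠ ⟨k, hk⟩ := fun h => hik (Fin.ext_iff.1 h)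
    have hA : K.A ⟨i, hi⟩ ⟨k, hk⟩ ≠ 0 := by
      rw [← (hr.2 ⟨i, hi⟩).2 ⟨k, hk⟩]
      exact h2
    rcases List.mem_cons.1 hm with rfl | hm
    · exact ⟨fun h => h, fun h => h⟩
    · have ih := path_const hr hz L k hk hL.2 h3 j hj hm
      exact ⟨fun h => ih.1 (sign_adj K hz hA hik' h), fun h => ih.2 (sign_adj' K hz hA hik' h)⟩

include K in
theorem center_cases {rows : List (List ℤ)} (hr : RowsOk K rows) {L : List ℕ}
    (hL : conB rows l L = true) {z : C.W} (hz : z ∈ Subgroup.center C.W) :
    z = 1 ∨ ∀ i, (z : Equiv.Perm Φ) (C.simple i) = C.neg (C.simple i) := by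
  unfold conB at hL
  simp only [Bool.and_eq_true] at hL
  obtain ⟨⟨h1, h2⟩, h3⟩ := hL
  rw [List.all_eq_true] at h3
  rcases Nat.eq_zero_or_pos l with h0 | h0
  · subst h0
    right
    intro i; exact i.elim0
  have hmem : ∀ j, j < l → j ∈ 0 :: L := by
    intro j hj
    have := h3 j (List.mem_range.2 hj)
    simpa using this
  rcases central_simple hz ⟨0, h0⟩ with h | h
  · left
    apply Subtype.ext
    apply K.ext_of_simple z.2 C.W.one_mem
    intro i
    exact (path_const K hr hz L 0 h0 h2 h1 i i.2 (hmem i i.2)).1 h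
  · right
    intro i
    exact (path_const K hr hz L 0 h0 h2 h1 i i.2 (hmem i i.2)).2 h

/-- is the word minus identity? -/
def minusB (rows : List (List ℤ)) (l : ℕ) (L : List ℕ) : Bool :=
  (List.range l).all fun k => act rows L (ek l k) == (ek l k).map fun x => - x

include K in
theorem w_eq_neg {rows : List (List ℤ)} (hr : RowsOk K rows) {L : List (Fin l)}
    (h : minusB rows l (L.map Fin.val) = true) (i : Fin l) :
    C.w L (C.simple i) = C.neg (C.simple i) := by
  unfold minusB at h
  rw [List.all_eq_true] at h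
  apply K.co_inj
  funext k
  have h1 := h k (List.mem_range.2 k.2)
  rw [beq_iff_eq] at h1
  have h2 := vec_w K hr k L
  rw [h1, ← vec_one K k] at h2
  have h3 : (vec K k l (C.w L)).getD i 0 = ((vec K k l 1).map fun x => -x).getD i 0 := by rw [h2]
  rw [vec_getD K k le_rfl _ i.2] at h3
  have h4 : ((vec K k l 1).map fun x => -x).getD i 0 = -((vec K k l 1).getD i 0) := by
    rw [List.getD_eq_getElem?_getD, List.getElem?_map, List.getD_eq_getElem?_getD]
    cases (vec K k l 1)[(i : ℕ)]? <;> simp
  rw [h4, vec_getD K k le_rfl _ i.2] at h3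
  rw [K.co_neg]
  exact h3

include K in
theorem eq_neg {w : Equiv.Perm Φ} (hw : w ∈ C.W) (h : ∀ i, w (C.simple i) = C.neg (C.simple i))
    (r : Φ) : w r = C.neg r := by
  apply K.co_inj
  funext j
  rw [K.co_of_mem hw, K.co_neg]
  simp_rw [h, K.co_neg, K.co_simple]
  simp

include K in
/-- the case `-1 ∈ W` -/
theorem main_neg {rows : List (List ℤ)} (hr : RowsOk K rows) {N : CoxeterMatrix (Fin l)}
    (h0 : 0 < l)
    (he : ∃ e : C.W ≃* N.Group, ∀ i, e (fr C i) = N.simple i) {L : List ℕ}
    (hL : conB rows l L = true) (m : ℕ)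
    (h : minusB rows l (List.replicate m (List.range l)).flatten = true) :
    Nat.card (Subgroup.center N.Group) = 2 ∧
      Subgroup.center N.Group ≤ Subgroup.zpowers ((List.finRange l).map N.simple).prod := by
  obtain ⟨e, he⟩ := he
  set c : C.W := ((List.finRange l).map (fr C)).prod with hc
  have h1 : ((List.finRange l).map N.simple).prod = e c := by
    rw [hc, map_list_prod, List.map_map]
    congr 1
    apply List.map_congr_left
    intro i _
    exact (he i).symm
  have h2 : (c : Equiv.Perm Φ) = C.w (List.finRange l) := coe_wp _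
  have hz1 : ∀ i, ((c ^ m : C.W) : Equiv.Perm Φ) (C.simple i) = C.neg (C.simple i) := by
    intro i
    rw [Subgroup.coe_pow, h2, w_pow]
    apply w_eq_neg K hr
    have : (List.replicate m (List.finRange l)).flatten.map Fin.val =
        (List.replicate m (List.range l)).flatten := by
      rw [List.map_flatten, List.map_replicate]
      congr 2
      simp
    rw [this]
    exact h
  have hz2 := eq_neg K (c ^ m : C.W).2 hz1
  have hz3 : (c ^ m : C.W) ∈ Subgroup.center C.W := by
    rw [Subgroup.mem_center_iff]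
    intro g
    apply Subtype.ext
    ext r
    rw [Subgroup.coe_mul, Subgroup.coe_mul, Equiv.Perm.mul_apply, Equiv.Perm.mul_apply, hz2, hz2,
      C.W_neg g.2]
  have hz4 : (c ^ m : C.W) ≠ 1 := by
    intro h5
    have := hz1 ⟨0, h0⟩
    rw [h5] at this
    exact simple_ne_neg _ this
  have hall : ∀ z : C.W, z ∈ Subgroup.center C.W → z = 1 ∨ z = c ^ m := by
    intro z hz
    rcases center_cases K hr hL hz with h | h
    · exact Or.inl h
    · right
      apply Subtype.ext
      apply K.ext_of_simple z.2 (c ^ m : C.W).2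
      intro i
      rw [h, hz1]
  have hcen : ∀ z : N.Group, z ∈ Subgroup.center N.Group ↔ z = 1 ∨ z = e (c ^ m) := by
    intro z
    obtain ⟨y, rfl⟩ := e.surjective z
    have : e y ∈ Subgroup.center N.Group ↔ y ∈ Subgroup.center C.W := by
      rw [Subgroup.mem_center_iff, Subgroup.mem_center_iff]
      constructor
      · intro h g
        apply e.injective
        rw [map_mul, map_mul]
        exact h _
      · intro h g
        obtain ⟨g, rfl⟩ := e.surjective g
        rw [← map_mul, ← map_mul, h]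
    rw [this]
    constructor
    · intro hy
      rcases hall y hy with rfl | rfl
      · left; exact map_one e
      · right; rfl
    · rintro (hy | hy)
      · rw [(map_eq_one_iff e e.injective).1 hy]
        exact Subgroup.one_mem _
      · rw [e.injective hy]; exact hz3
  constructor
  · have hset : ((Subgroup.center N.Group : Subgroup N.Group) : Set N.Group) = {1, e (c ^ m)} := by
      ext z
      rw [SetLike.mem_coe, hcen]
      simp
    rw [← SetLike.coe_sort_coe, hset, Nat.card_coe_set_eq]
    exact Set.ncard_pair (fun h => hz4 ((map_eq_one_iff e e.injective).1 h.symm))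
  · intro z hz
    rw [h1]
    rcases (hcen z).1 hz with rfl | rfl
    · exact Subgroup.one_mem _
    · rw [map_pow]
      exact Subgroup.npow_mem_zpowers _ _

/-- the word acts as minus a permutation -/
def twB (rows : List (List ℤ)) (l : ℕ) (σ : List ℕ) (L : List ℕ) : Bool :=
  (List.range l).all fun k => act rows L (ek l k) ==
    (List.range l).map fun j => if Nat.beq (σ.getD j 0) k then (-1 : ℤ) else 0

include K in
theorem len_zero_of_simple [Finite Φ] {w : Equiv.Perm Φ} (hw : w ∈ C.W)
    (h : ∀ i, C.pos (w (C.simple i))) : w = 1 := by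
  apply K.eq_one_of_len_zero hw
  have hpos : ∀ r, C.pos r → C.pos (w r) := by
    intro r hr
    rw [K.pos_iff]
    intro j
    rw [K.co_of_mem hw]
    apply Finset.sum_nonneg
    intro k _
    exact mul_nonneg (K.pos_nonneg r hr k) (K.pos_nonneg _ (h k) j)
  unfold RootComb.len
  rw [Set.ncard_eq_zero (Set.toFinite _), Set.eq_empty_iff_forall_notMem]
  intro r hr
  exact hr.2 (hpos r hr.1)

include K in
/-- the case `-1 ∉ W` -/
theorem main_tw [Finite Φ] {rows : List (List ℤ)} (hr : RowsOk K rows) {N : CoxeterMatrix (Fin l)}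
    (he : ∃ e : C.W ≃* N.Group, ∀ i, e (fr C i) = N.simple i) {L : List ℕ}
    (hL : conB rows l L = true) (σ : List ℕ) (M : List (Fin l))
    (h0 : 0 < l) (hσ0 : σ.getD 0 0 ≠ 0)
    (hσl : ∀ j, j < l → σ.getD j 0 < l)
    (h : twB rows l σ (M.map Fin.val) = true) :
    Subgroup.center N.Group = ⊥ := by
  obtain ⟨e, he⟩ := he
  have hM : ∀ i : Fin l, C.w M (C.simple i) = C.neg (C.simple ⟨σ.getD i 0, hσl i i.2⟩) := by
    intro i
    unfold twB at h
    rw [List.all_eq_true] at h
    apply K.co_inj
    funext k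
    have h1 := h k (List.mem_range.2 k.2)
    rw [beq_iff_eq] at h1
    have h2 := vec_w K hr k M
    rw [h1] at h2
    have h3 : (vec K k l (C.w M)).getD i 0 =
      ((List.range l).map fun j => if Nat.beq (σ.getD j 0) k then (-1 : ℤ) else 0).getD i 0 := by
      rw [h2]
    rw [vec_getD K k le_rfl _ i.2] at h3
    have h4 : ((List.range l).map fun j => if Nat.beq (σ.getD j 0) k then (-1 : ℤ) else 0).getD
        (i : ℕ) 0 = if Nat.beq (σ.getD i 0) k then (-1 : ℤ) else 0 := by
      rw [List.getD_eq_getElem?_getD, List.getElem?_map, List.getElem?_range i.2]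
      rfl
    rw [h4] at h3
    rw [K.co_neg, K.co_simple, h3]
    by_cases hk : σ.getD i 0 = k
    · have h5 : Nat.beq (σ.getD i 0) k = true := by rw [hk]; exact Nat.beq_refl _
      rw [if_pos h5, if_pos (Fin.ext hk.symm)]
    · have h5 : ¬ Nat.beq (σ.getD i 0) k = true := fun h6 => hk (Nat.eq_of_beq_eq_true h6)
      rw [if_neg h5, if_neg (fun h6 => hk (Fin.ext_iff.1 h6).symm)]
      simp
  have hno : ∀ z : C.W, z ∈ Subgroup.center C.W → z = 1 := by
    intro z hz
    rcases center_cases K hr hL hz with h1 | h1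
    · exact h1
    exfalso
    have h2 : ∀ i : Fin l, ((z : Equiv.Perm Φ) * C.w M) (C.simple i) =
        C.simple ⟨σ.getD i 0, hσl i i.2⟩ := by
      intro i
      rw [Equiv.Perm.mul_apply, hM, C.W_neg z.2, h1, C.neg_neg]
    have h3 : (z : Equiv.Perm Φ) * C.w M = 1 := by
      apply len_zero_of_simple K (C.W.mul_mem z.2 (C.w_mem M))
      intro i
      rw [h2]
      exact C.simple_pos _
    have h4 := h2 ⟨0, h0⟩
    rw [h3] at h4
    have h5 := K.simple_injective h4
    exact hσ0 (Fin.ext_iff.1 h5).symm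
  rw [eq_bot_iff]
  intro z hz
  obtain ⟨y, rfl⟩ := e.surjective z
  have hy : y ∈ Subgroup.center C.W := by
    rw [Subgroup.mem_center_iff] at hz ⊢
    intro g
    apply e.injective
    rw [map_mul, map_mul]
    exact hz _
  rw [hno y hy, map_one]
  exact Subgroup.mem_bot.2 rfl

end general

theorem cenG2 : Nat.card (Subgroup.center CoxeterMatrix.G₂.Group) = 2 ∧
    Subgroup.center CoxeterMatrix.G₂.Group ≤
      Subgroup.zpowers ((List.finRange 2).map CoxeterMatrix.G₂.simple).prod :=
  main_neg (l := 2) (coord H22.PoinG2.rcxG2) H22.PoinG2.rowsOk (by norm_num) weylG2 (L := [1])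
    (by decide +kernel) 3 (by decide +kernel)
theorem cenB2 : Nat.card (Subgroup.center (CoxeterMatrix.B 2).Group) = 2 ∧
    Subgroup.center (CoxeterMatrix.B 2).Group ≤
      Subgroup.zpowers ((List.finRange 2).map (CoxeterMatrix.B 2).simple).prod :=
  main_neg (l := 2) (coord H22.PoinB2.rcxB2) H22.PoinB2.rowsOk (by norm_num) weylB2 (L := [1])
    (by decide +kernel) 2 (by decide +kernel)
theorem cenD4 : Nat.card (Subgroup.center Cfsg.Lie.coxeterD4.Group) = 2 ∧
    Subgroup.center Cfsg.Lie.coxeterD4.Group ≤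
      Subgroup.zpowers ((List.finRange 4).map Cfsg.Lie.coxeterD4.simple).prod :=
  main_neg (l := 4) (coord H22.PoinD4.rcxD4) H22.PoinD4.rowsOk (by norm_num) weylD4 (L := [1, 2, 1, 3])
    (by decide +kernel) 3 (by decide +kernel)
theorem cenF4 : Nat.card (Subgroup.center CoxeterMatrix.F₄.Group) = 2 ∧
    Subgroup.center CoxeterMatrix.F₄.Group ≤
      Subgroup.zpowers ((List.finRange 4).map CoxeterMatrix.F₄.simple).prod :=
  main_neg (l := 4) (coord H22.PoinF4.rcxF4) H22.PoinF4.rowsOk (by norm_num) weylF4 (L := [1, 2, 3])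
    (by decide +kernel) 6 (by decide +kernel)
theorem cenE7 : Nat.card (Subgroup.center CoxeterMatrix.E₇.Group) = 2 ∧
    Subgroup.center CoxeterMatrix.E₇.Group ≤
      Subgroup.zpowers ((List.finRange 7).map CoxeterMatrix.E₇.simple).prod :=
  main_neg (l := 7) (coord H22.PoinE7.rcxE7) H22.PoinE7.rowsOk (by norm_num) weylE7
    (L := [2, 3, 1, 3, 4, 5, 6]) (by decide +kernel) 9 (by decide +kernel)
theorem cenE8 : Nat.card (Subgroup.center CoxeterMatrix.E₈.Group) = 2 ∧
    Subgroup.center CoxeterMatrix.E₈.Group ≤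
      Subgroup.zpowers ((List.finRange 8).map CoxeterMatrix.E₈.simple).prod :=
  main_neg (l := 8) (coord H22.PoinE8.rcxE8) H22.PoinE8.rowsOk (by norm_num) weylE8
    (L := [2, 3, 1, 3, 4, 5, 6, 7]) (by decide +kernel) 15 (by decide +kernel)

theorem cenE6 : Subgroup.center CoxeterMatrix.E₆.Group = ⊥ :=
  main_tw (l := 6) (coord H22.PoinE6.rcxE6) H22.PoinE6.rowsOk weylE6
    (L := [2, 3, 1, 3, 4, 5]) (by decide +kernel) [5, 1, 4, 3, 2, 0]
    [0, 1, 2, 0, 3, 1, 2, 0, 3, 2, 4, 3, 1, 2, 0, 3, 2, 4, 3, 1, 5, 4, 3, 1, 2, 0, 3, 2, 4, 3, 1,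
      5, 4, 3, 2, 0] (by norm_num) (by decide) (by decide) (by decide +kernel)

end H45.CoxCen
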