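import Mathlib
import Cfsg.Agent.Lib.H45.InvRec
import Cfsg.Agent.Lib.H45.TrFn

/-!
Cuspidality of the inverse transform of an additive function (helper45).
-/

set_option autoImplicit false
set_option linter.unusedSectionVars false

namespace H45.Cusp

open H45.InvRec H45.TrFn Module

universe u

variable {F : Type u} [Field F]

/-- additive on short exact sequences -/
def IsAdd (t : Fn F) : Prop :=
  ∀ (V : Type u) [AddCommGroup V] [Module F V] [Finite V] (g : V →ₗ[F] V) (S : Submodule F V)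
    (hS : S ≤ S.comap g), t V g = t S (g.restrict hS) + t (V ⧸ S) (S.mapQ S g hS)

theorem isAdd_zero {t : Fn F} (hi : IsoInv t) (ha : IsAdd t) {V : Type u} [AddCommGroup V]
    [Module F V] [Finite V] [Subsingleton V] (g : V →ₗ[F] V) : t V g = 0 := by
  have h1 := ha V g ⊤ (fun x _ => (Submodule.mem_top : g x ∈ (⊤ : Submodule F V)))
  have h2 := hi _ _ (Submodule.topEquiv (R := F) (M := V)) (g.restrict
    (fun x (_ : x ∈ (⊤ : Submodule F V)) => (Submodule.mem_top : g x ∈ (⊤ : Submodule F V)))) g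
    (fun _ => rfl)
  have hs : Subsingleton (V ⧸ (⊤ : Submodule F V)) := inferInstance
  let e : (V ⧸ (⊤ : Submodule F V)) ≃ₗ[F] V :=
    LinearEquiv.ofLinearMap 0 0 (Subsingleton.elim _ _) (Subsingleton.elim _ _)
  have h3 := hi _ _ e ((⊤ : Submodule F V).mapQ ⊤ g
    (fun x _ => (Submodule.mem_top : g x ∈ (⊤ : Submodule F V)))) g
    (fun _ => Subsingleton.elim _ _)
  rw [h2, h3] at h1
  have h4 : t V g + t V g = t V g + 0 := by rw [add_zero]; exact h1.symm
  exact add_left_cancel h4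

variable {V : Type u} [AddCommGroup V] [Module F V] [Finite V]

instance finEnd : Finite (V →ₗ[F] V) := Finite.of_injective (fun f => (f : V → V)) DFunLike.coe_injective

/-- maps into `S` killing `S` -/
def B (S : Submodule F V) : Submodule F (V →ₗ[F] V) where
  carrier := {b | (∀ v, b v ∈ S) ∧ ∀ s ∈ S, b s = 0}
  add_mem' := by
    intro a b ha hb
    refine ⟨fun v => S.add_mem (ha.1 v) (hb.1 v), fun s hs => ?_⟩
    rw [LinearMap.add_apply, ha.2 s hs, hb.2 s hs, add_zero]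
  zero_mem' := ⟨fun v => S.zero_mem, fun _ _ => rfl⟩
  smul_mem' := by
    intro c b hb
    refine ⟨fun v => S.smul_mem c (hb.1 v), fun s hs => ?_⟩
    rw [LinearMap.smul_apply, hb.2 s hs, smul_zero]

theorem mem_B {S : Submodule F V} {b : V →ₗ[F] V} : b ∈ B S ↔ (∀ v, b v ∈ S) ∧ ∀ s ∈ S, b s = 0 :=
  Iff.rfl

noncomputable instance finB (S : Submodule F V) : Fintype (B S) := Fintype.ofFinite _

/-- extension from a subspace meeting `S` trivially -/
theorem exists_ext {S W : Submodule F V} (hWS : W ⊓ S = ⊥) (φ : W →ₗ[F] V) (hφ : ∀ w, φ w ∈ S) :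
    ∃ b : B S, ∀ w : W, (b : V →ₗ[F] V) w = φ w := by
  have hinj : Function.Injective (S.mkQ ∘ₗ W.subtype) := by
    rw [← LinearMap.ker_eq_bot, Submodule.eq_bot_iff]
    intro w hw
    have h1 : (w : V) ∈ S := by
      have : S.mkQ (w : V) = 0 := hw
      rwa [Submodule.mkQ_apply, Submodule.Quotient.mk_eq_zero] at this
    have h2 : (w : V) ∈ W ⊓ S := ⟨w.2, h1⟩
    rw [hWS, Submodule.mem_bot] at h2
    exact Subtype.ext h2
  obtain ⟨r, hr⟩ := LinearMap.exists_leftInverse_of_injective _ (LinearMap.ker_eq_bot.2 hinj)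
  refine ⟨⟨φ ∘ₗ r ∘ₗ S.mkQ, ⟨fun v => hφ _, fun s hs => ?_⟩⟩, fun w => ?_⟩
  · have h1 : S.mkQ s = 0 := by
      rw [Submodule.mkQ_apply, Submodule.Quotient.mk_eq_zero]; exact hs
    rw [LinearMap.comp_apply, LinearMap.comp_apply, h1, map_zero, map_zero]
  · have h1 := LinearMap.congr_fun hr w
    show φ (r (S.mkQ w)) = φ w
    congr 1

/-- extension, general form -/
theorem exists_ext' {S W : Submodule F V} (φ : W →ₗ[F] V) (hφ : ∀ w, φ w ∈ S)
    (hφ2 : ∀ w : W, (w : V) ∈ S → φ w = 0) :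
    ∃ b : B S, ∀ w : W, (b : V →ₗ[F] V) w = φ w := by
  obtain ⟨C, hC⟩ := Submodule.exists_isCompl (S.comap W.subtype)
  have hWS : C.map W.subtype ⊓ S = ⊥ := by
    rw [Submodule.eq_bot_iff]
    rintro _ ⟨⟨c, hc, rfl⟩, hcS⟩
    have h1 : c ∈ C ⊓ S.comap W.subtype := ⟨hc, hcS⟩
    rw [inf_comm, hC.inf_eq_bot, Submodule.mem_bot] at h1
    rw [h1]; rfl
  have hsub : C.map W.subtype ≤ W := Submodule.map_subtype_le W C
  obtain ⟨b, hb⟩ := exists_ext hWS (φ ∘ₗ Submodule.inclusion hsub) (fun w => hφ _)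
  refine ⟨b, fun w => ?_⟩
  have hw : w ∈ S.comap W.subtype ⊔ C := by rw [hC.sup_eq_top]; trivial
  obtain ⟨s, hs, c, hc, rfl⟩ := Submodule.mem_sup.1 hw
  have h1 := hb ⟨(c : V), ⟨c, hc, rfl⟩⟩
  have h2 : (b : V →ₗ[F] V) (s : V) = 0 := b.2.2 _ hs
  rw [map_add, hφ2 s hs, zero_add, Submodule.coe_add, map_add, h2, zero_add]
  exact h1

theorem on_agree (t : Fn F) {g g' : V →ₗ[F] V} {W : Submodule F V} (h : ∀ w ∈ W, g w = g' w) :
    on t g W = on t g' W := by
  by_cases hW : W ≤ W.comap g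
  · have hW' : W ≤ W.comap g' := fun w hw => by
      show g' w ∈ W
      rw [← h w hw]; exact hW hw
    rw [on_pos t hW, on_pos t hW']
    congr 1
    ext w
    exact h w w.2
  · have hW' : ¬ W ≤ W.comap g' := fun hc => hW fun w hw => by
      show g w ∈ W
      rw [h w hw]; exact hc hw
    rw [on_neg t hW, on_neg t hW']

theorem inv_add {S : Submodule F V} {g : V →ₗ[F] V} (hS : S ≤ S.comap g) (b : B S) :
    S ≤ S.comap (g + (b : V →ₗ[F] V)) := fun s hs => by
  show g s + (b : V →ₗ[F] V) s ∈ S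
  rw [b.2.2 s hs, add_zero]; exact hS hs

theorem t_add_B {t : Fn F} (ha : IsAdd t) {S : Submodule F V} {g : V →ₗ[F] V}
    (hS : S ≤ S.comap g) (b : B S) : t V (g + (b : V →ₗ[F] V)) =
      t S (g.restrict hS) + t (V ⧸ S) (S.mapQ S g hS) := by
  rw [ha V _ S (inv_add hS b)]
  congr 2
  · ext s
    show g s + (b : V →ₗ[F] V) s = g s
    rw [b.2.2 s s.2, add_zero]
  · apply Submodule.linearMap_qext
    ext v
    show Submodule.Quotient.mk (g v + (b : V →ₗ[F] V) v) = (Submodule.Quotient.mk (g v) : V ⧸ S)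
    rw [Submodule.Quotient.mk_add, (Submodule.Quotient.mk_eq_zero S).2 (b.2.1 v), add_zero]

open Classical in
/-- the part of the sum inside an invariant subspace -/
theorem sum_le {t : Fn F} (hi : IsoInv t) {S : Submodule F V} {g : V →ₗ[F] V}
    (hS : S ≤ S.comap g) :
    ∑ W : Submodule F V, (if W ≤ S then on (J t) g W else 0) = t S (g.restrict hS) := by
  rw [← sum_on_J hi (g.restrict hS), ← Finset.sum_filter]
  symm
  refine Finset.sum_nbij' (fun W => W.map S.subtype) (fun W => W.comap S.subtype) ?_ ?_ ?_ ?_ ?_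
  · intro W _
    simp only [Finset.mem_filter, Finset.mem_univ, true_and]
    exact Submodule.map_subtype_le S W
  · intro W _
    exact Finset.mem_univ _
  · intro W _
    exact Submodule.comap_map_eq_of_injective S.injective_subtype W
  · intro W hW
    simp only [Finset.mem_filter, Finset.mem_univ, true_and] at hW
    rw [Submodule.map_comap_subtype, inf_eq_right.2 hW]
  · intro W _
    exact on_restrict (isoInv_J hi) hS W

/-- the isomorphism of a subspace meeting `S` trivially with its image in the quotient -/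
noncomputable def liftEquiv {S W : Submodule F V} (hWS : W ⊓ S = ⊥) : W ≃ₗ[F] W.map S.mkQ :=
  LinearEquiv.ofBijective (S.mkQ.restrict (p := W) (q := W.map S.mkQ)
    (fun _ hw => Submodule.mem_map_of_mem hw)) (by
    constructor
    · intro a c hac
      have h0 : S.mkQ (a : V) = S.mkQ (c : V) := congrArg Subtype.val hac
      have h1 : ((a : V) - c) ∈ S := by
        rw [← Submodule.Quotient.mk_eq_zero, ← Submodule.mkQ_apply, map_sub, h0, sub_self]
      have h2 : ((a : V) - c) ∈ W ⊓ S := ⟨W.sub_mem a.2 c.2, h1⟩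
      rw [hWS, Submodule.mem_bot] at h2
      exact Subtype.ext (sub_eq_zero.1 h2)
    · rintro ⟨_, w, hw, rfl⟩
      exact ⟨⟨w, hw⟩, rfl⟩)

theorem liftEquiv_coe {S W : Submodule F V} (hWS : W ⊓ S = ⊥) (w : W) :
    ((liftEquiv hWS w : W.map S.mkQ) : V ⧸ S) = S.mkQ w := rfl

theorem exists_corr {S W W₁ : Submodule F V} (hWS : W ⊓ S = ⊥) (hWS₁ : W₁ ⊓ S = ⊥)
    (ψ : W₁ →ₗ[F] V) (hψ : ∀ w, S.mkQ (ψ w) ∈ W.map S.mkQ) :
    ∃ b : B S, ∀ w : W₁, ψ w + (b : V →ₗ[F] V) w ∈ W := by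
  let φ : W₁ →ₗ[F] V := (W.subtype ∘ₗ (liftEquiv hWS).symm.toLinearMap ∘ₗ
    LinearMap.codRestrict (W.map S.mkQ) (S.mkQ ∘ₗ ψ) hψ) - ψ
  have hφ : ∀ w, φ w ∈ S := by
    intro w
    rw [← Submodule.Quotient.mk_eq_zero, ← Submodule.mkQ_apply]
    show S.mkQ (((liftEquiv hWS).symm ⟨S.mkQ (ψ w), hψ w⟩ : W) - ψ w) = 0
    rw [map_sub, ← liftEquiv_coe hWS, LinearEquiv.apply_symm_apply, sub_self]
  obtain ⟨b, hb⟩ := exists_ext hWS₁ φ hφ
  refine ⟨b, fun w => ?_⟩
  rw [hb]
  show ψ w + (((liftEquiv hWS).symm ⟨S.mkQ (ψ w), hψ w⟩ : W) - ψ w : V) ∈ W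
  rw [add_sub_cancel]
  exact ((liftEquiv hWS).symm _).2

/-- value on a subspace meeting `S` trivially -/
theorem on_lift {t : Fn F} (hi : IsoInv t) {S : Submodule F V} {g : V →ₗ[F] V}
    (hS : S ≤ S.comap g) {W : Submodule F V} (hWS : W ⊓ S = ⊥) (b : B S)
    (hW : W ≤ W.comap (g + (b : V →ₗ[F] V))) :
    on t (g + (b : V →ₗ[F] V)) W = on t (S.mapQ S g hS) (W.map S.mkQ) := by
  have hq : ∀ v, S.mapQ S g hS (S.mkQ v) = S.mkQ ((g + (b : V →ₗ[F] V)) v) := by
    intro v
    show Submodule.Quotient.mk (g v) = (Submodule.Quotient.mk (g v + (b : V →ₗ[F] V) v) : V ⧸ S)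
    rw [Submodule.Quotient.mk_add, (Submodule.Quotient.mk_eq_zero S).2 (b.2.1 v), add_zero]
  have hW' : W.map S.mkQ ≤ (W.map S.mkQ).comap (S.mapQ S g hS) := by
    rintro _ ⟨w, hw, rfl⟩
    refine ⟨(g + (b : V →ₗ[F] V)) w, hW hw, (hq w).symm⟩
  refine on_congr hi (liftEquiv hWS) hW hW' ?_
  intro w
  exact (hq w).symm

/-- for a subspace meeting `S` trivially with image `U`: the image is invariant -/
theorem inv_of_lift {S : Submodule F V} {g : V →ₗ[F] V}
    (hS : S ≤ S.comap g) {W : Submodule F V} (b : B S)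
    (hW : W ≤ W.comap (g + (b : V →ₗ[F] V))) :
    W.map S.mkQ ≤ (W.map S.mkQ).comap (S.mapQ S g hS) := by
  rintro _ ⟨w, hw, rfl⟩
  refine ⟨(g + (b : V →ₗ[F] V)) w, hW hw, ?_⟩
  show (Submodule.Quotient.mk (g w + (b : V →ₗ[F] V) w) : V ⧸ S) = Submodule.Quotient.mk (g w)
  rw [Submodule.Quotient.mk_add, (Submodule.Quotient.mk_eq_zero S).2 (b.2.1 w), add_zero]

open Classical in
/-- Counting: for `W`, `W₀` with trivial intersection with `S` and the same invariant image. -/
theorem count_eq {S : Submodule F V} {g : V →ₗ[F] V} (hS : S ≤ S.comap g)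
    {W W₀ : Submodule F V} (hWS : W ⊓ S = ⊥) (hWS₀ : W₀ ⊓ S = ⊥) (h0 : W₀.map S.mkQ = W.map S.mkQ)
    (hinv : W.map S.mkQ ≤ (W.map S.mkQ).comap (S.mapQ S g hS)) :
    ∑ b : B S, (if W ≤ W.comap (g + (b : V →ₗ[F] V)) then (1 : ℂ) else 0) =
      ∑ c : B S, (if ∀ w ∈ W₀, w + (c : V →ₗ[F] V) w ∈ W then (1 : ℂ) else 0) := by
  obtain ⟨b₀, hb₀⟩ := exists_corr hWS hWS (g ∘ₗ W.subtype) (fun w => by
    have h1 : S.mkQ (w : V) ∈ W.map S.mkQ := Submodule.mem_map_of_mem w.2
    exact hinv h1)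
  obtain ⟨c₀, hc₀⟩ := exists_corr hWS hWS₀ W₀.subtype (fun w => by
    rw [← h0]
    exact Submodule.mem_map_of_mem w.2)
  refine Fintype.sum_equiv (Equiv.addRight (c₀ - b₀)) _ _ fun b => ?_
  have hval : ∀ v, ((Equiv.addRight (c₀ - b₀) b : B S) : V →ₗ[F] V) v =
      (b : V →ₗ[F] V) v + ((c₀ : V →ₗ[F] V) v - (b₀ : V →ₗ[F] V) v) := fun _ => rfl
  -- elements of `W` and `W₀` agree modulo `S`
  have hWW₀ : ∀ w ∈ W, ∃ w₀ ∈ W₀, w - w₀ ∈ S := by
    intro w hw
    have h1 : S.mkQ w ∈ W₀.map S.mkQ := by rw [h0]; exact Submodule.mem_map_of_mem hw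
    obtain ⟨w₀, hw₀, h2⟩ := h1
    refine ⟨w₀, hw₀, ?_⟩
    rw [← Submodule.Quotient.mk_eq_zero, ← Submodule.mkQ_apply, map_sub, h2, sub_self]
  have hW₀W : ∀ w₀ ∈ W₀, ∃ w ∈ W, w₀ - w ∈ S := by
    intro w hw
    have h1 : S.mkQ w ∈ W.map S.mkQ := by rw [← h0]; exact Submodule.mem_map_of_mem hw
    obtain ⟨w₀, hw₀, h2⟩ := h1
    refine ⟨w₀, hw₀, ?_⟩
    rw [← Submodule.Quotient.mk_eq_zero, ← Submodule.mkQ_apply, map_sub, h2, sub_self]
  have hBS : ∀ (d : B S) (v w : V), v - w ∈ S → (d : V →ₗ[F] V) v = (d : V →ₗ[F] V) w := by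
    intro d v w h
    have := d.2.2 _ h
    rw [map_sub] at this
    exact sub_eq_zero.1 this
  have hbot : ∀ v, v ∈ W → v ∈ S → v = 0 := by
    intro v h1 h2
    have h3 : v ∈ W ⊓ S := ⟨h1, h2⟩
    rwa [hWS, Submodule.mem_bot] at h3
  have hiff : W ≤ W.comap (g + (b : V →ₗ[F] V)) ↔
      ∀ w ∈ W₀, w + ((Equiv.addRight (c₀ - b₀) b : B S) : V →ₗ[F] V) w ∈ W := by
    constructor
    · intro h w hw
      obtain ⟨w₁, hw₁, h1⟩ := hW₀W w hw
      have h2 : g w₁ + (b : V →ₗ[F] V) w₁ ∈ W := h hw₁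
      have h3 : g w₁ + (b₀ : V →ₗ[F] V) w₁ ∈ W := hb₀ ⟨w₁, hw₁⟩
      have h4 : (b : V →ₗ[F] V) w₁ - (b₀ : V →ₗ[F] V) w₁ = 0 := by
        apply hbot
        · have := W.sub_mem h2 h3
          have h5 : g w₁ + (b : V →ₗ[F] V) w₁ - (g w₁ + (b₀ : V →ₗ[F] V) w₁) =
            (b : V →ₗ[F] V) w₁ - (b₀ : V →ₗ[F] V) w₁ := by abel
          rwa [h5] at this
        · exact S.sub_mem (b.2.1 _) (b₀.2.1 _)
      have h5 : (b : V →ₗ[F] V) w - (b₀ : V →ₗ[F] V) w = 0 := by
        rw [hBS b w w₁ h1, hBS b₀ w w₁ h1, h4]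
      rw [hval]
      have h6 : w + ((b : V →ₗ[F] V) w + ((c₀ : V →ₗ[F] V) w - (b₀ : V →ₗ[F] V) w)) =
        w + (c₀ : V →ₗ[F] V) w + ((b : V →ₗ[F] V) w - (b₀ : V →ₗ[F] V) w) := by abel
      rw [h6, h5, add_zero]
      exact hc₀ ⟨w, hw⟩
    · intro h w hw
      obtain ⟨w₁, hw₁, h1⟩ := hWW₀ w hw
      have h2 := h w₁ hw₁
      rw [hval] at h2
      have h3 : w₁ + (c₀ : V →ₗ[F] V) w₁ ∈ W := hc₀ ⟨w₁, hw₁⟩
      have h4 : (b : V →ₗ[F] V) w₁ - (b₀ : V →ₗ[F] V) w₁ = 0 := by
        apply hbot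
        · have := W.sub_mem h2 h3
          have h5 : w₁ + ((b : V →ₗ[F] V) w₁ + ((c₀ : V →ₗ[F] V) w₁ - (b₀ : V →ₗ[F] V) w₁)) -
            (w₁ + (c₀ : V →ₗ[F] V) w₁) = (b : V →ₗ[F] V) w₁ - (b₀ : V →ₗ[F] V) w₁ := by abel
          rwa [h5] at this
        · exact S.sub_mem (b.2.1 _) (b₀.2.1 _)
      have h5 : (b : V →ₗ[F] V) w = (b₀ : V →ₗ[F] V) w := by
        rw [hBS b w w₁ h1, hBS b₀ w w₁ h1]
        exact sub_eq_zero.1 h4
      show g w + (b : V →ₗ[F] V) w ∈ W
      rw [h5]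
      exact hb₀ ⟨w, hw⟩
  by_cases hb : W ≤ W.comap (g + (b : V →ₗ[F] V))
  · rw [if_pos hb, if_pos (hiff.1 hb)]
  · rw [if_neg hb, if_neg (fun hc => hb (hiff.2 hc))]

open Classical in
/-- The number of pairs (lift of an invariant subspace `U` of the quotient, `b` making it
invariant). -/
theorem count_lifts {S : Submodule F V} {g : V →ₗ[F] V} (hS : S ≤ S.comap g)
    {U : Submodule F (V ⧸ S)} (hU : U ≤ U.comap (S.mapQ S g hS)) :
    ∑ W : Submodule F V, (if W ⊓ S = ⊥ ∧ W.map S.mkQ = U then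
      ∑ b : B S, (if W ≤ W.comap (g + (b : V →ₗ[F] V)) then (1 : ℂ) else 0) else 0) =
      Fintype.card (B S) := by
  obtain ⟨s, hs⟩ := LinearMap.exists_rightInverse_of_surjective S.mkQ (Submodule.range_mkQ S)
  have hs' : ∀ u, S.mkQ (s u) = u := fun u => LinearMap.congr_fun hs u
  set W₀ := U.map s with hW₀
  have hWS₀ : W₀ ⊓ S = ⊥ := by
    rw [Submodule.eq_bot_iff]
    rintro _ ⟨⟨u, hu, rfl⟩, huS⟩
    have h1 : S.mkQ (s u) = 0 := by
      rw [Submodule.mkQ_apply, Submodule.Quotient.mk_eq_zero]; exact huS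
    rw [hs'] at h1
    rw [h1, map_zero]
  have h0 : W₀.map S.mkQ = U := by
    rw [hW₀, ← Submodule.map_comp, hs, Submodule.map_id]
  have h1 : ∀ W : Submodule F V, (if W ⊓ S = ⊥ ∧ W.map S.mkQ = U then
      ∑ b : B S, (if W ≤ W.comap (g + (b : V →ₗ[F] V)) then (1 : ℂ) else 0) else 0) =
      ∑ c : B S, (if (W ⊓ S = ⊥ ∧ W.map S.mkQ = U) ∧ ∀ w ∈ W₀, w + (c : V →ₗ[F] V) w ∈ W
        then (1 : ℂ) else 0) := by
    intro W
    split_ifs with hW
    · rw [count_eq hS hW.1 hWS₀ (h0.trans hW.2.symm) (by rw [hW.2]; exact hU)]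
      refine Finset.sum_congr rfl fun c _ => ?_
      simp [hW]
    · symm
      apply Finset.sum_eq_zero
      intro c _
      rw [if_neg (fun hc => hW hc.1)]
  rw [Finset.sum_congr rfl fun W _ => h1 W, Finset.sum_comm]
  have h2 : ∀ c : B S, ∑ W : Submodule F V, (if (W ⊓ S = ⊥ ∧ W.map S.mkQ = U) ∧
      ∀ w ∈ W₀, w + (c : V →ₗ[F] V) w ∈ W then (1 : ℂ) else 0) = 1 := by
    intro c
    have hmk : ∀ v, S.mkQ (v + (c : V →ₗ[F] V) v) = S.mkQ v := by
      intro v
      rw [map_add, (show S.mkQ ((c : V →ₗ[F] V) v) = 0 from by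
        rw [Submodule.mkQ_apply, Submodule.Quotient.mk_eq_zero]; exact c.2.1 v), add_zero]
    set W₁ := W₀.map (LinearMap.id + (c : V →ₗ[F] V)) with hW₁
    have hmem : ∀ w ∈ W₀, w + (c : V →ₗ[F] V) w ∈ W₁ := fun w hw => ⟨w, hw, rfl⟩
    rw [Finset.sum_eq_single W₁]
    · rw [if_pos]
      refine ⟨⟨?_, ?_⟩, hmem⟩
      · rw [Submodule.eq_bot_iff]
        rintro _ ⟨⟨w, hw, rfl⟩, hwS⟩
        have h3 : w ∈ S := by
          rw [← Submodule.Quotient.mk_eq_zero, ← Submodule.mkQ_apply, ← hmk w, Submodule.mkQ_apply,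
            Submodule.Quotient.mk_eq_zero]
          exact hwS
        have h4 : w ∈ W₀ ⊓ S := ⟨hw, h3⟩
        rw [hWS₀, Submodule.mem_bot] at h4
        rw [h4, map_zero]
      · rw [← h0]
        apply le_antisymm
        · rintro _ ⟨_, ⟨w, hw, rfl⟩, rfl⟩
          exact ⟨w, hw, (hmk w).symm⟩
        · rintro _ ⟨w, hw, rfl⟩
          exact ⟨_, ⟨w, hw, rfl⟩, hmk w⟩
    · intro W _ hne
      rw [if_neg]
      rintro ⟨⟨h3, h4⟩, h5⟩
      apply hne
      apply le_antisymm
      · intro w hw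
        have h6 : S.mkQ w ∈ W₀.map S.mkQ := by rw [h0, ← h4]; exact Submodule.mem_map_of_mem hw
        obtain ⟨w₀, hw₀, h7⟩ := h6
        have h8 : w - (w₀ + (c : V →ₗ[F] V) w₀) ∈ W ⊓ S := by
          refine ⟨W.sub_mem hw (h5 w₀ hw₀), ?_⟩
          rw [SetLike.mem_coe, ← Submodule.Quotient.mk_eq_zero, ← Submodule.mkQ_apply, map_sub,
            hmk, h7, sub_self]
        rw [h3, Submodule.mem_bot] at h8
        rw [sub_eq_zero.1 h8]
        exact hmem w₀ hw₀
      · rintro _ ⟨w₀, hw₀, rfl⟩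
        exact h5 w₀ hw₀
    · intro h; exact absurd (Finset.mem_univ _) h
  rw [Finset.sum_congr rfl fun c _ => h2 c]
  simp

open Classical in
/-- the part of the sum over the subspaces meeting `S` trivially -/
theorem sum_disjoint {t : Fn F} (hi : IsoInv t) {S : Submodule F V} {g : V →ₗ[F] V}
    (hS : S ≤ S.comap g) :
    ∑ W : Submodule F V, (if W ⊓ S = ⊥ then ∑ b : B S, on (J t) (g + (b : V →ₗ[F] V)) W else 0) =
      Fintype.card (B S) * t (V ⧸ S) (S.mapQ S g hS) := by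
  rw [← sum_on_J hi (S.mapQ S g hS), Finset.mul_sum]
  have h1 : ∀ W : Submodule F V,
      (if W ⊓ S = ⊥ then ∑ b : B S, on (J t) (g + (b : V →ₗ[F] V)) W else 0) =
      ∑ U : Submodule F (V ⧸ S), (if W ⊓ S = ⊥ ∧ W.map S.mkQ = U then
        ∑ b : B S, on (J t) (g + (b : V →ₗ[F] V)) W else 0) := by
    intro W
    by_cases hW : W ⊓ S = ⊥
    · simp [hW]
    · simp [hW]
  rw [Finset.sum_congr rfl fun W _ => h1 W, Finset.sum_comm]
  refine Finset.sum_congr rfl fun U _ => ?_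
  by_cases hU : U ≤ U.comap (S.mapQ S g hS)
  · rw [← count_lifts hS hU, Finset.sum_mul]
    refine Finset.sum_congr rfl fun W _ => ?_
    split_ifs with hW
    · rw [Finset.sum_mul]
      refine Finset.sum_congr rfl fun b _ => ?_
      by_cases hb : W ≤ W.comap (g + (b : V →ₗ[F] V))
      · rw [if_pos hb, one_mul, on_lift (isoInv_J hi) hS hW.1 b hb, hW.2]
      · rw [if_neg hb, zero_mul, on_neg _ hb]
    · rw [zero_mul]
  · rw [on_neg _ hU, mul_zero]
    refine Finset.sum_eq_zero fun W _ => ?_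
    split_ifs with hW
    · refine Finset.sum_eq_zero fun b _ => ?_
      rw [on_neg]
      intro hb
      apply hU
      have := inv_of_lift hS b hb
      rwa [hW.2] at this
    · rfl

/-- the inductive step: subspaces in general position -/
theorem sum_general {t : Fn F} {S : Submodule F V} {g : V →ₗ[F] V}
    (hS : S ≤ S.comap g) (W : Submodule F V)
    (ih : ∀ (h : W →ₗ[F] W), S.comap W.subtype ≤ (S.comap W.subtype).comap h →
      ∑ b : B (S.comap W.subtype), J t W (h + (b : W →ₗ[F] W)) = 0) :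
    ∑ b : B S, on (J t) (g + (b : V →ₗ[F] V)) W = 0 := by
  have hex : ∀ c : B (S.comap W.subtype), ∃ b : B S, ∀ w : W, (b : V →ₗ[F] V) w =
      ((c : W →ₗ[F] W) w : V) := by
    intro c
    refine exists_ext' (W.subtype ∘ₗ (c : W →ₗ[F] W)) (fun w => c.2.1 w) (fun w hw => ?_)
    show ((c : W →ₗ[F] W) w : V) = 0
    rw [c.2.2 w hw]; rfl
  choose s hs using hex
  have h1 : (Fintype.card (B (S.comap W.subtype)) : ℂ) *
      ∑ b : B S, on (J t) (g + (b : V →ₗ[F] V)) W = 0 := by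
    have h2 : (Fintype.card (B (S.comap W.subtype)) : ℂ) *
      ∑ b : B S, on (J t) (g + (b : V →ₗ[F] V)) W = ∑ c : B (S.comap W.subtype),
        ∑ b : B S, on (J t) (g + ((b + s c : B S) : V →ₗ[F] V)) W := by
      have h4 : ∀ c : B (S.comap W.subtype),
          ∑ b : B S, on (J t) (g + ((b + s c : B S) : V →ₗ[F] V)) W =
          ∑ b : B S, on (J t) (g + (b : V →ₗ[F] V)) W := fun c =>
        Fintype.sum_equiv (Equiv.addRight (s c)) _ _ fun b => rfl
      rw [Finset.sum_congr rfl fun c _ => h4 c, Finset.sum_const, Finset.card_univ, nsmul_eq_mul]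
    rw [h2, Finset.sum_comm]
    refine Finset.sum_eq_zero fun b _ => ?_
    by_cases hb : W ≤ W.comap (g + (b : V →ₗ[F] V))
    · rw [← ih ((g + (b : V →ₗ[F] V)).restrict hb)]
      · refine Finset.sum_congr rfl fun c _ => ?_
        have hc : W ≤ W.comap (g + ((b + s c : B S) : V →ₗ[F] V)) := by
          intro w hw
          have h3 : (g + ((b + s c : B S) : V →ₗ[F] V)) w =
              (g + (b : V →ₗ[F] V)) w + (s c : V →ₗ[F] V) w := by
            show g w + ((b : V →ₗ[F] V) w + (s c : V →ₗ[F] V) w) = _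
            rw [LinearMap.add_apply]; abel
          show _ ∈ W
          rw [h3]
          refine W.add_mem (hb hw) ?_
          rw [hs c ⟨w, hw⟩]
          exact ((c : W →ₗ[F] W) ⟨w, hw⟩).2
        rw [on_pos _ hc]
        congr 1
        ext w
        show g w + ((b : V →ₗ[F] V) w + (s c : V →ₗ[F] V) w) =
          g w + (b : V →ₗ[F] V) w + ((c : W →ₗ[F] W) w : V)
        rw [hs c w]; abel
      · intro w hw
        exact inv_add hS b hw
    · refine Finset.sum_eq_zero fun c _ => ?_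
      rw [on_neg]
      intro hc
      apply hb
      intro w hw
      have h3 : (g + (b : V →ₗ[F] V)) w = (g + ((b + s c : B S) : V →ₗ[F] V)) w -
          (s c : V →ₗ[F] V) w := by
        show (g + (b : V →ₗ[F] V)) w = g w + ((b : V →ₗ[F] V) w + (s c : V →ₗ[F] V) w) - _
        rw [LinearMap.add_apply]; abel
      show _ ∈ W
      rw [h3]
      refine W.sub_mem (hc hw) ?_
      rw [hs c ⟨w, hw⟩]
      exact ((c : W →ₗ[F] W) ⟨w, hw⟩).2
  rcases mul_eq_zero.1 h1 with h3 | h3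
  · exfalso
    have : Fintype.card (B (S.comap W.subtype)) ≠ 0 := Fintype.card_ne_zero
    exact this (by exact_mod_cast h3)
  · exact h3

/-- Cuspidality. -/
theorem sum_B_eq_zero {t : Fn F} (hi : IsoInv t) (ha : IsAdd t) (N : ℕ) :
    ∀ (V : Type u) [AddCommGroup V] [Module F V] [Finite V], finrank F V ≤ N →
      ∀ (S : Submodule F V), S ≠ ⊥ → S ≠ ⊤ → ∀ (g : V →ₗ[F] V), S ≤ S.comap g →
      ∑ b : B S, J t V (g + (b : V →ₗ[F] V)) = 0 := by
  classical
  induction N with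
  | zero =>
    intro V _ _ _ hV S hS0 _ _ _
    exfalso
    have hsub : Subsingleton V := (Module.finrank_zero_iff (R := F) (M := V)).1 (by omega)
    exact hS0 (Subsingleton.elim _ _)
  | succ N ih =>
    intro V _ _ _ hV S hS0 hS1 g hS
    -- the double sum
    have h1 : ∑ W : Submodule F V, ∑ b : B S, on (J t) (g + (b : V →ₗ[F] V)) W =
        Fintype.card (B S) * (t S (g.restrict hS) + t (V ⧸ S) (S.mapQ S g hS)) := by
      rw [Finset.sum_comm, Finset.sum_congr rfl fun b _ => sum_on_J hi _,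
        Finset.sum_congr rfl fun b _ => t_add_B ha hS b, Finset.sum_const, Finset.card_univ,
        nsmul_eq_mul]
    have hbot : ∑ b : B S, on (J t) (g + (b : V →ₗ[F] V)) (⊥ : Submodule F V) = 0 := by
      refine Finset.sum_eq_zero fun b _ => ?_
      have hb : (⊥ : Submodule F V) ≤ (⊥ : Submodule F V).comap (g + (b : V →ₗ[F] V)) := bot_le
      rw [on_pos _ hb, J_of_finrank_zero _ (finrank_bot F V)]
      exact isAdd_zero hi ha _
    have h2 : ∀ W : Submodule F V, ∑ b : B S, on (J t) (g + (b : V →ₗ[F] V)) W =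
        (if W ≤ S then ∑ b : B S, on (J t) (g + (b : V →ₗ[F] V)) W else 0) +
        (if W ⊓ S = ⊥ then ∑ b : B S, on (J t) (g + (b : V →ₗ[F] V)) W else 0) +
        (if W = ⊤ then ∑ b : B S, on (J t) (g + (b : V →ₗ[F] V)) W else 0) := by
      intro W
      by_cases hW1 : W ≤ S
      · have hW3 : W ≠ ⊤ := by
          rintro rfl
          exact hS1 (top_le_iff.1 hW1)
        rw [if_pos hW1, if_neg hW3]
        by_cases hW2 : W ⊓ S = ⊥
        · rw [inf_eq_left.2 hW1] at hW2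
          rw [hW2, hbot]
          simp
        · rw [if_neg hW2]; ring
      · rw [if_neg hW1]
        by_cases hW2 : W ⊓ S = ⊥
        · have hW3 : W ≠ ⊤ := by
            rintro rfl
            rw [top_inf_eq] at hW2
            exact hS0 hW2
          rw [if_pos hW2, if_neg hW3]; ring
        · rw [if_neg hW2]
          by_cases hW3 : W = ⊤
          · rw [if_pos hW3]; ring
          · rw [if_neg hW3, sum_general hS W]
            · ring
            · intro h hh
              refine ih W ?_ (S.comap W.subtype) ?_ ?_ h hh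
              · have := Submodule.finrank_lt hW3
                omega
              · intro hc
                apply hW2
                rw [Submodule.eq_bot_iff]
                rintro x ⟨hx1, hx2⟩
                have h3 : (⟨x, hx1⟩ : W) ∈ S.comap W.subtype := hx2
                rw [hc, Submodule.mem_bot] at h3
                exact congrArg Subtype.val h3
              · intro hc
                apply hW1
                intro x hx
                have h3 : (⟨x, hx⟩ : W) ∈ S.comap W.subtype := by rw [hc]; trivial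
                exact h3
    rw [Finset.sum_congr rfl fun W _ => h2 W, Finset.sum_add_distrib, Finset.sum_add_distrib,
      sum_disjoint hi hS] at h1
    have h3 : ∑ W : Submodule F V, (if W ≤ S then ∑ b : B S, on (J t) (g + (b : V →ₗ[F] V)) W
        else 0) = Fintype.card (B S) * t S (g.restrict hS) := by
      rw [← sum_le hi hS, Finset.mul_sum]
      refine Finset.sum_congr rfl fun W _ => ?_
      split_ifs with hW
      · rw [Finset.sum_congr rfl (g := fun _ => on (J t) g W)]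
        · rw [Finset.sum_const, Finset.card_univ, nsmul_eq_mul]
        · intro b _
          refine on_agree _ fun w hw => ?_
          rw [LinearMap.add_apply, b.2.2 w (hW hw), add_zero]
      · rw [mul_zero]
    have h4 : ∑ W : Submodule F V, (if W = ⊤ then ∑ b : B S, on (J t) (g + (b : V →ₗ[F] V)) W
        else 0) = ∑ b : B S, J t V (g + (b : V →ₗ[F] V)) := by
      rw [Finset.sum_ite_eq' Finset.univ (⊤ : Submodule F V)
        (fun W => ∑ b : B S, on (J t) (g + (b : V →ₗ[F] V)) W), if_pos (Finset.mem_univ _)]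
      exact Finset.sum_congr rfl fun b _ => on_top (isoInv_J hi) _
    rw [h3, h4, mul_add] at h1
    have h5 := add_left_cancel (h1.trans (add_zero _).symm)
    exact h5

end H45.Cusp
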