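import Mathlib
import Cfsg.Agent.Lib.H45.Cusp

/-!
The value at the identity of the inverse transform (helper45).
-/

set_option autoImplicit false
set_option linter.unusedSectionVars false

namespace H45.JDeg

open H45.InvRec H45.TrFn H45.Cusp Module

universe u

variable {F : Type u} [Field F]

section count

variable {V : Type u} [AddCommGroup V] [Module F V] [Finite V]

theorem card_lifts (S : Submodule F V) (U : Submodule F (V ⧸ S)) :
    Nat.card {W : Submodule F V // W ⊓ S = ⊥ ∧ W.map S.mkQ = U} = Nat.card (U →ₗ[F] S) := by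
  obtain ⟨s, hs⟩ := LinearMap.exists_rightInverse_of_surjective S.mkQ (Submodule.range_mkQ S)
  have hs' : ∀ u, S.mkQ (s u) = u := fun u => LinearMap.congr_fun hs u
  have hS0 : ∀ x : S, S.mkQ (x : V) = 0 := fun x => by
    rw [Submodule.mkQ_apply, Submodule.Quotient.mk_eq_zero]; exact x.2
  let ψ : (U →ₗ[F] S) → (U →ₗ[F] V) := fun φ => s ∘ₗ U.subtype + S.subtype ∘ₗ φ
  have hψ : ∀ φ u, ψ φ u = s u + (φ u : V) := fun _ _ => rfl
  have hmk : ∀ φ u, S.mkQ (ψ φ u) = u := by
    intro φ u
    rw [hψ, map_add, hs', hS0, add_zero]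
  let Φ : (U →ₗ[F] S) → {W : Submodule F V // W ⊓ S = ⊥ ∧ W.map S.mkQ = U} := fun φ =>
    ⟨LinearMap.range (ψ φ), by
      constructor
      · rw [Submodule.eq_bot_iff]
        rintro _ ⟨⟨u, rfl⟩, huS⟩
        have h1 : S.mkQ (ψ φ u) = 0 := by
          rw [Submodule.mkQ_apply, Submodule.Quotient.mk_eq_zero]; exact huS
        rw [hmk] at h1
        have h2 : u = 0 := Subtype.ext h1
        rw [h2, map_zero]
      · apply le_antisymm
        · rintro _ ⟨_, ⟨u, rfl⟩, rfl⟩
          rw [hmk]; exact u.2
        · intro u hu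
          exact ⟨_, ⟨⟨u, hu⟩, rfl⟩, hmk φ ⟨u, hu⟩⟩⟩
  symm
  refine Nat.card_congr (Equiv.ofBijective Φ ⟨?_, ?_⟩)
  · intro φ φ' h
    ext u
    have h1 : ψ φ u ∈ LinearMap.range (ψ φ') := by
      have h2 : LinearMap.range (ψ φ) = LinearMap.range (ψ φ') := congrArg Subtype.val h
      rw [← h2]; exact ⟨u, rfl⟩
    obtain ⟨u', hu'⟩ := h1
    have h2 : u' = u := by
      apply Subtype.ext
      rw [← hmk φ' u', ← hmk φ u, hu']
    rw [h2, hψ, hψ] at hu'
    exact (add_left_cancel hu').symm
  · rintro ⟨W, hWS, rfl⟩
    let χ : W.map S.mkQ →ₗ[F] V := W.subtype ∘ₗ (liftEquiv hWS).symm.toLinearMap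
    have hχ : ∀ u, S.mkQ (χ u) = u := by
      intro u
      show S.mkQ (((liftEquiv hWS).symm u : W) : V) = u
      rw [← liftEquiv_coe hWS, LinearEquiv.apply_symm_apply]
    have hmem : ∀ u : W.map S.mkQ, (χ - s ∘ₗ (W.map S.mkQ).subtype) u ∈ S := by
      intro u
      rw [← Submodule.Quotient.mk_eq_zero, ← Submodule.mkQ_apply]
      show S.mkQ (χ u - s u) = 0
      rw [map_sub, hχ, hs', sub_self]
    refine ⟨LinearMap.codRestrict S (χ - s ∘ₗ (W.map S.mkQ).subtype) hmem, ?_⟩
    apply Subtype.ext
    show LinearMap.range (ψ _) = W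
    have h1 : ∀ u, ψ (LinearMap.codRestrict S (χ - s ∘ₗ (W.map S.mkQ).subtype) hmem) u = χ u := by
      intro u
      rw [hψ, LinearMap.codRestrict_apply]
      show s u + (χ u - s u) = χ u
      abel
    apply le_antisymm
    · rintro _ ⟨u, rfl⟩
      rw [h1]
      exact ((liftEquiv hWS).symm u).2
    · intro w hw
      refine ⟨liftEquiv hWS ⟨w, hw⟩, ?_⟩
      rw [h1]
      show (((liftEquiv hWS).symm (liftEquiv hWS ⟨w, hw⟩) : W) : V) = w
      rw [LinearEquiv.symm_apply_apply]

theorem finrank_comap (S : Submodule F V) (U : Submodule F (V ⧸ S)) :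
    finrank F (U.comap S.mkQ) = finrank F U + finrank F S := by
  set W := U.comap S.mkQ with hW
  have hSW : S ≤ W := by
    intro x hx
    show S.mkQ x ∈ U
    rw [Submodule.mkQ_apply, (Submodule.Quotient.mk_eq_zero S).2 hx]
    exact U.zero_mem
  have h1 := LinearMap.finrank_range_add_finrank_ker (S.mkQ.domRestrict W)
  rw [LinearMap.range_domRestrict] at h1
  have h2 : W.map S.mkQ = U := Submodule.map_comap_eq_of_surjective (Submodule.mkQ_surjective S) U
  have h3 : LinearMap.ker (S.mkQ.domRestrict W) = S.comap W.subtype := by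
    ext x
    rw [LinearMap.mem_ker, LinearMap.domRestrict_apply, Submodule.mkQ_apply,
      Submodule.Quotient.mk_eq_zero]
    rfl
  rw [h2, h3, (Submodule.comapSubtypeEquivOfLe hSW).finrank_eq] at h1
  exact h1.symm

end count

/-- the degree function -/
noncomputable def adeg (q : ℕ) (n : ℕ) : ℂ := if n = 0 then 0 else ∏ i ∈ Finset.Ico 1 n, (1 - (q : ℂ) ^ i)

theorem adeg_zero (q : ℕ) : adeg q 0 = 0 := by simp [adeg]

theorem adeg_one (q : ℕ) : adeg q 1 = 1 := by simp [adeg]

theorem adeg_succ (q n : ℕ) (hn : n ≠ 0) : adeg q (n + 1) + (q : ℂ) ^ n * adeg q n = adeg q n := by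
  unfold adeg
  rw [if_neg (by omega), if_neg hn, Finset.prod_Ico_succ_top (by omega)]
  ring

open Classical in
theorem sum_adeg [Fintype F] (N : ℕ) : ∀ (V : Type u) [AddCommGroup V] [Module F V] [Finite V],
    finrank F V = N → ∑ W : Submodule F V, adeg (Fintype.card F) (finrank F W) = N := by
  set q := Fintype.card F with hq
  induction N with
  | zero =>
    intro V _ _ _ hV
    have hsub : Subsingleton V := (Module.finrank_zero_iff (R := F) (M := V)).1 hV
    have h1 : ∀ W : Submodule F V, adeg q (finrank F W) = 0 := by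
      intro W
      have h2 : finrank F W = 0 := by
        have := Submodule.finrank_le W
        omega
      rw [h2, adeg_zero]
    simp [h1]
  | succ N ih =>
    intro V _ _ _ hV
    have hnt : Nontrivial V := Module.nontrivial_of_finrank_pos (R := F) (by omega)
    obtain ⟨v, hv⟩ := exists_ne (0 : V)
    set S : Submodule F V := Submodule.span F {v} with hS
    have hS1 : finrank F S = 1 := finrank_span_singleton hv
    have hQ : finrank F (V ⧸ S) = N := by
      have := Submodule.finrank_quotient_add_finrank S
      omega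
    have hdis : ∀ W : Submodule F V, (¬ S ≤ W) ↔ W ⊓ S = ⊥ := by
      intro W
      constructor
      · intro h
        rw [Submodule.eq_bot_iff]
        rintro x ⟨hx1, hx2⟩
        by_contra hx0
        apply h
        obtain ⟨c, rfl⟩ := Submodule.mem_span_singleton.1 hx2
        have hc : c ≠ 0 := by
          rintro rfl
          exact hx0 (zero_smul _ _)
        rw [hS, Submodule.span_singleton_le_iff_mem]
        have := W.smul_mem c⁻¹ hx1
        rwa [smul_smul, inv_mul_cancel₀ hc, one_smul] at this
      · intro h hSW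
        rw [inf_eq_right.2 hSW] at h
        rw [h, finrank_bot] at hS1
        omega
    have h1 : ∑ W : Submodule F V, adeg q (finrank F W) =
        ∑ W : Submodule F V, (if S ≤ W then adeg q (finrank F W) else 0) +
        ∑ W : Submodule F V, (if W ⊓ S = ⊥ then adeg q (finrank F W) else 0) := by
      rw [← Finset.sum_add_distrib]
      refine Finset.sum_congr rfl fun W _ => ?_
      by_cases hW : S ≤ W
      · rw [if_pos hW, if_neg (fun hc => ((hdis W).2 hc) hW), add_zero]
      · rw [if_neg hW, if_pos ((hdis W).1 hW), zero_add]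
    have h2 : ∑ W : Submodule F V, (if S ≤ W then adeg q (finrank F W) else 0) =
        ∑ U : Submodule F (V ⧸ S), adeg q (finrank F U + 1) := by
      rw [← Finset.sum_filter]
      symm
      refine Finset.sum_nbij' (fun U => U.comap S.mkQ) (fun W => W.map S.mkQ) ?_ ?_ ?_ ?_ ?_
      · intro U _
        simp only [Finset.mem_filter, Finset.mem_univ, true_and]
        intro x hx
        show S.mkQ x ∈ U
        rw [Submodule.mkQ_apply, (Submodule.Quotient.mk_eq_zero S).2 hx]
        exact U.zero_mem
      · intro W _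
        exact Finset.mem_univ _
      · intro U _
        exact Submodule.map_comap_eq_of_surjective (Submodule.mkQ_surjective S) U
      · intro W hW
        simp only [Finset.mem_filter, Finset.mem_univ, true_and] at hW
        rw [Submodule.comap_map_eq, Submodule.ker_mkQ, sup_eq_left.2 hW]
      · intro U _
        rw [finrank_comap, hS1]
    have h3 : ∑ W : Submodule F V, (if W ⊓ S = ⊥ then adeg q (finrank F W) else 0) =
        ∑ U : Submodule F (V ⧸ S), (q : ℂ) ^ finrank F U * adeg q (finrank F U) := by
      have h4 : ∀ W : Submodule F V, (if W ⊓ S = ⊥ then adeg q (finrank F W) else 0) =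
          ∑ U : Submodule F (V ⧸ S), (if W ⊓ S = ⊥ ∧ W.map S.mkQ = U then
            adeg q (finrank F U) else 0) := by
        intro W
        by_cases hW : W ⊓ S = ⊥
        · simp only [hW, true_and, if_true]
          rw [Finset.sum_ite_eq Finset.univ (W.map S.mkQ) (fun U => adeg q (finrank F U)),
            if_pos (Finset.mem_univ _), (liftEquiv hW).finrank_eq]
        · simp [hW]
      rw [Finset.sum_congr rfl fun W _ => h4 W, Finset.sum_comm]
      refine Finset.sum_congr rfl fun U _ => ?_
      rw [← Finset.sum_filter, Finset.sum_const, nsmul_eq_mul]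
      congr 1
      rw [← Fintype.card_subtype, ← Nat.card_eq_fintype_card, card_lifts S U,
        Module.natCard_eq_pow_finrank (K := F), Module.finrank_linearMap, hS1, mul_one,
        Nat.card_eq_fintype_card, ← hq]
      push_cast
      rfl
    rw [h1, h2, h3, ← Finset.sum_add_distrib]
    have h5 : ∀ U : Submodule F (V ⧸ S), adeg q (finrank F U + 1) +
        (q : ℂ) ^ finrank F U * adeg q (finrank F U) =
        adeg q (finrank F U) + (if U = ⊥ then 1 else 0) := by
      intro U
      by_cases hU : U = ⊥
      · rw [if_pos hU, hU, finrank_bot, adeg_zero, zero_add, adeg_one]; ring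
      · rw [if_neg hU, adeg_succ, add_zero]
        intro hc
        exact hU (Submodule.finrank_eq_zero.1 hc)
    rw [Finset.sum_congr rfl fun U _ => h5 U, Finset.sum_add_distrib, ih (V ⧸ S) hQ]
    simp

/-- the value at the identity -/
theorem J_one [Fintype F] {t : Fn F}
    (ht : ∀ (V : Type u) [AddCommGroup V] [Module F V] [Finite V],
      t V (1 : V →ₗ[F] V) = finrank F V) (N : ℕ) :
    ∀ (V : Type u) [AddCommGroup V] [Module F V] [Finite V], finrank F V ≤ N →
      J t V (1 : V →ₗ[F] V) = adeg (Fintype.card F) (finrank F V) := by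
  classical
  induction N with
  | zero =>
    intro V _ _ _ hV
    have h0 : finrank F V = 0 := by omega
    rw [J_of_finrank_zero _ h0, ht, h0, adeg_zero, Nat.cast_zero]
  | succ N ih =>
    intro V _ _ _ hV
    have h1 : ∀ W : Submodule F V, W ≠ ⊤ → on (J t) (1 : V →ₗ[F] V) W =
        adeg (Fintype.card F) (finrank F W) := by
      intro W hW
      have hinv : W ≤ W.comap (1 : V →ₗ[F] V) := fun x hx => hx
      rw [on_pos _ hinv]
      have h2 : (1 : V →ₗ[F] V).restrict hinv = (1 : W →ₗ[F] W) := rfl
      rw [h2]
      apply ih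
      have := Submodule.finrank_lt hW
      omega
    rw [J_rec, ht]
    have h3 := sum_adeg (finrank F V) V rfl
    have h4 : ∑ W : Submodule F V, adeg (Fintype.card F) (finrank F W) =
        adeg (Fintype.card F) (finrank F V) +
        ∑ W : Submodule F V, (if W = ⊤ then 0 else on (J t) (1 : V →ₗ[F] V) W) := by
      have h5 : ∀ W : Submodule F V, adeg (Fintype.card F) (finrank F W) =
          (if W = ⊤ then adeg (Fintype.card F) (finrank F W) else 0) +
            (if W = ⊤ then 0 else on (J t) (1 : V →ₗ[F] V) W) := by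
        intro W
        split_ifs with hW
        · rw [add_zero]
        · rw [zero_add, h1 W hW]
      rw [Finset.sum_congr rfl fun W _ => h5 W, Finset.sum_add_distrib,
        Finset.sum_ite_eq' Finset.univ (⊤ : Submodule F V)
        (fun W => adeg (Fintype.card F) (finrank F W)), if_pos (Finset.mem_univ _), finrank_top]
    rw [h4] at h3
    rw [← h3]
    ring

end H45.JDeg
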