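import Mathlib
import Cfsg.Agent.Lib.H45.Cusp

/-!
Norms of the inverse transforms: reduction to cyclic endomorphisms (helper45).
-/

set_option autoImplicit false
set_option linter.unusedSectionVars false

namespace H45.JNorm

open H45.InvRec H45.TrFn H45.Cusp Module Polynomial
open scoped ComplexConjugate

universe u

variable {F : Type u} [Field F] {V : Type u} [AddCommGroup V] [Module F V] [Finite V]

noncomputable instance finUnits : Fintype (V →ₗ[F] V)ˣ := Fintype.ofFinite _

theorem B_mul_self {S : Submodule F V} (b : B S) :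
    (b : V →ₗ[F] V) * (b : V →ₗ[F] V) = 0 := by
  ext v
  rw [Module.End.mul_apply]
  exact b.2.2 _ (b.2.1 v)

/-- the unipotent element -/
def uni {S : Submodule F V} (b : B S) : (V →ₗ[F] V)ˣ where
  val := 1 + (b : V →ₗ[F] V)
  inv := 1 - (b : V →ₗ[F] V)
  val_inv := by
    have := B_mul_self b
    rw [mul_sub, add_mul, add_mul, this]
    simp
  inv_val := by
    have := B_mul_self b
    rw [mul_add, sub_mul, sub_mul, this]
    simp

/-- multiplication by an invertible map stabilizing `S` -/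
noncomputable def mulB {S : Submodule F V} (g : (V →ₗ[F] V)ˣ) (hg : S ≤ S.comap (g : V →ₗ[F] V)) :
    B S ≃ B S :=
  Equiv.ofBijective (fun b => ⟨(g : V →ₗ[F] V) * b, ⟨fun v => hg (b.2.1 v), fun s hs => by
    rw [Module.End.mul_apply, b.2.2 s hs, map_zero]⟩⟩) (by
    apply Finite.injective_iff_bijective.1
    intro a b hab
    have h1 : (g : V →ₗ[F] V) * a = (g : V →ₗ[F] V) * b := congrArg Subtype.val hab
    exact Subtype.ext (g.mul_right_inj.1 h1))

/-- Averaging over the unipotent radical of the stabilizer of `S`. -/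
theorem sum_avg {t : Fn F} (hi : IsoInv t) (ha : IsAdd t) {S : Submodule F V} (hS0 : S ≠ ⊥)
    (hS1 : S ≠ ⊤) (Y : (V →ₗ[F] V) → ℂ) (hY0 : ∀ g, ¬ S ≤ S.comap g → Y g = 0)
    (hY : ∀ g, S ≤ S.comap g → ∀ b : B S, Y (g + (b : V →ₗ[F] V)) = Y g) :
    ∑ g : (V →ₗ[F] V)ˣ, J t V g * Y g = 0 := by
  have h1 : ∀ b : B S, ∑ g : (V →ₗ[F] V)ˣ, J t V g * Y g =
      ∑ g : (V →ₗ[F] V)ˣ, J t V ((g * uni b : (V →ₗ[F] V)ˣ) : V →ₗ[F] V) *
        Y ((g * uni b : (V →ₗ[F] V)ˣ) : V →ₗ[F] V) := fun b =>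
    (Fintype.sum_equiv (Equiv.mulRight (uni b)) _ _ fun g => rfl).symm
  have h2 : (Fintype.card (B S) : ℂ) * ∑ g : (V →ₗ[F] V)ˣ, J t V g * Y g = 0 := by
    have h3 : (Fintype.card (B S) : ℂ) * ∑ g : (V →ₗ[F] V)ˣ, J t V g * Y g =
        ∑ b : B S, ∑ g : (V →ₗ[F] V)ˣ, J t V ((g * uni b : (V →ₗ[F] V)ˣ) : V →ₗ[F] V) *
        Y ((g * uni b : (V →ₗ[F] V)ˣ) : V →ₗ[F] V) := by
      rw [← Finset.sum_congr rfl fun b _ => h1 b, Finset.sum_const, Finset.card_univ, nsmul_eq_mul]
    rw [h3, Finset.sum_comm]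
    refine Finset.sum_eq_zero fun g _ => ?_
    have h4 : ∀ b : B S, ((g * uni b : (V →ₗ[F] V)ˣ) : V →ₗ[F] V) = (g : V →ₗ[F] V) +
        (g : V →ₗ[F] V) * b := by
      intro b
      show (g : V →ₗ[F] V) * (1 + (b : V →ₗ[F] V)) = _
      rw [mul_add, mul_one]
    by_cases hg : S ≤ S.comap (g : V →ₗ[F] V)
    · have h5 : ∀ b : B S, J t V ((g * uni b : (V →ₗ[F] V)ˣ) : V →ₗ[F] V) *
        Y ((g * uni b : (V →ₗ[F] V)ˣ) : V →ₗ[F] V) =
        J t V ((g : V →ₗ[F] V) + ((mulB g hg b : B S) : V →ₗ[F] V)) * Y g := by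
        intro b
        rw [h4]
        congr 1
        exact hY g hg (mulB g hg b)
      rw [Finset.sum_congr rfl fun b _ => h5 b, ← Finset.sum_mul,
        Fintype.sum_equiv (mulB g hg) _ (fun b : B S => J t V ((g : V →ₗ[F] V) + (b : V →ₗ[F] V)))
          (fun b => rfl), sum_B_eq_zero hi ha _ V le_rfl S hS0 hS1 _ hg, zero_mul]
    · refine Finset.sum_eq_zero fun b _ => ?_
      rw [hY0, mul_zero]
      intro hc
      apply hg
      intro s hs
      have h5 := hc hs
      rw [Submodule.mem_comap, h4, LinearMap.add_apply, Module.End.mul_apply, b.2.2 s hs, map_zero,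
        add_zero] at h5
      exact h5
  rcases mul_eq_zero.1 h2 with h3 | h3
  · exfalso
    have : Fintype.card (B S) ≠ 0 := Fintype.card_ne_zero
    exact this (by exact_mod_cast h3)
  · exact h3

/-- pairing of two inverse transforms -/
theorem sum_J_J {t t' : Fn F} (hi : IsoInv t) (ha : IsAdd t) (hi' : IsoInv t') (ha' : IsAdd t') :
    ∑ g : (V →ₗ[F] V)ˣ, J t V g * conj (J t' V g) = ∑ g : (V →ₗ[F] V)ˣ, J t V g * conj (t' V g) := by
  classical
  have h1 : ∀ g : (V →ₗ[F] V)ˣ, J t V g * conj (J t' V g) = J t V g * conj (t' V g) -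
      ∑ W : Submodule F V, (if W = ⊤ then 0 else J t V g * conj (on (J t') (g : V →ₗ[F] V) W)) := by
    intro g
    rw [J_rec (t := t') V (g : V →ₗ[F] V), map_sub, mul_sub, map_sum, Finset.mul_sum]
    congr 1
    refine Finset.sum_congr rfl fun W _ => ?_
    split_ifs <;> simp
  rw [Finset.sum_congr rfl fun g _ => h1 g, Finset.sum_sub_distrib, Finset.sum_comm]
  rw [Finset.sum_eq_zero (s := Finset.univ (α := Submodule F V)), sub_zero]
  intro W _
  by_cases hW1 : W = ⊤
  · simp [hW1]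
  · simp only [if_neg hW1]
    by_cases hW0 : W = ⊥
    · refine Finset.sum_eq_zero fun g _ => ?_
      have hb : (⊥ : Submodule F V) ≤ (⊥ : Submodule F V).comap (g : V →ₗ[F] V) := bot_le
      rw [hW0, on_pos _ hb, J_of_finrank_zero _ (finrank_bot F V), isAdd_zero hi' ha']
      simp
    · refine sum_avg hi ha hW0 hW1 (fun g => conj (on (J t') g W)) ?_ ?_
      · intro g hg
        rw [on_neg _ hg, map_zero]
      · intro g hg b
        show conj (on (J t') (g + (b : V →ₗ[F] V)) W) = conj (on (J t') g W)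
        congr 1
        refine on_agree _ fun w hw => ?_
        rw [LinearMap.add_apply, b.2.2 w hw, add_zero]

/-- the cyclic subspace generated by a vector -/
def cyc (g : V →ₗ[F] V) (v : V) : Submodule F V := Submodule.span F (Set.range fun i : ℕ => (g ^ i) v)

theorem cyc_inv (g : V →ₗ[F] V) (v : V) : cyc g v ≤ (cyc g v).comap g := by
  unfold cyc
  rw [Submodule.span_le]
  rintro _ ⟨i, rfl⟩
  refine Submodule.subset_span ⟨i + 1, ?_⟩
  show (g ^ (i + 1)) v = g ((g ^ i) v)
  rw [pow_succ', Module.End.mul_apply]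

theorem mem_cyc (g : V →ₗ[F] V) (v : V) : v ∈ cyc g v := Submodule.subset_span ⟨0, by simp⟩

theorem cyc_le {g : V →ₗ[F] V} {v : V} {W : Submodule F V} (hW : W ≤ W.comap g) (hv : v ∈ W) :
    cyc g v ≤ W := by
  unfold cyc
  rw [Submodule.span_le]
  rintro _ ⟨i, rfl⟩
  show (g ^ i) v ∈ W
  induction i with
  | zero => simpa using hv
  | succ i ih =>
    rw [pow_succ', Module.End.mul_apply]
    exact hW ih

theorem cyc_agree {g g' : V →ₗ[F] V} {v : V} {W : Submodule F V} (h : ∀ w ∈ W, g w = g' w)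
    (hc : cyc g v = W) : cyc g' v = W := by
  have hv : v ∈ W := hc ▸ mem_cyc g v
  have hW : W ≤ W.comap g := hc ▸ cyc_inv g v
  have hW' : W ≤ W.comap g' := fun w hw => by
    show g' w ∈ W
    rw [← h w hw]; exact hW hw
  apply le_antisymm (cyc_le hW' hv)
  rw [← hc]
  refine cyc_le ?_ (mem_cyc g' v)
  intro w hw
  have hwW : w ∈ W := cyc_le hW' hv hw
  show g w ∈ cyc g' v
  rw [h w hwW]
  exact cyc_inv g' v hw

open Classical in
/-- Only the endomorphisms with cyclic vector `v` contribute. -/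
theorem sum_cyclic {t t' : Fn F} (hi : IsoInv t) (ha : IsAdd t) (ha' : IsAdd t')
    {v : V} (hv : v ≠ 0) :
    ∑ g : (V →ₗ[F] V)ˣ, J t V g * conj (t' V g) =
      ∑ g : (V →ₗ[F] V)ˣ, if cyc (g : V →ₗ[F] V) v = ⊤ then J t V g * conj (t' V g) else 0 := by
  have h1 : ∀ g : (V →ₗ[F] V)ˣ, J t V g * conj (t' V g) =
      ∑ W : Submodule F V, (if cyc (g : V →ₗ[F] V) v = W then J t V g * conj (t' V g) else 0) := by
    intro g
    simp
  rw [Finset.sum_congr rfl fun g _ => h1 g, Finset.sum_comm]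
  rw [Finset.sum_eq_single (⊤ : Submodule F V)]
  · intro W _ hW1
    by_cases hW0 : W = ⊥
    · refine Finset.sum_eq_zero fun g _ => ?_
      rw [if_neg]
      intro hc
      have := mem_cyc (g : V →ₗ[F] V) v
      rw [hc, hW0, Submodule.mem_bot] at this
      exact hv this
    · have h2 := sum_avg hi ha hW0 hW1
        (fun g => if cyc g v = W then conj (t' V g) else 0) ?_ ?_
      · refine Eq.trans (Finset.sum_congr rfl fun g _ => ?_) h2
        show _ = J t V g * (if cyc (g : V →ₗ[F] V) v = W then conj (t' V g) else 0)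
        split_ifs <;> simp
      · intro g hg
        show (if cyc g v = W then conj (t' V g) else 0) = 0
        rw [if_neg]
        intro hc
        exact hg (hc ▸ cyc_inv g v)
      · intro g hg b
        show (if cyc (g + (b : V →ₗ[F] V)) v = W then conj (t' V (g + (b : V →ₗ[F] V))) else 0) =
          (if cyc g v = W then conj (t' V g) else 0)
        have hag : ∀ w ∈ W, g w = (g + (b : V →ₗ[F] V)) w := by
          intro w hw
          rw [LinearMap.add_apply, b.2.2 w hw, add_zero]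
        rw [t_add_B ha' hg b, ha' V g W hg]
        by_cases hc : cyc g v = W
        · rw [if_pos hc, if_pos (cyc_agree hag hc)]
        · rw [if_neg hc, if_neg (fun hc' => hc (cyc_agree (fun w hw => (hag w hw).symm) hc'))]
  · intro h
    exact absurd (Finset.mem_univ _) h

end H45.JNorm
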