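import Mathlib
import Cfsg.Agent.Lib.H45.JNorm

/-!
Values of the inverse transform on cyclic endomorphisms (helper45).
-/

set_option autoImplicit false
set_option linter.unusedSectionVars false

namespace H45.JCyc

open H45.InvRec H45.TrFn H45.Cusp H45.JNorm Module Polynomial

universe u

variable {F : Type u} [Field F] {V : Type u} [AddCommGroup V] [Module F V] [Finite V]

theorem aeval_X_mul_apply {U : Type u} [AddCommGroup U] [Module F U] (h : U →ₗ[F] U) (p : F[X])
    (u : U) : aeval h (X * p) u = h (aeval h p u) := by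
  rw [map_mul, aeval_X]; rfl

theorem aeval_restrict_coe {g : V →ₗ[F] V} {W : Submodule F V} (hW : W ≤ W.comap g) (p : F[X])
    (w : W) : ((aeval (g.restrict hW) p w : W) : V) = aeval g p (w : V) := by
  induction p using Polynomial.induction_on with
  | C a => simp [Module.algebraMap_end_apply]
  | add p q hp hq =>
    rw [map_add, map_add, LinearMap.add_apply, LinearMap.add_apply, Submodule.coe_add, hp, hq]
  | monomial n a h =>
    rw [pow_succ, ← mul_assoc, mul_comm (C a * X ^ n) X, aeval_X_mul_apply, aeval_X_mul_apply]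
    exact congrArg g h

theorem aeval_mem {g : V →ₗ[F] V} {W : Submodule F V} (hW : W ≤ W.comap g) (p : F[X])
    {w : V} (hw : w ∈ W) : aeval g p w ∈ W := by
  rw [← aeval_restrict_coe hW p ⟨w, hw⟩]
  exact Submodule.coe_mem _

theorem aeval_mapQ {g : V →ₗ[F] V} {W : Submodule F V} (hW : W ≤ W.comap g) (p : F[X]) (v : V) :
    aeval (W.mapQ W g hW) p (W.mkQ v) = W.mkQ (aeval g p v) := by
  induction p using Polynomial.induction_on with
  | C a => simp [Module.algebraMap_end_apply]
  | add p q hp hq =>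
    rw [map_add, map_add, LinearMap.add_apply, LinearMap.add_apply, map_add, hp, hq]
  | monomial n a h =>
    rw [pow_succ, ← mul_assoc, mul_comm (C a * X ^ n) X, aeval_X_mul_apply, aeval_X_mul_apply, h]
    rfl

theorem mem_cyc_iff {g : V →ₗ[F] V} {v w : V} : w ∈ cyc g v ↔ ∃ p : F[X], w = aeval g p v := by
  constructor
  · intro h
    unfold cyc at h
    induction h using Submodule.span_induction with
    | mem x hx =>
      obtain ⟨i, rfl⟩ := hx
      exact ⟨X ^ i, by simp⟩
    | zero => exact ⟨0, by simp⟩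
    | add x y _ _ hx hy =>
      obtain ⟨p, rfl⟩ := hx
      obtain ⟨r, rfl⟩ := hy
      exact ⟨p + r, by simp⟩
    | smul a x _ hx =>
      obtain ⟨p, rfl⟩ := hx
      exact ⟨C a * p, by simp [Module.algebraMap_end_apply]⟩
  · rintro ⟨p, rfl⟩
    exact aeval_mem (cyc_inv g v) p (mem_cyc g v)

theorem exists_aeval {g : V →ₗ[F] V} {v : V} (h : cyc g v = ⊤) (w : V) :
    ∃ p : F[X], w = aeval g p v := by
  rw [← mem_cyc_iff, h]; trivial

/-- a cyclic endomorphism has minimal polynomial equal to the characteristic polynomial -/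
theorem minpoly_eq_charpoly {g : V →ₗ[F] V} {v : V} (h : cyc g v = ⊤) :
    minpoly F g = g.charpoly := by
  have hint : IsIntegral F g := LinearMap.isIntegral g
  have hm := minpoly.monic hint
  refine (eq_of_monic_of_dvd_of_natDegree_le hm (LinearMap.charpoly_monic g)
    (LinearMap.minpoly_dvd_charpoly g) ?_).symm
  rw [LinearMap.charpoly_natDegree]
  by_cases hm1 : minpoly F g = 1
  · have h1 : g ^ 0 = 0 := by
      have := minpoly.aeval F g
      rw [hm1, map_one] at this
      rw [pow_zero]; exact this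
    have hsub : Subsingleton V := by
      refine ⟨fun a b => ?_⟩
      have h2 : ∀ x : V, x = 0 := fun x => by
        have := LinearMap.congr_fun h1 x
        simpa using this
      rw [h2 a, h2 b]
    rw [(Module.finrank_zero_iff (R := F) (M := V)).2 hsub]
    omega
  let φ : degreeLT F (minpoly F g).natDegree →ₗ[F] V :=
    { toFun := fun p => aeval g (p : F[X]) v
      map_add' := fun p q => by simp
      map_smul' := fun a p => by simp }
  have hφ : Function.Surjective φ := by
    intro w
    obtain ⟨p, rfl⟩ := exists_aeval h w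
    refine ⟨⟨p %ₘ minpoly F g, ?_⟩, ?_⟩
    · rw [mem_degreeLT, ← degree_eq_natDegree hm.ne_zero]
      exact degree_modByMonic_lt p hm
    · show aeval g (p %ₘ minpoly F g) v = aeval g p v
      rw [aeval_modByMonic_eq_self_of_root (minpoly.aeval F g)]
  have h1 := LinearMap.finrank_le_finrank_of_surjective hφ
  rwa [(degreeLTEquiv F _).finrank_eq, Module.finrank_fin_fun] at h1

theorem natDegree_charpoly (g : V →ₗ[F] V) : g.charpoly.natDegree = finrank F V :=
  LinearMap.charpoly_natDegree g

section van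

open Classical in
/-- The inverse transform of an additive function vanishes on decomposable modules with coprime
parts. -/
theorem J_eq_zero {t : Fn F} (hi : IsoInv t) (ha : IsAdd t) (p : F[X]) (N : ℕ) :
    ∀ (V : Type u) [AddCommGroup V] [Module F V] [Finite V], finrank F V ≤ N →
    ∀ (g : V →ₗ[F] V) (V₁ V₂ : Submodule F V), V₁ ≤ V₁.comap g → V₂ ≤ V₂.comap g →
      V₁ ≠ ⊥ → V₂ ≠ ⊥ → V₁ ⊔ V₂ = ⊤ → (∀ v ∈ V₁, aeval g p v = v) → (∀ v ∈ V₂, aeval g p v = 0) →
      J t V g = 0 := by
  induction N with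
  | zero =>
    intro V _ _ _ hV g V₁ V₂ _ _ h1
    exfalso
    have hsub : Subsingleton V := (Module.finrank_zero_iff (R := F) (M := V)).1 (by omega)
    exact h1 (Subsingleton.elim _ _)
  | succ N ih =>
    intro V _ _ _ hV g V₁ V₂ hg₁ hg₂ hne₁ hne₂ hsup hp₁ hp₂
    have hinf : V₁ ⊓ V₂ = ⊥ := by
      rw [Submodule.eq_bot_iff]
      rintro x ⟨hx1, hx2⟩
      rw [← hp₁ x hx1, hp₂ x hx2]
    have hV₁ : V₁ ≠ ⊤ := by
      rintro rfl
      rw [top_inf_eq] at hinf
      exact hne₂ hinf
    have hV₂ : V₂ ≠ ⊤ := by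
      rintro rfl
      rw [inf_top_eq] at hinf
      exact hne₁ hinf
    have hbot : on (J t) g ⊥ = 0 := by
      have hb : (⊥ : Submodule F V) ≤ (⊥ : Submodule F V).comap g := bot_le
      rw [on_pos _ hb, J_of_finrank_zero _ (finrank_bot F V), isAdd_zero hi ha]
    -- the value of t
    have ht : t V g = t V₁ (g.restrict hg₁) + t V₂ (g.restrict hg₂) := by
      rw [ha V g V₁ hg₁]
      congr 1
      have hc : IsCompl V₁ V₂ := ⟨disjoint_iff.2 hinf, codisjoint_iff.2 hsup⟩
      symm
      refine hi _ _ (Submodule.quotientEquivOfIsCompl V₁ V₂ hc).symm _ _ ?_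
      intro v
      rw [Submodule.quotientEquivOfIsCompl_symm_apply, Submodule.quotientEquivOfIsCompl_symm_apply]
      rfl
    have hW : ∀ W : Submodule F V, on (J t) g W = (if W ≤ V₁ then on (J t) g W else 0) +
        (if W ≤ V₂ then on (J t) g W else 0) + (if W = ⊤ then on (J t) g W else 0) := by
      intro W
      by_cases h0 : W = ⊥
      · rw [h0, hbot]; simp
      by_cases h1 : W ≤ V₁
      · have h2 : ¬ W ≤ V₂ := fun h2 => h0 (le_bot_iff.1 (hinf ▸ le_inf h1 h2))
        have h3 : W ≠ ⊤ := by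
          rintro rfl
          exact hV₁ (top_le_iff.1 h1)
        rw [if_pos h1, if_neg h2, if_neg h3]; ring
      by_cases h2 : W ≤ V₂
      · have h3 : W ≠ ⊤ := by
          rintro rfl
          exact hV₂ (top_le_iff.1 h2)
        rw [if_neg h1, if_pos h2, if_neg h3]; ring
      rw [if_neg h1, if_neg h2]
      by_cases h3 : W = ⊤
      · rw [if_pos h3]; ring
      rw [if_neg h3]
      by_cases hg : W ≤ W.comap g
      · rw [on_pos _ hg]
        have hdec : ∀ w ∈ W, ∃ w₁ ∈ W, ∃ w₂ ∈ W, w₁ ∈ V₁ ∧ w₂ ∈ V₂ ∧ w = w₁ + w₂ := by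
          intro w hw
          have h4 : w ∈ V₁ ⊔ V₂ := by rw [hsup]; trivial
          obtain ⟨w₁, hw₁, w₂, hw₂, rfl⟩ := Submodule.mem_sup.1 h4
          have h5 : aeval g p (w₁ + w₂) = w₁ := by
            rw [map_add, hp₁ w₁ hw₁, hp₂ w₂ hw₂, add_zero]
          have h6 : w₁ ∈ W := by
            rw [← h5]; exact aeval_mem hg p hw
          have h7 : w₂ ∈ W := by
            have := W.sub_mem hw h6
            rwa [add_sub_cancel_left] at this
          exact ⟨w₁, h6, w₂, h7, hw₁, hw₂, rfl⟩
        have key := ih W (by have := Submodule.finrank_lt h3; omega) (g.restrict hg)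
          (V₁.comap W.subtype) (V₂.comap W.subtype) (fun w hw => hg₁ hw) (fun w hw => hg₂ hw)
          ?_ ?_ ?_ ?_ ?_
        · rw [key]; simp
        · intro hc
          apply h2
          intro w hw
          obtain ⟨w₁, h4, w₂, h5, h6, h7, rfl⟩ := hdec w hw
          have h8 : (⟨w₁, h4⟩ : W) ∈ V₁.comap W.subtype := h6
          rw [hc, Submodule.mem_bot] at h8
          have h9 : w₁ = 0 := congrArg Subtype.val h8
          rw [h9, zero_add]; exact h7
        · intro hc
          apply h1
          intro w hw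
          obtain ⟨w₁, h4, w₂, h5, h6, h7, rfl⟩ := hdec w hw
          have h8 : (⟨w₂, h5⟩ : W) ∈ V₂.comap W.subtype := h7
          rw [hc, Submodule.mem_bot] at h8
          have h9 : w₂ = 0 := congrArg Subtype.val h8
          rw [h9, add_zero]; exact h6
        · rw [eq_top_iff]
          rintro ⟨w, hw⟩ _
          obtain ⟨w₁, h4, w₂, h5, h6, h7, rfl⟩ := hdec w hw
          exact Submodule.mem_sup.2 ⟨⟨w₁, h4⟩, h6, ⟨w₂, h5⟩, h7, rfl⟩
        · intro w hw
          apply Subtype.ext
          rw [aeval_restrict_coe]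
          exact hp₁ w hw
        · intro w hw
          apply Subtype.ext
          rw [aeval_restrict_coe]
          exact hp₂ w hw
      · rw [on_neg _ hg]; simp
    have h1 := sum_on_J hi g
    rw [Finset.sum_congr rfl fun W _ => hW W, Finset.sum_add_distrib, Finset.sum_add_distrib,
      sum_le hi hg₁, sum_le hi hg₂, Finset.sum_ite_eq' Finset.univ (⊤ : Submodule F V)
        (fun W => on (J t) g W), if_pos (Finset.mem_univ _), on_top (isoInv_J hi), ht] at h1
    exact add_left_cancel (h1.trans (add_zero _).symm)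

/-- coprime factors of the characteristic polynomial of a cyclic endomorphism -/
theorem J_eq_zero_of_coprime {t : Fn F} (hi : IsoInv t) (ha : IsAdd t) {g : V →ₗ[F] V} {v : V}
    (hc : cyc g v = ⊤) {h₁ h₂ : F[X]} (hcop : IsCoprime h₁ h₂) (heq : g.charpoly = h₁ * h₂)
    (hd₁ : 0 < h₁.natDegree) (hd₂ : 0 < h₂.natDegree) : J t V g = 0 := by
  obtain ⟨a, b, hab⟩ := hcop
  have hne₁ : h₁ ≠ 0 := by rintro rfl; simp at hd₁
  have hne₂ : h₂ ≠ 0 := by rintro rfl; simp at hd₂
  have h0 : aeval g (h₁ * h₂) = 0 := by rw [← heq]; exact LinearMap.aeval_self_charpoly g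
  have hinv : ∀ h : F[X], LinearMap.ker (aeval g h) ≤ (LinearMap.ker (aeval g h)).comap g := by
    intro h x hx
    show aeval g h (g x) = 0
    have h1 : aeval g h (g x) = g (aeval g h x) := by
      rw [← Module.End.mul_apply, ← Module.End.mul_apply]
      have : aeval g (h * X) = aeval g (X * h) := by rw [mul_comm]
      rw [map_mul, map_mul, aeval_X] at this
      rw [this]
    rw [h1, LinearMap.mem_ker.1 hx, map_zero]
  have hmin := minpoly_eq_charpoly hc
  have hker : ∀ h h' : F[X], g.charpoly = h * h' → 0 < h.natDegree → h' ≠ 0 → h ≠ 0 →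
      LinearMap.ker (aeval g h) ≠ ⊥ := by
    intro h h' he hd hne' hne hk
    have h1 : aeval g h' = 0 := by
      ext x
      have h2 : aeval g h (aeval g h' x) = 0 := by
        rw [← Module.End.mul_apply, ← map_mul, ← he, LinearMap.aeval_self_charpoly]; rfl
      have h3 : aeval g h' x ∈ LinearMap.ker (aeval g h) := h2
      rw [hk, Submodule.mem_bot] at h3
      exact h3
    have h2 : minpoly F g ∣ h' := minpoly.dvd F g h1
    rw [hmin, he] at h2
    have h3 := natDegree_le_of_dvd h2 hne'
    rw [natDegree_mul hne hne'] at h3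
    omega
  refine J_eq_zero hi ha (b * h₂) (finrank F V) V le_rfl g (LinearMap.ker (aeval g h₁))
    (LinearMap.ker (aeval g h₂)) (hinv _) (hinv _) (hker h₁ h₂ heq hd₁ hne₂ hne₁)
    (hker h₂ h₁ (by rw [heq, mul_comm]) hd₂ hne₁ hne₂) ?_ ?_ ?_
  · rw [sup_ker_aeval_eq_ker_aeval_mul_of_coprime g ⟨a, b, hab⟩, h0]
    exact LinearMap.ker_zero
  · intro x hx
    have h1 : aeval g (a * h₁ + b * h₂) x = x := by rw [hab, map_one]; rfl
    rw [map_add, LinearMap.add_apply, map_mul (aeval g) a h₁, Module.End.mul_apply,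
      LinearMap.mem_ker.1 hx, map_zero, zero_add] at h1
    exact h1
  · intro x hx
    rw [map_mul, Module.End.mul_apply, LinearMap.mem_ker.1 hx, map_zero]

end van

section prim

variable {L : Type} [Field L] [Algebra F L]

theorem isAdd_tr (θ : MulChar L ℂ) : IsAdd (F := F) (tr θ) := fun _ _ _ _ g S hS => tr_add θ g S hS

/-- the value on a cyclic primary endomorphism -/
theorem J_primary (θ : MulChar L ℂ) {g : V →ₗ[F] V} {v : V} (hc : cyc g v = ⊤) {f : F[X]} {m : ℕ}
    (hf : Irreducible f) (hfm : f.Monic) (hm : m ≠ 0) (heq : g.charpoly = f ^ m) :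
    J (tr θ) V g = trP θ f := by
  classical
  set K := LinearMap.range (aeval g f) with hK
  have hcomm : ∀ (p q : F[X]) (x : V), aeval g p (aeval g q x) = aeval g q (aeval g p x) := by
    intro p q x
    rw [← Module.End.mul_apply, ← Module.End.mul_apply, ← map_mul, ← map_mul, mul_comm]
  have hgK : K ≤ K.comap g := by
    rintro _ ⟨x, rfl⟩
    refine ⟨g x, ?_⟩
    have := hcomm f X x
    rw [aeval_X] at this
    exact this
  have hzero : aeval g (f ^ m) = 0 := by rw [← heq]; exact LinearMap.aeval_self_charpoly g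
  have hVpos : 0 < finrank F V := by
    rw [← natDegree_charpoly g, heq, natDegree_pow]
    exact Nat.mul_pos (Nat.pos_of_ne_zero hm) hf.natDegree_pos
  have hnt : Nontrivial V := Module.nontrivial_of_finrank_pos hVpos
  -- Nakayama
  have hnak : ∀ W : Submodule F V, W ≤ W.comap g → W ⊔ K = ⊤ → W = ⊤ := by
    intro W hW hWK
    have h1 : ∀ i : ℕ, W ⊔ LinearMap.range (aeval g (f ^ i)) = ⊤ := by
      intro i
      induction i with
      | zero =>
        rw [pow_zero, map_one]
        have : LinearMap.range (1 : V →ₗ[F] V) = ⊤ := LinearMap.range_id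
        rw [this, sup_top_eq]
      | succ i ih =>
        rw [eq_top_iff, ← ih]
        refine sup_le le_sup_left ?_
        rintro _ ⟨x, rfl⟩
        have hx : x ∈ W ⊔ K := by rw [hWK]; trivial
        obtain ⟨w, hw, _, ⟨y, rfl⟩, rfl⟩ := Submodule.mem_sup.1 hx
        rw [map_add]
        refine Submodule.add_mem_sup (aeval_mem hW _ hw) ⟨y, ?_⟩
        rw [pow_succ, map_mul, Module.End.mul_apply]
    have h2 := h1 m
    rw [hzero, LinearMap.range_zero, sup_bot_eq] at h2
    exact h2
  have hKtop : K ≠ ⊤ := by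
    intro hKt
    have h1 := hnak ⊥ bot_le (by rw [hKt, sup_top_eq])
    exact bot_ne_top h1
  have hQnt : Nontrivial (V ⧸ K) := Submodule.Quotient.nontrivial_iff.2 hKtop
  have hQnt2 : Nontrivial (Module.End F (V ⧸ K)) := inferInstance
  set gQ := K.mapQ K g hgK with hgQ
  have hfQ : aeval gQ f = 0 := by
    apply Submodule.linearMap_qext
    ext x
    show aeval gQ f (K.mkQ x) = 0
    rw [aeval_mapQ, Submodule.mkQ_apply, Submodule.Quotient.mk_eq_zero]
    exact ⟨x, rfl⟩
  have hcQ : cyc gQ (K.mkQ v) = ⊤ := by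
    rw [eq_top_iff]
    intro y _
    obtain ⟨x, rfl⟩ := Submodule.mkQ_surjective K y
    obtain ⟨p, rfl⟩ := exists_aeval hc x
    rw [mem_cyc_iff]
    exact ⟨p, (aeval_mapQ hgK p v).symm⟩
  have hminQ : f = minpoly F gQ := minpoly.eq_of_irreducible_of_monic hf hfQ hfm
  have hcharQ : gQ.charpoly = f := by
    rw [← minpoly_eq_charpoly hcQ, ← hminQ]
  -- proper invariant subspaces lie in K
  have hle : ∀ W : Submodule F V, W ≤ W.comap g → W ≠ ⊤ → W ≤ K := by
    intro W hW hWt
    by_contra hWK
    apply hWt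
    apply hnak W hW
    set U := W.map K.mkQ with hU
    have hUinv : U ≤ U.comap gQ := by
      rintro _ ⟨w, hw, rfl⟩
      exact ⟨g w, hW hw, rfl⟩
    have hUbot : U ≠ ⊥ := by
      intro hb
      apply hWK
      intro w hw
      have h1 : K.mkQ w ∈ U := Submodule.mem_map_of_mem hw
      rw [hb, Submodule.mem_bot, Submodule.mkQ_apply, Submodule.Quotient.mk_eq_zero] at h1
      exact h1
    have hUpos : 0 < finrank F U := by
      rw [Nat.pos_iff_ne_zero]
      intro h0
      exact hUbot (Submodule.finrank_eq_zero.1 h0)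
    have h1 := charpoly_eq_mul gQ U hUinv
    rw [hcharQ] at h1
    have hUtop : U = ⊤ := by
      rcases hf.isUnit_or_isUnit h1 with h2 | h2
      · exfalso
        have h3 := natDegree_eq_zero_of_isUnit h2
        rw [natDegree_charpoly] at h3
        omega
      · have h3 := natDegree_eq_zero_of_isUnit h2
        rw [natDegree_charpoly] at h3
        have h4 := Submodule.finrank_quotient_add_finrank U
        exact Submodule.eq_top_of_finrank_eq (by omega)
    rw [eq_top_iff]
    intro x _
    have h2 : K.mkQ x ∈ U := by rw [hUtop]; trivial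
    obtain ⟨w, hw, h3⟩ := h2
    have h4 : x - w ∈ K := by
      rw [← Submodule.Quotient.mk_eq_zero, ← Submodule.mkQ_apply, map_sub, h3, sub_self]
    have h5 : x = w + (x - w) := by abel
    rw [h5]
    exact Submodule.add_mem_sup hw h4
  have hfin : ∑ W : Submodule F V, (if W = ⊤ then 0 else on (J (tr θ)) g W) =
      tr θ K (g.restrict hgK) := by
    rw [← sum_le (isoInv_tr θ) hgK]
    refine Finset.sum_congr rfl fun W _ => ?_
    by_cases hW : W ≤ W.comap g
    · by_cases hWt : W = ⊤
      · rw [if_pos hWt, if_neg]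
        intro hc
        rw [hWt] at hc
        exact hKtop (top_le_iff.1 hc)
      · rw [if_neg hWt, if_pos (hle W hW hWt)]
    · rw [on_neg _ hW]; simp
  rw [J_rec, hfin, tr_add θ g K hgK, add_sub_cancel_left]
  show trP θ gQ.charpoly = _
  rw [hcharQ]

/-- dichotomy for cyclic endomorphisms -/
theorem J_cases (θ : MulChar L ℂ) {g : V →ₗ[F] V} {v : V} (hc : cyc g v = ⊤)
    (hV : 0 < finrank F V) : J (tr θ) V g = 0 ∨ ∃ (f : F[X]) (m : ℕ), Irreducible f ∧ f.Monic ∧
      m ≠ 0 ∧ g.charpoly = f ^ m ∧ J (tr θ) V g = trP θ f := by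
  have hmon := LinearMap.charpoly_monic g
  have hdeg := natDegree_charpoly g
  have hnu : ¬ IsUnit g.charpoly := by
    intro hu
    have := natDegree_eq_zero_of_isUnit hu
    omega
  obtain ⟨f, hfm, hf, hfd⟩ := exists_monic_irreducible_factor g.charpoly hnu
  have hfin : FiniteMultiplicity f g.charpoly :=
    FiniteMultiplicity.of_not_isUnit hf.not_isUnit hmon.ne_zero
  obtain ⟨c, hc1, hc2⟩ := hfin.exists_eq_pow_mul_and_not_dvd
  set m := multiplicity f g.charpoly with hm
  have hm0 : m ≠ 0 := by
    intro h0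
    rw [h0, pow_zero, one_mul] at hc1
    rw [← hc1] at hc2
    exact hc2 hfd
  have hcm : c.Monic := by
    rw [hc1] at hmon
    exact (hfm.pow m).of_mul_monic_left hmon
  by_cases hcd : c.natDegree = 0
  · right
    have hc3 : c = 1 := hcm.natDegree_eq_zero.1 hcd
    rw [hc3, mul_one] at hc1
    exact ⟨f, m, hf, hfm, hm0, hc1, J_primary θ hc hf hfm hm0 hc1⟩
  · left
    refine J_eq_zero_of_coprime (isoInv_tr θ) (isAdd_tr θ) hc ?_ hc1 ?_ (Nat.pos_of_ne_zero hcd)
    · exact IsCoprime.pow_left (hf.coprime_iff_not_dvd.2 hc2)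
    · rw [natDegree_pow]
      exact Nat.mul_pos (Nat.pos_of_ne_zero hm0) hf.natDegree_pos

end prim

end H45.JCyc
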