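import Mathlib
import Cfsg.Agent.Lib.H45.JCyc

/-!
Counting pairs (endomorphism, cyclic vector) with given characteristic polynomial (helper45).
-/

set_option autoImplicit false
set_option linter.unusedSectionVars false

namespace H45.JCount

open H45.InvRec H45.TrFn H45.Cusp H45.JNorm H45.JCyc Module Polynomial

universe u

variable {F : Type u} [Field F] {V : Type u} [AddCommGroup V] [Module F V] [Finite V]

/-- evaluation at a vector -/
noncomputable def ev (g : V →ₗ[F] V) (v : V) : F[X] →ₗ[F] V where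
  toFun p := aeval g p v
  map_add' p q := by simp
  map_smul' a p := by simp

theorem ev_apply (g : V →ₗ[F] V) (v : V) (p : F[X]) : ev g v p = aeval g p v := rfl

theorem ev_surjective {g : V →ₗ[F] V} {v : V} (hc : cyc g v = ⊤) : Function.Surjective (ev g v) := by
  intro w
  obtain ⟨p, rfl⟩ := exists_aeval hc w
  exact ⟨p, rfl⟩

theorem mem_ker_ev {g : V →ₗ[F] V} {v : V} (hc : cyc g v = ⊤) (p : F[X]) :
    p ∈ LinearMap.ker (ev g v) ↔ g.charpoly ∣ p := by
  rw [LinearMap.mem_ker, ev_apply, ← minpoly_eq_charpoly hc]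
  constructor
  · intro h
    apply minpoly.dvd
    ext w
    obtain ⟨r, rfl⟩ := exists_aeval hc w
    rw [← Module.End.mul_apply, ← map_mul, mul_comm, map_mul, Module.End.mul_apply, h, map_zero]
    rfl
  · rintro ⟨r, rfl⟩
    rw [map_mul, minpoly.aeval, zero_mul]
    rfl

/-- cyclic pairs with the same characteristic polynomial are conjugate -/
theorem exists_conj {g g' : V →ₗ[F] V} {v v' : V} (hc : cyc g v = ⊤) (hc' : cyc g' v' = ⊤)
    (h : g.charpoly = g'.charpoly) :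
    ∃ x : V ≃ₗ[F] V, (∀ w, x (g w) = g' (x w)) ∧ x v = v' := by
  have hk : LinearMap.ker (ev g v) = LinearMap.ker (ev g' v') := by
    ext p
    rw [mem_ker_ev hc, mem_ker_ev hc', h]
  let e := (ev g v).quotKerEquivOfSurjective (ev_surjective hc)
  let e' := (ev g' v').quotKerEquivOfSurjective (ev_surjective hc')
  let x : V ≃ₗ[F] V := e.symm.trans ((Submodule.quotEquivOfEq _ _ hk).trans e')
  have hx : ∀ p : F[X], x (aeval g p v) = aeval g' p v' := by
    intro p
    have h1 : e.symm (aeval g p v) = Submodule.Quotient.mk p := by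
      rw [LinearEquiv.symm_apply_eq]
      rfl
    show e' (Submodule.quotEquivOfEq _ _ hk (e.symm (aeval g p v))) = _
    rw [h1, Submodule.quotEquivOfEq_mk]
    rfl
  refine ⟨x, fun w => ?_, ?_⟩
  · obtain ⟨p, rfl⟩ := exists_aeval hc w
    rw [← aeval_X_mul_apply, hx, hx, aeval_X_mul_apply]
  · have := hx 1
    simpa using this

/-- uniqueness of the conjugating element -/
theorem conj_unique {g g' : V →ₗ[F] V} {v v' : V} (hc : cyc g v = ⊤) {x y : V →ₗ[F] V}
    (hx : ∀ w, x (g w) = g' (x w)) (hy : ∀ w, y (g w) = g' (y w)) (hxv : x v = v')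
    (hyv : y v = v') : x = y := by
  have key : ∀ (z : V →ₗ[F] V), (∀ w, z (g w) = g' (z w)) → z v = v' →
      ∀ p : F[X], z (aeval g p v) = aeval g' p v' := by
    intro z hz hzv p
    induction p using Polynomial.induction_on with
    | C a => simp [Module.algebraMap_end_apply, hzv]
    | add p q hp hq =>
      rw [map_add, map_add, LinearMap.add_apply, LinearMap.add_apply, map_add, hp, hq]
    | monomial n a h =>
      rw [pow_succ, ← mul_assoc, mul_comm (C a * X ^ n) X, aeval_X_mul_apply, aeval_X_mul_apply,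
        hz, h]
  ext w
  obtain ⟨p, rfl⟩ := exists_aeval hc w
  rw [key x hx hxv, key y hy hyv]

/-- existence of cyclic pairs -/
theorem exists_cyclic {h : F[X]} (hm : h.Monic) (hd : h.natDegree = finrank F V)
    (h0 : h.coeff 0 ≠ 0) : ∃ (g : (V →ₗ[F] V)ˣ) (v : V),
      cyc (g : V →ₗ[F] V) v = ⊤ ∧ (g : V →ₗ[F] V).charpoly = h := by
  let pb := AdjoinRoot.powerBasis' hm
  have : Module.Finite F (AdjoinRoot h) := pb.finite
  have hfr : finrank F V = finrank F (AdjoinRoot h) := by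
    rw [pb.finrank, AdjoinRoot.powerBasis'_dim, hd]
  let e : V ≃ₗ[F] AdjoinRoot h := LinearEquiv.ofFinrankEq _ _ hfr
  let g₀ : V →ₗ[F] V := e.symm.toLinearMap ∘ₗ
    (LinearMap.mulLeft F (AdjoinRoot.root h)) ∘ₗ e.toLinearMap
  let v₀ : V := e.symm 1
  have hg₀ : ∀ w, e (g₀ w) = AdjoinRoot.root h * e w := by
    intro w
    show e (e.symm (AdjoinRoot.root h * e w)) = _
    rw [LinearEquiv.apply_symm_apply]
  have hp : ∀ (p : F[X]) (w : V), e (aeval g₀ p w) = AdjoinRoot.mk h p * e w := by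
    intro p w
    induction p using Polynomial.induction_on with
    | C a =>
      rw [aeval_C, Module.algebraMap_end_apply, map_smul, AdjoinRoot.mk_C, Algebra.smul_def]
      rfl
    | add p q hp hq =>
      rw [map_add, LinearMap.add_apply, map_add, hp, hq, map_add, add_mul]
    | monomial n a h' =>
      rw [pow_succ, ← mul_assoc, mul_comm (C a * X ^ n) X, aeval_X_mul_apply, hg₀, h',
        map_mul (AdjoinRoot.mk h) X (C a * X ^ n), AdjoinRoot.mk_X, mul_assoc]
  have hcyc : cyc g₀ v₀ = ⊤ := by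
    rw [eq_top_iff]
    intro w _
    rw [mem_cyc_iff]
    obtain ⟨p, hpw⟩ := AdjoinRoot.mk_surjective (e w)
    refine ⟨p, e.injective ?_⟩
    rw [hp]
    show e w = AdjoinRoot.mk h p * e (e.symm 1)
    rw [LinearEquiv.apply_symm_apply, mul_one, hpw]
  have hzero : aeval g₀ h = 0 := by
    ext w
    apply e.injective
    rw [hp, AdjoinRoot.mk_self, zero_mul, LinearMap.zero_apply, map_zero]
  have hchar : g₀.charpoly = h := by
    have h1 : g₀.charpoly ∣ h := by
      rw [← minpoly_eq_charpoly hcyc]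
      exact minpoly.dvd F g₀ hzero
    refine (eq_of_monic_of_dvd_of_natDegree_le (LinearMap.charpoly_monic g₀) hm h1 ?_).symm
    rw [hd, natDegree_charpoly]
  have hunit : IsUnit g₀ := by
    rw [LinearMap.isUnit_iff_isUnit_det, LinearMap.det_eq_sign_charpoly_coeff, hchar]
    exact ((isUnit_one.neg).pow _).mul (isUnit_iff_ne_zero.2 h0)
  exact ⟨hunit.unit, v₀, hcyc, hchar⟩

theorem cyc_conj {g g' : V →ₗ[F] V} {v v' : V} (hc : cyc g v = ⊤) (x : V ≃ₗ[F] V)
    (hx : ∀ w, x (g w) = g' (x w)) (hxv : x v = v') : cyc g' v' = ⊤ := by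
  have key : ∀ p : F[X], x (aeval g p v) = aeval g' p v' := by
    intro p
    induction p using Polynomial.induction_on with
    | C a => simp [Module.algebraMap_end_apply, hxv]
    | add p q hp hq =>
      rw [map_add, map_add, LinearMap.add_apply, LinearMap.add_apply, map_add, hp, hq]
    | monomial n a h =>
      rw [pow_succ, ← mul_assoc, mul_comm (C a * X ^ n) X, aeval_X_mul_apply, aeval_X_mul_apply,
        hx, h]
  rw [eq_top_iff]
  intro w _
  rw [mem_cyc_iff]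
  obtain ⟨p, hp⟩ := exists_aeval hc (x.symm w)
  refine ⟨p, ?_⟩
  rw [← key, ← hp, LinearEquiv.apply_symm_apply]

/-- the number of cyclic pairs -/
theorem card_cyclic {h : F[X]} (hm : h.Monic) (hd : h.natDegree = finrank F V)
    (h0 : h.coeff 0 ≠ 0) :
    Nat.card {y : (V →ₗ[F] V)ˣ × V // cyc (y.1 : V →ₗ[F] V) y.2 = ⊤ ∧
      (y.1 : V →ₗ[F] V).charpoly = h} = Nat.card (V →ₗ[F] V)ˣ := by
  obtain ⟨g₀, v₀, hc₀, hch₀⟩ := exists_cyclic (V := V) hm hd h0
  have hun : ∀ x : (V →ₗ[F] V)ˣ, ∀ w, ((x⁻¹ : (V →ₗ[F] V)ˣ) : V →ₗ[F] V) ((x : V →ₗ[F] V) w) = w := by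
    intro x w
    rw [← Module.End.mul_apply, Units.inv_mul]; rfl
  have hun' : ∀ x : (V →ₗ[F] V)ˣ, ∀ w, (x : V →ₗ[F] V) (((x⁻¹ : (V →ₗ[F] V)ˣ) : V →ₗ[F] V) w) = w := by
    intro x w
    rw [← Module.End.mul_apply, Units.mul_inv]; rfl
  let eq : (V →ₗ[F] V)ˣ → (V ≃ₗ[F] V) := fun x =>
    LinearEquiv.ofLinearMap (x : V →ₗ[F] V) ((x⁻¹ : (V →ₗ[F] V)ˣ) : V →ₗ[F] V)
      (LinearMap.ext (hun' x)) (LinearMap.ext (hun x))
  have hcj : ∀ (x : (V →ₗ[F] V)ˣ) (w : V), (x : V →ₗ[F] V) ((g₀ : V →ₗ[F] V) w) =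
      ((x * g₀ * x⁻¹ : (V →ₗ[F] V)ˣ) : V →ₗ[F] V) ((x : V →ₗ[F] V) w) := by
    intro x w
    rw [Units.val_mul, Units.val_mul, Module.End.mul_apply, Module.End.mul_apply, hun]
  let Φ : (V →ₗ[F] V)ˣ → {y : (V →ₗ[F] V)ˣ × V // cyc (y.1 : V →ₗ[F] V) y.2 = ⊤ ∧
      (y.1 : V →ₗ[F] V).charpoly = h} := fun x => ⟨⟨x * g₀ * x⁻¹, (x : V →ₗ[F] V) v₀⟩, by
    constructor
    · exact cyc_conj hc₀ (eq x) (hcj x) rfl
    · rw [← hch₀]
      have h1 : ((x * g₀ * x⁻¹ : (V →ₗ[F] V)ˣ) : V →ₗ[F] V) = (eq x).conj (g₀ : V →ₗ[F] V) := by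
        ext w
        rw [LinearEquiv.conj_apply_apply]
        show _ = (x : V →ₗ[F] V) ((g₀ : V →ₗ[F] V) (((x⁻¹ : (V →ₗ[F] V)ˣ) : V →ₗ[F] V) w))
        rw [hcj, hun']
      show ((x * g₀ * x⁻¹ : (V →ₗ[F] V)ˣ) : V →ₗ[F] V).charpoly = _
      rw [h1, LinearEquiv.charpoly_conj]⟩
  symm
  refine Nat.card_congr (Equiv.ofBijective Φ ⟨?_, ?_⟩)
  · intro x y hxy
    have h1 : x * g₀ * x⁻¹ = y * g₀ * y⁻¹ := congrArg (fun z => z.1.1) hxy
    have h2 : (x : V →ₗ[F] V) v₀ = (y : V →ₗ[F] V) v₀ := congrArg (fun z => z.1.2) hxy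
    apply Units.ext
    refine conj_unique hc₀ (g' := ((x * g₀ * x⁻¹ : (V →ₗ[F] V)ˣ) : V →ₗ[F] V)) (hcj x) ?_ rfl h2.symm
    rw [h1]; exact hcj y
  · rintro ⟨⟨g, v⟩, hc, hch⟩
    obtain ⟨x, hx, hxv⟩ := exists_conj hc₀ hc (hch₀.trans hch.symm)
    let X : (V →ₗ[F] V)ˣ := ⟨x.toLinearMap, x.symm.toLinearMap, by
      ext w; exact x.apply_symm_apply w, by ext w; exact x.symm_apply_apply w⟩
    refine ⟨X, Subtype.ext (Prod.ext ?_ hxv)⟩
    show X * g₀ * X⁻¹ = g
    rw [mul_inv_eq_iff_eq_mul]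
    apply Units.ext
    ext w
    exact hx w

end H45.JCount
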