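import Mathlib
import Cfsg.Agent.Lib.H45.TrFn

/-!
Conjugates over a finite field (helper45).
-/

set_option autoImplicit false
set_option linter.unusedSectionVars false

namespace H45.JField

open H45.TrFn Module Polynomial

universe u

variable {F : Type u} [Field F] [Fintype F] {L : Type} [Field L] [Finite L] [Algebra F L]

theorem isInt (γ : L) : IsIntegral F γ := by
  have : Module.Finite F L := Module.Finite.of_finite
  exact IsIntegral.of_finite F γ

theorem pow_eq_iff (γ : L) (i : ℕ) :
    γ ^ (Fintype.card F ^ i) = γ ↔ (minpoly F γ).natDegree ∣ i := by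
  rw [(minpoly.irreducible (isInt γ)).natDegree_dvd_iff_dvd_X_pow_card_pow_sub_X, minpoly.dvd_iff,
    Nat.card_eq_fintype_card]
  simp [sub_eq_zero]

theorem pow_card_injective (i : ℕ) : Function.Injective (fun γ : L => γ ^ (Fintype.card F ^ i)) := by
  obtain ⟨p, hp⟩ := CharP.exists F
  have hpp : Fact p.Prime := ⟨CharP.char_is_prime F p⟩
  have hpL : CharP L p := charP_of_injective_algebraMap (algebraMap F L).injective p
  obtain ⟨f, -, hf⟩ := FiniteField.card F p
  intro a b hab
  simp only [hf, ← pow_mul] at hab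
  exact iterateFrobenius_inj L p _ (by simpa [iterateFrobenius_def] using hab)

theorem pow_eq_pow_iff (γ : L) {i j : ℕ} (hij : i ≤ j) :
    γ ^ (Fintype.card F ^ i) = γ ^ (Fintype.card F ^ j) ↔ (minpoly F γ).natDegree ∣ j - i := by
  have h1 : γ ^ (Fintype.card F ^ j) = (γ ^ (Fintype.card F ^ (j - i))) ^ (Fintype.card F ^ i) := by
    rw [← pow_mul, ← pow_add]
    congr 2
    omega
  rw [h1, ← pow_eq_iff]
  constructor
  · intro h
    exact (pow_card_injective (F := F) i h).symm
  · intro h
    rw [h]

theorem aeval_pow_card (γ : L) (f : F[X]) (h : aeval γ f = 0) (i : ℕ) :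
    aeval (γ ^ (Fintype.card F ^ i)) f = 0 := by
  induction i with
  | zero => simpa using h
  | succ i ih =>
    rw [pow_succ, pow_mul, ← expand_aeval, FiniteField.expand_card, map_pow, ih, zero_pow]
    exact Fintype.card_ne_zero

/-- the conjugates of an element -/
theorem aroots_minpoly (γ : L) : (minpoly F γ).aroots L =
    (Multiset.range (minpoly F γ).natDegree).map (fun i => γ ^ (Fintype.card F ^ i)) := by
  set d := (minpoly F γ).natDegree with hd
  have hne : minpoly F γ ≠ 0 := minpoly.ne_zero (isInt γ)
  symm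
  have hnd : ((Multiset.range d).map (fun i => γ ^ (Fintype.card F ^ i))).Nodup := by
    refine Multiset.Nodup.map_on ?_ (Multiset.nodup_range d)
    have key : ∀ i j, i ≤ j → j < d → γ ^ (Fintype.card F ^ i) = γ ^ (Fintype.card F ^ j) → i = j := by
      intro i j hij hj h
      rw [pow_eq_pow_iff γ hij] at h
      have h2 := Nat.eq_zero_of_dvd_of_lt h (by omega)
      omega
    intro i hi j hj h
    rw [Multiset.mem_range] at hi hj
    rcases le_total i j with hij | hij
    · exact key i j hij hj h
    · exact (key j i hij hi h.symm).symm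
  refine Multiset.eq_of_le_of_card_le ?_ ?_
  · rw [Multiset.le_iff_subset hnd]
    intro x hx
    obtain ⟨i, hi, rfl⟩ := Multiset.mem_map.1 hx
    rw [mem_aroots]
    exact ⟨hne, aeval_pow_card γ _ (minpoly.aeval F γ) i⟩
  · rw [Multiset.card_map, Multiset.card_range, hd]
    exact (card_roots' _).trans (by rw [natDegree_map])

theorem sum_range_mul_periodic (f : ℕ → ℂ) (d m : ℕ) (hper : ∀ i, f (i + d) = f i) :
    ∑ i ∈ Finset.range (m * d), f i = m * ∑ i ∈ Finset.range d, f i := by
  have hper' : ∀ k i, f (k * d + i) = f i := by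
    intro k
    induction k with
    | zero => intro i; simp
    | succ k ih =>
      intro i
      have : (k + 1) * d + i = (k * d + i) + d := by ring
      rw [this, hper, ih]
  induction m with
  | zero => simp
  | succ m ih =>
    rw [Nat.succ_mul, Finset.sum_range_add, ih]
    simp only [hper']
    push_cast
    ring

/-- sum over the conjugates -/
noncomputable def tau (F : Type u) [Field F] [Fintype F] (θ : MulChar L ℂ) (n : ℕ) (γ : L) : ℂ :=
  ∑ i ∈ Finset.range n, θ (γ ^ (Fintype.card F ^ i))

theorem trP_minpoly (θ : MulChar L ℂ) (γ : L) :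
    trP θ (minpoly F γ) = tau F θ (minpoly F γ).natDegree γ := by
  unfold trP tau
  rw [aroots_minpoly, Multiset.map_map]
  rfl

theorem tau_mul (θ : MulChar L ℂ) (γ : L) (m : ℕ) :
    tau F θ (m * (minpoly F γ).natDegree) γ = m * trP θ (minpoly F γ) := by
  rw [trP_minpoly]
  unfold tau
  refine sum_range_mul_periodic (fun i => θ (γ ^ (Fintype.card F ^ i))) _ m ?_
  intro i
  show θ (γ ^ (Fintype.card F ^ (i + (minpoly F γ).natDegree))) = θ (γ ^ (Fintype.card F ^ i))
  congr 1
  symm
  rw [pow_eq_pow_iff γ (by omega)]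
  simp

/-- the number of elements with given minimal polynomial -/
theorem card_minpoly_eq [Fintype L] {f : F[X]} (hf : Irreducible f) (hfm : f.Monic)
    (hsplit : (f.map (algebraMap F L)).Splits) :
    Nat.card {γ : L // minpoly F γ = f} = f.natDegree := by
  classical
  have hd : (f.map (algebraMap F L)).degree ≠ 0 := by
    rw [degree_map]
    exact hf.degree_pos.ne'
  obtain ⟨γ₀, hγ₀⟩ := hsplit.exists_eval_eq_zero hd
  have h1 : aeval γ₀ f = 0 := by
    rw [eval_map_algebraMap] at hγ₀
    exact hγ₀
  have hfγ : f = minpoly F γ₀ := minpoly.eq_of_irreducible_of_monic hf h1 hfm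
  have h2 : ∀ γ : L, minpoly F γ = f ↔ γ ∈ (f.aroots L).toFinset := by
    intro γ
    rw [Multiset.mem_toFinset, mem_aroots]
    constructor
    · rintro rfl
      exact ⟨hf.ne_zero, minpoly.aeval F γ⟩
    · rintro ⟨-, h⟩
      exact (minpoly.eq_of_irreducible_of_monic hf h hfm).symm
  rw [Nat.card_congr (Equiv.subtypeEquivRight h2), Nat.card_eq_fintype_card, Fintype.card_coe,
    Multiset.toFinset_card_of_nodup]
  · rw [hfγ, aroots_minpoly, Multiset.card_map, Multiset.card_range]
  · rw [hfγ]
    have hsep : (minpoly F γ₀).Separable := by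
      rw [← hfγ]
      exact PerfectField.separable_of_irreducible hf
    exact nodup_aroots_iff_of_splits (hfγ ▸ hf.ne_zero) (hfγ ▸ hsplit) |>.mpr hsep

end H45.JField
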