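import Mathlib
import Cfsg.Agent.Lib.H45.JCount
import Cfsg.Agent.Lib.H45.JField

/-!
The inner products of the inverse transforms (helper45).
-/

set_option autoImplicit false
set_option linter.unusedSectionVars false

namespace H45.JSum

open H45.InvRec H45.TrFn H45.Cusp H45.JNorm H45.JCyc H45.JCount H45.JField Module Polynomial
open scoped ComplexConjugate

universe u

variable {F : Type u} [Field F] [Fintype F] {V : Type u} [AddCommGroup V] [Module F V] [Finite V]
  {L : Type} [Field L] [Fintype L] [Algebra F L]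

theorem coeff_zero_charpoly_ne (g : (V →ₗ[F] V)ˣ) : (g : V →ₗ[F] V).charpoly.coeff 0 ≠ 0 := by
  intro h
  have h1 : IsUnit (LinearMap.det (g : V →ₗ[F] V)) := by
    rw [← LinearMap.isUnit_iff_isUnit_det]; exact g.isUnit
  rw [LinearMap.det_eq_sign_charpoly_coeff, h, mul_zero] at h1
  exact not_isUnit_zero h1

open Classical in
/-- the elements of degree dividing `n` -/
noncomputable def K (F : Type u) [Field F] (L : Type) [Field L] [Fintype L] [Algebra F L] (n : ℕ) :
    Finset L :=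
  Finset.univ.filter (fun γ : L => γ ≠ 0 ∧ (minpoly F γ).natDegree ∣ n)

/-- the polynomial attached to an element -/
noncomputable def hp (F : Type u) [Field F] {L : Type} [Field L] [Algebra F L] (n : ℕ) (γ : L) :
    F[X] := (minpoly F γ) ^ (n / (minpoly F γ).natDegree)

theorem hp_monic (n : ℕ) (γ : L) : (hp F n γ).Monic := (minpoly.monic (isInt γ)).pow _

theorem minpoly_pos (γ : L) : 0 < (minpoly F γ).natDegree := minpoly.natDegree_pos (isInt γ)

theorem hp_natDegree {n : ℕ} {γ : L} (h : (minpoly F γ).natDegree ∣ n) :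
    (hp F n γ).natDegree = n := by
  unfold hp
  rw [natDegree_pow, Nat.div_mul_cancel h]

theorem hp_coeff {n : ℕ} {γ : L} (hγ : γ ≠ 0) : (hp F n γ).coeff 0 ≠ 0 := by
  unfold hp
  rw [coeff_zero_eq_eval_zero, eval_pow, ← coeff_zero_eq_eval_zero]
  exact pow_ne_zero _ (minpoly.coeff_zero_ne_zero (isInt γ) hγ)

open Classical in
theorem sum_K {f : F[X]} {m n : ℕ} (hf : Irreducible f) (hfm : f.Monic) (hm : m ≠ 0)
    (hn : f.natDegree * m = n) (hf0 : f.coeff 0 ≠ 0)
    (hsplit : (f.map (algebraMap F L)).Splits) :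
    ∑ γ ∈ K F L n, ((minpoly F γ).natDegree : ℂ)⁻¹ * (if f ^ m = hp F n γ then 1 else 0) = 1 := by
  have h1 : ∀ γ ∈ K F L n, f ^ m = hp F n γ → minpoly F γ = f := by
    intro γ _ h
    have h2 : f ∣ (minpoly F γ) ^ (n / (minpoly F γ).natDegree) := by
      have h3 : f ∣ f ^ m := dvd_pow_self f hm
      rw [h] at h3
      exact h3
    have h3 : f ∣ minpoly F γ := hf.prime.dvd_of_dvd_pow h2
    have h4 := (hf.dvd_irreducible_iff_associated (minpoly.irreducible (isInt γ))).1 h3
    exact (eq_of_monic_of_associated hfm (minpoly.monic (isInt γ)) h4).symm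
  have hpos : 0 < f.natDegree := hf.natDegree_pos
  have h2 : ∀ γ : L, minpoly F γ = f → γ ∈ K F L n ∧ f ^ m = hp F n γ := by
    intro γ h
    refine ⟨?_, ?_⟩
    · unfold K
      rw [Finset.mem_filter]
      refine ⟨Finset.mem_univ _, ?_, ?_⟩
      · rintro rfl
        rw [minpoly.zero] at h
        rw [← h] at hf0
        simp at hf0
      · rw [h]; exact ⟨m, hn.symm⟩
    · unfold hp
      rw [h, ← hn, Nat.mul_div_cancel_left m hpos]
  have h3 : ∑ γ ∈ K F L n, ((minpoly F γ).natDegree : ℂ)⁻¹ * (if f ^ m = hp F n γ then 1 else 0) =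
      ∑ γ ∈ Finset.univ.filter (fun γ : L => minpoly F γ = f), (f.natDegree : ℂ)⁻¹ := by
    rw [← Finset.sum_filter_add_sum_filter_not (K F L n) (fun γ => minpoly F γ = f)]
    rw [Finset.sum_eq_zero (s := (K F L n).filter (fun γ => ¬ minpoly F γ = f)), add_zero]
    · refine Finset.sum_congr ?_ ?_
      · ext γ
        simp only [Finset.mem_filter, Finset.mem_univ, true_and]
        exact ⟨fun h => h.2, fun h => ⟨(h2 γ h).1, h⟩⟩
      · intro γ hγ
        simp only [Finset.mem_filter, Finset.mem_univ, true_and] at hγ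
        rw [if_pos (h2 γ hγ).2, mul_one, hγ]
    · intro γ hγ
      simp only [Finset.mem_filter] at hγ
      rw [if_neg (fun hc => hγ.2 (h1 γ hγ.1 hc)), mul_zero]
  rw [h3, Finset.sum_const, ← Fintype.card_subtype, ← Nat.card_eq_fintype_card,
    card_minpoly_eq hf hfm hsplit, nsmul_eq_mul]
  have : (f.natDegree : ℂ) ≠ 0 := by exact_mod_cast hpos.ne'
  field_simp

open Classical in
theorem pairing (θ θ' : MulChar L ℂ) (hV : 0 < finrank F V)
    (hsplit : ∀ f : F[X], f.Monic → f.natDegree ≤ finrank F V →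
      (f.map (algebraMap F L)).Splits) :
    ((Fintype.card F : ℂ) ^ finrank F V - 1) *
      ∑ g : (V →ₗ[F] V)ˣ, J (tr θ) V (g : V →ₗ[F] V) * conj (tr θ' V (g : V →ₗ[F] V)) =
    (Fintype.card (V →ₗ[F] V)ˣ : ℂ) * ((finrank F V : ℂ)⁻¹ *
      ∑ γ ∈ K F L (finrank F V), tau F θ (finrank F V) γ * conj (tau F θ' (finrank F V) γ)) := by
  set n := finrank F V with hn
  have : Fintype V := Fintype.ofFinite V
  have hnt : Nontrivial V := Module.nontrivial_of_finrank_pos (R := F) hV
  -- the sum over vectors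
  have h1 : ((Fintype.card F : ℂ) ^ n - 1) *
      ∑ g : (V →ₗ[F] V)ˣ, J (tr θ) V (g : V →ₗ[F] V) * conj (tr θ' V (g : V →ₗ[F] V)) =
      ∑ v : V, ∑ g : (V →ₗ[F] V)ˣ, (if cyc (g : V →ₗ[F] V) v = ⊤ then
        J (tr θ) V (g : V →ₗ[F] V) * conj (tr θ' V (g : V →ₗ[F] V)) else 0) := by
    have h2 : ∀ v : V, ∑ g : (V →ₗ[F] V)ˣ, (if cyc (g : V →ₗ[F] V) v = ⊤ then
        J (tr θ) V (g : V →ₗ[F] V) * conj (tr θ' V (g : V →ₗ[F] V)) else 0) =
        if v = 0 then 0 else ∑ g : (V →ₗ[F] V)ˣ, J (tr θ) V (g : V →ₗ[F] V) * conj (tr θ' V (g : V →ₗ[F] V)) := by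
      intro v
      split_ifs with hv
      · refine Finset.sum_eq_zero fun g _ => ?_
        rw [if_neg]
        intro hc
        have h3 : cyc (g : V →ₗ[F] V) v ≤ ⊥ := cyc_le bot_le (by rw [hv]; simp)
        rw [hc] at h3
        exact bot_ne_top (top_le_iff.1 h3)
      · exact (sum_cyclic (isoInv_tr θ) (isAdd_tr θ) (isAdd_tr θ') hv).symm
    rw [Finset.sum_congr rfl fun v _ => h2 v]
    generalize (∑ g : (V →ₗ[F] V)ˣ, J (tr θ) V (g : V →ₗ[F] V) *
      conj (tr θ' V (g : V →ₗ[F] V))) = T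
    rw [Finset.sum_ite, Finset.sum_const_zero, zero_add, Finset.sum_const, nsmul_eq_mul]
    congr 1
    have h3 : (Finset.univ.filter (fun v : V => ¬ v = 0)).card = Fintype.card V - 1 := by
      have h4 : (Finset.univ.filter (fun v : V => ¬ v = 0)) = Finset.univ.erase (0 : V) := by
        ext v; simp
      rw [h4, Finset.card_erase_of_mem (Finset.mem_univ _), Finset.card_univ]
    have h4 : Fintype.card V = Fintype.card F ^ n := by
      rw [hn]; exact Module.card_eq_pow_finrank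
    rw [h3, h4, Nat.cast_sub (Nat.one_le_pow _ _ Fintype.card_pos)]
    push_cast
    rfl
  rw [h1, Finset.sum_comm, ← Fintype.sum_prod_type']
  -- insert the sum over K
  have h2 : ∀ y : (V →ₗ[F] V)ˣ × V, (if cyc (y.1 : V →ₗ[F] V) y.2 = ⊤ then
      J (tr θ) V (y.1 : V →ₗ[F] V) * conj (tr θ' V (y.1 : V →ₗ[F] V)) else 0) =
      ∑ γ ∈ K F L n, ((minpoly F γ).natDegree : ℂ)⁻¹ *
        (if cyc (y.1 : V →ₗ[F] V) y.2 = ⊤ ∧ (y.1 : V →ₗ[F] V).charpoly = hp F n γ then
          J (tr θ) V (y.1 : V →ₗ[F] V) * conj (tr θ' V (y.1 : V →ₗ[F] V)) else 0) := by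
    rintro ⟨g, v⟩
    by_cases hc : cyc (g : V →ₗ[F] V) v = ⊤
    · simp only [hc, true_and, if_true]
      rcases J_cases θ hc hV with h0 | ⟨f, m, hf, hfm, hm, hch, -⟩
      · simp [h0]
      · have hnm : f.natDegree * m = n := by
          rw [hn, ← natDegree_charpoly (g : V →ₗ[F] V), hch, natDegree_pow, mul_comm]
        have hf0 : f.coeff 0 ≠ 0 := by
          intro hf0
          apply coeff_zero_charpoly_ne g
          rw [hch, coeff_zero_eq_eval_zero, eval_pow, ← coeff_zero_eq_eval_zero, hf0, zero_pow hm]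
        have hle : f.natDegree ≤ n := by
          rw [← hnm]
          exact Nat.le_mul_of_pos_right _ (Nat.pos_of_ne_zero hm)
        have h3 := sum_K (L := L) hf hfm hm hnm hf0 (hsplit f hfm hle)
        rw [hch]
        have h4 : ∀ γ : L, ((minpoly F γ).natDegree : ℂ)⁻¹ *
            (if f ^ m = hp F n γ then J (tr θ) V (g : V →ₗ[F] V) *
              conj (tr θ' V (g : V →ₗ[F] V)) else 0) =
            (((minpoly F γ).natDegree : ℂ)⁻¹ * (if f ^ m = hp F n γ then 1 else 0)) *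
              (J (tr θ) V (g : V →ₗ[F] V) * conj (tr θ' V (g : V →ₗ[F] V))) := by
          intro γ
          split_ifs <;> ring
        rw [Finset.sum_congr rfl fun γ _ => h4 γ, ← Finset.sum_mul, h3, one_mul]
    · simp [hc]
  rw [Finset.sum_congr rfl fun y _ => h2 y, Finset.sum_comm]
  have h3 : ∀ γ ∈ K F L n, ∑ y : (V →ₗ[F] V)ˣ × V, ((minpoly F γ).natDegree : ℂ)⁻¹ *
        (if cyc (y.1 : V →ₗ[F] V) y.2 = ⊤ ∧ (y.1 : V →ₗ[F] V).charpoly = hp F n γ then
          J (tr θ) V (y.1 : V →ₗ[F] V) * conj (tr θ' V (y.1 : V →ₗ[F] V)) else 0) =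
      (Fintype.card (V →ₗ[F] V)ˣ : ℂ) * ((n : ℂ)⁻¹ * (tau F θ n γ * conj (tau F θ' n γ))) := by
    intro γ hγ
    unfold K at hγ
    rw [Finset.mem_filter] at hγ
    obtain ⟨-, hγ0, hdvd⟩ := hγ
    obtain ⟨m, hm⟩ := hdvd
    have hd := minpoly_pos (F := F) γ
    have hm0 : m ≠ 0 := by
      rintro rfl
      rw [mul_zero] at hm
      omega
    have hdiv : n / (minpoly F γ).natDegree = m := by
      rw [hm]; exact Nat.mul_div_cancel_left m hd
    have hirr := minpoly.irreducible (isInt (F := F) γ)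
    have hmon := minpoly.monic (isInt (F := F) γ)
    have h4 : ∀ y : (V →ₗ[F] V)ˣ × V, ((minpoly F γ).natDegree : ℂ)⁻¹ *
        (if cyc (y.1 : V →ₗ[F] V) y.2 = ⊤ ∧ (y.1 : V →ₗ[F] V).charpoly = hp F n γ then
          J (tr θ) V (y.1 : V →ₗ[F] V) * conj (tr θ' V (y.1 : V →ₗ[F] V)) else 0) =
        (if cyc (y.1 : V →ₗ[F] V) y.2 = ⊤ ∧ (y.1 : V →ₗ[F] V).charpoly = hp F n γ then
          (n : ℂ)⁻¹ * (tau F θ n γ * conj (tau F θ' n γ)) else 0) := by
      intro y
      split_ifs with hy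
      · obtain ⟨hy1, hy2⟩ := hy
        have hy2' := hy2
        unfold hp at hy2'
        rw [hdiv] at hy2'
        rw [J_primary θ hy1 hirr hmon hm0 hy2', tr_eq, hy2', trP_pow θ' hmon.ne_zero]
        have h5 : tau F θ n γ = m * trP θ (minpoly F γ) := by
          rw [hm, mul_comm]; exact tau_mul θ γ m
        have h6 : tau F θ' n γ = m * trP θ' (minpoly F γ) := by
          rw [hm, mul_comm]; exact tau_mul θ' γ m
        rw [h5, h6, hm]
        have hd' : ((minpoly F γ).natDegree : ℂ) ≠ 0 := by exact_mod_cast hd.ne'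
        have hm' : (m : ℂ) ≠ 0 := by exact_mod_cast hm0
        push_cast
        rw [map_mul, Complex.conj_natCast]
        field_simp
      · rw [mul_zero]
    rw [Finset.sum_congr rfl fun y _ => h4 y, ← Finset.sum_filter, Finset.sum_const, nsmul_eq_mul]
    congr 1
    have hcard := card_cyclic (V := V) (hp_monic (F := F) n γ)
      (hp_natDegree (F := F) (n := n) (γ := γ) ⟨m, hm⟩) (hp_coeff (n := n) hγ0)
    rw [← Fintype.card_subtype, ← Nat.card_eq_fintype_card, hcard, Nat.card_eq_fintype_card]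
  rw [Finset.sum_congr rfl h3, ← Finset.mul_sum, ← Finset.mul_sum]

end H45.JSum
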