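import Mathlib
import Cfsg.Agent.Lib.H45.JSum
import Cfsg.Agent.Lib.H45.JDeg
import Cfsg.Agent.Lib.H45.BrauerLift

/-!
Cuspidal characters of `GL_n` over a finite field (helper45).
-/

set_option autoImplicit false
set_option linter.unusedSectionVars false

namespace H45.CuspCount

open Cfsg H18.CharBasic H18.CharOrtho
open H45.InvRec H45.TrFn H45.Cusp H45.JNorm H45.JCyc H45.JCount H45.JField H45.JSum Module Polynomial
open scoped ComplexConjugate

universe u

section field

variable (F : Type u) [Field F] [Fintype F]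

theorem splits_all {L : Type} [Field L] [Algebra F L] (n : ℕ)
    (hs : ((X ^ Nat.card F ^ n.factorial - X : F[X]).map (algebraMap F L)).Splits) (N : ℕ) :
    ∀ f : F[X], f.Monic → f.natDegree ≤ N → f.natDegree ≤ n →
        (f.map (algebraMap F L)).Splits := by
  have hne : ((X ^ Nat.card F ^ n.factorial - X : F[X]).map (algebraMap F L)) ≠ 0 := by
    rw [Ne, Polynomial.map_eq_zero]
    exact FiniteField.X_pow_card_pow_sub_X_ne_zero _ n.factorial_ne_zero Finite.one_lt_card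
  induction N with
  | zero =>
    intro f hf hN _
    have : f = 1 := hf.natDegree_eq_zero.1 (by omega)
    rw [this, Polynomial.map_one]
    exact Splits.one
  | succ N ih =>
    intro f hf hN hn'
    by_cases h0 : f.natDegree = 0
    · have : f = 1 := hf.natDegree_eq_zero.1 h0
      rw [this, Polynomial.map_one]
      exact Splits.one
    have hnu : ¬ IsUnit f := fun hu => h0 (natDegree_eq_zero_of_isUnit hu)
    obtain ⟨g, hgm, hg, c, rfl⟩ := exists_monic_irreducible_factor f hnu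
    have hcm : c.Monic := hgm.of_mul_monic_left hf
    have hdeg := hgm.natDegree_mul hcm
    have hgpos := hg.natDegree_pos
    rw [Polynomial.map_mul]
    refine Splits.mul ?_ (ih c hcm (by omega) (by omega))
    have hgn : g.natDegree ∣ n.factorial := Nat.dvd_factorial hgpos (by omega)
    rw [hg.natDegree_dvd_iff_dvd_X_pow_card_pow_sub_X] at hgn
    exact Splits.of_dvd hs hne (Polynomial.map_dvd _ hgn)

theorem exists_field (n : ℕ) (hn : 0 < n) :
    ∃ (L : Type) (_ : Field L) (_ : Fintype L) (_ : Algebra F L),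
      (∀ f : F[X], f.Monic → f.natDegree ≤ n → (f.map (algebraMap F L)).Splits) ∧
      Fintype.card F ^ n - 1 ∣ Fintype.card L - 1 := by
  obtain ⟨p, hp⟩ := CharP.exists F
  have hpp : Fact p.Prime := ⟨CharP.char_is_prime F p⟩
  have hne : NeZero n.factorial := ⟨n.factorial_ne_zero⟩
  have : Fintype (FiniteField.Extension F p n.factorial) := Fintype.ofFinite _
  have hcard : Fintype.card (FiniteField.Extension F p n.factorial) =
      Fintype.card F ^ n.factorial := by
    rw [← Nat.card_eq_fintype_card, ← Nat.card_eq_fintype_card]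
    exact FiniteField.natCard_extension F p n.factorial
  have hs : ((X ^ Nat.card F ^ n.factorial - X : F[X]).map
      (algebraMap F (FiniteField.Extension F p n.factorial))).Splits :=
    IsSplittingField.splits (FiniteField.Extension F p n.factorial) _
  refine ⟨FiniteField.Extension F p n.factorial, inferInstance, inferInstance, inferInstance,
    fun f hf hd => splits_all F n hs n f hf hd hd, ?_⟩
  rw [hcard]
  obtain ⟨c, hc⟩ := Nat.dvd_factorial hn le_rfl
  rw [hc, pow_mul]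
  exact Nat.sub_one_dvd_pow_sub_one _ _

end field

section chars

variable {L : Type} [Field L] [Fintype L]

theorem exists_char {N : ℕ} (hN : N ∣ Fintype.card L - 1) :
    ∃ (γ₀ : L) (θ₀ : MulChar L ℂ), IsPrimitiveRoot γ₀ N ∧ IsPrimitiveRoot (θ₀ γ₀) N := by
  classical
  set M := Fintype.card L - 1 with hM
  have hMcard : Nat.card Lˣ = M := by rw [Nat.card_eq_fintype_card, Fintype.card_units]
  have hMpos : 0 < M := by rw [← hMcard]; exact Nat.card_pos
  have : NeZero M := ⟨hMpos.ne'⟩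
  let e : Lˣ ≃* rootsOfUnity M ℂ := mulEquivOfCyclicCardEq (by
    rw [hMcard, Complex.card_rootsOfUnity])
  let φ : Lˣ →* ℂˣ := (rootsOfUnity M ℂ).subtype.comp e.toMonoidHom
  have hφ : Function.Injective φ := (Subgroup.subtype_injective _).comp e.injective
  obtain ⟨u, hu⟩ := IsCyclic.exists_ofOrder_eq_natCard (α := Lˣ)
  obtain ⟨c, hc⟩ := hN
  have h1 : IsPrimitiveRoot u M := by
    rw [← hMcard, ← hu]; exact IsPrimitiveRoot.orderOf u
  have h2 : IsPrimitiveRoot (u ^ c) N := IsPrimitiveRoot.pow hMpos h1 (by rw [hc, mul_comm])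
  refine ⟨((u ^ c : Lˣ) : L), MulChar.ofUnitHom φ, ?_, ?_⟩
  · exact IsPrimitiveRoot.coe_units_iff.2 h2
  · rw [MulChar.ofUnitHom_coe]
    exact IsPrimitiveRoot.coe_units_iff.2 (h2.map_of_injective hφ)

theorem sum_pow_mul_conj {N : ℕ} (hN0 : 0 < N) {ω : ℂ} (hω : IsPrimitiveRoot ω N) (a b : ℕ) :
    ∑ j ∈ Finset.range N, (ω ^ j) ^ a * conj ((ω ^ j) ^ b) = if a ≡ b [MOD N] then (N : ℂ) else 0 := by
  have hnorm : ‖ω‖ = 1 := hω.norm'_eq_one hN0.ne'
  have hconj : conj ω = ω⁻¹ := by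
    rw [Complex.inv_def, Complex.normSq_eq_norm_sq, hnorm]; simp
  have hω0 : ω ≠ 0 := by
    intro h; rw [h, norm_zero] at hnorm; exact zero_ne_one hnorm
  have h1 : ∀ j, (ω ^ j) ^ a * conj ((ω ^ j) ^ b) = (ω ^ a * (ω ^ b)⁻¹) ^ j := by
    intro j
    rw [map_pow, map_pow, hconj, mul_pow, inv_pow, inv_pow, inv_pow, ← pow_mul, ← pow_mul,
      ← pow_mul, ← pow_mul, mul_comm j a, mul_comm j b]
  rw [Finset.sum_congr rfl fun j _ => h1 j]
  have horder : orderOf ω = N := hω.eq_orderOf.symm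
  split_ifs with h
  · have h2 : ω ^ a = ω ^ b := by
      rw [← pow_mod_orderOf ω a, ← pow_mod_orderOf ω b, horder, h]
    rw [h2, mul_inv_cancel₀ (pow_ne_zero _ hω0)]
    simp
  · set z := ω ^ a * (ω ^ b)⁻¹ with hz
    have hz1 : z ≠ 1 := by
      intro hc
      apply h
      have h2 : ω ^ a = ω ^ b := by
        rw [hz, mul_inv_eq_one₀ (pow_ne_zero _ hω0)] at hc
        exact hc
      have h3 : (Units.mk0 ω hω0) ^ a = (Units.mk0 ω hω0) ^ b := by
        ext; simpa using h2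
      rw [pow_eq_pow_iff_modEq] at h3
      have h4 : orderOf (Units.mk0 ω hω0) = N := by
        rw [← horder, ← orderOf_units]; rfl
      rwa [h4] at h3
    have hzN : z ^ N = 1 := by
      rw [hz, mul_pow, inv_pow, ← pow_mul, ← pow_mul, mul_comm a, mul_comm b, pow_mul, pow_mul,
        hω.pow_eq_one, one_pow, one_pow, inv_one, mul_one]
    have h2 := mul_geom_sum z N
    rw [hzN, sub_self] at h2
    rcases mul_eq_zero.1 h2 with h3 | h3
    · exact absurd (sub_eq_zero.1 h3) hz1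
    · exact h3

end chars

section pair

variable {F : Type u} [Field F] [Fintype F] {L : Type} [Field L] [Fintype L] [Algebra F L]

theorem mem_K_iff {n : ℕ} (hn : 0 < n) (γ : L) :
    γ ∈ K F L n ↔ γ ^ (Fintype.card F ^ n - 1) = 1 := by
  unfold K
  have hq : 1 < Fintype.card F := Fintype.one_lt_card
  have hqn : 1 < Fintype.card F ^ n := Nat.one_lt_pow hn.ne' hq
  have h2 : Fintype.card F ^ n = (Fintype.card F ^ n - 1) + 1 := by omega
  simp only [Finset.mem_filter, Finset.mem_univ, true_and]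
  rw [← pow_eq_iff]
  constructor
  · rintro ⟨h0, h1⟩
    rw [h2, pow_succ] at h1
    exact mul_right_cancel₀ h0 (h1.trans (one_mul γ).symm)
  · intro h
    refine ⟨?_, ?_⟩
    · rintro rfl
      rw [zero_pow (by omega)] at h
      exact zero_ne_one h
    · rw [h2, pow_succ, h, one_mul]

open Classical in
theorem sum_K_tau {n : ℕ} (hn : 0 < n) {γ₀ : L} {θ₀ : MulChar L ℂ}
    (hγ : IsPrimitiveRoot γ₀ (Fintype.card F ^ n - 1))
    (hθ : IsPrimitiveRoot (θ₀ γ₀) (Fintype.card F ^ n - 1)) (k k' : ℕ) :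
    ∑ γ ∈ K F L n, tau F (θ₀ ^ k) n γ * conj (tau F (θ₀ ^ k') n γ) =
      ((Fintype.card F ^ n - 1 : ℕ) : ℂ) *
      (((Finset.range n ×ˢ Finset.range n).filter (fun x : ℕ × ℕ =>
        k * Fintype.card F ^ x.1 ≡ k' * Fintype.card F ^ x.2 [MOD Fintype.card F ^ n - 1])).card : ℂ) := by
  set q := Fintype.card F with hq
  set N := q ^ n - 1 with hN
  have hq1 : 1 < q := Fintype.one_lt_card
  have hqn : 1 < q ^ n := Nat.one_lt_pow hn.ne' hq1
  have hN0 : 0 < N := by omega
  have : NeZero N := ⟨hN0.ne'⟩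
  set ω := θ₀ γ₀ with hω
  have hKimg : K F L n = (Finset.range N).image (fun j => γ₀ ^ j) := by
    ext γ
    rw [mem_K_iff hn, Finset.mem_image, ← hq, ← hN]
    constructor
    · intro h
      obtain ⟨i, hi, h2⟩ := hγ.eq_pow_of_pow_eq_one h
      exact ⟨i, Finset.mem_range.2 hi, h2⟩
    · rintro ⟨i, -, rfl⟩
      rw [← pow_mul, mul_comm, pow_mul, hγ.pow_eq_one, one_pow]
  have hinj : Set.InjOn (fun j => γ₀ ^ j) (Finset.range N : Set ℕ) := by
    intro i hi j hj hij
    exact hγ.pow_inj (Finset.mem_range.1 hi) (Finset.mem_range.1 hj) hij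
  rw [hKimg, Finset.sum_image hinj]
  have hval : ∀ (m : ℕ) (i j : ℕ), (θ₀ ^ m) ((γ₀ ^ j) ^ (q ^ i)) = (ω ^ j) ^ (m * q ^ i) := by
    intro m i j
    have h1 : (θ₀ ^ m) ((γ₀ ^ j) ^ (q ^ i)) = (θ₀ ((γ₀ ^ j) ^ (q ^ i))) ^ m := by
      have h2 : γ₀ ≠ 0 := hγ.ne_zero hN0.ne'
      have h3 : ((γ₀ ^ j) ^ (q ^ i)) = ((Units.mk0 _ (pow_ne_zero (q ^ i) (pow_ne_zero j h2)) : Lˣ) : L) := rfl
      rw [h3, MulChar.pow_apply_coe]
    rw [h1, map_pow, map_pow, ← hω, ← pow_mul, mul_comm (q ^ i) m]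
  have h1 : ∀ j, tau F (θ₀ ^ k) n (γ₀ ^ j) * conj (tau F (θ₀ ^ k') n (γ₀ ^ j)) =
      ∑ x ∈ Finset.range n ×ˢ Finset.range n,
        (ω ^ j) ^ (k * q ^ x.1) * conj ((ω ^ j) ^ (k' * q ^ x.2)) := by
    intro j
    unfold tau
    rw [map_sum, Finset.sum_mul_sum, Finset.sum_product]
    refine Finset.sum_congr rfl fun a _ => Finset.sum_congr rfl fun b _ => ?_
    rw [← hq, hval, hval]
  rw [Finset.sum_congr rfl fun j _ => h1 j, Finset.sum_comm]
  rw [Finset.sum_congr rfl fun x _ => sum_pow_mul_conj hN0 hθ (k * q ^ x.1) (k' * q ^ x.2)]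
  rw [← Finset.sum_filter, Finset.sum_const, nsmul_eq_mul, mul_comm]

end pair

section final

variable {F : Type u} [Field F] [Fintype F] [DecidableEq F] {L : Type} [Field L] [Fintype L]
  [Algebra F L] {n : ℕ}

/-- the natural representation -/
noncomputable def toEnd (F : Type u) [Field F] (n : ℕ) :
    GL (Fin n) F →* ((Fin n → F) →ₗ[F] (Fin n → F)) :=
  (Units.coeHom _).comp (Matrix.GeneralLinearGroup.toLin (n := Fin n) (R := F)).toMonoidHom

theorem toEnd_apply (x : GL (Fin n) F) (v : Fin n → F) :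
    toEnd F n x v = (x : Matrix (Fin n) (Fin n) F).mulVec v := rfl

/-- the cuspidal character attached to `θ` -/
noncomputable def chi (θ : MulChar L ℂ) (n : ℕ) : GL (Fin n) F → ℂ :=
  fun x => (-1 : ℂ) ^ (n - 1) * J (tr θ) (Fin n → F) (toEnd F n x)

theorem sum_GL {inst : Fintype (GL (Fin n) F)} (Φ : ((Fin n → F) →ₗ[F] (Fin n → F)) → ℂ) :
    ∑ x : GL (Fin n) F, Φ (toEnd F n x) = ∑ g : ((Fin n → F) →ₗ[F] (Fin n → F))ˣ, Φ g :=
  Fintype.sum_equiv (Matrix.GeneralLinearGroup.toLin (n := Fin n) (R := F)).toEquiv _ _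
    fun _ => rfl

theorem finrank_eq : finrank F (Fin n → F) = n := Module.finrank_fin_fun F

open Classical in
theorem inner_chi (hn : 0 < n)
    (hsplit : ∀ f : F[X], f.Monic → f.natDegree ≤ n → (f.map (algebraMap F L)).Splits)
    {γ₀ : L} {θ₀ : MulChar L ℂ} (hγ : IsPrimitiveRoot γ₀ (Fintype.card F ^ n - 1))
    (hθ : IsPrimitiveRoot (θ₀ γ₀) (Fintype.card F ^ n - 1)) (k k' : ℕ) :
    classInner (chi (F := F) (θ₀ ^ k) n) (chi (θ₀ ^ k') n) =
      (n : ℂ)⁻¹ * (((Finset.range n ×ˢ Finset.range n).filter (fun x : ℕ × ℕ =>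
        k * Fintype.card F ^ x.1 ≡ k' * Fintype.card F ^ x.2 [MOD Fintype.card F ^ n - 1])).card : ℂ) := by
  have h1 := pairing (V := Fin n → F) (θ₀ ^ k) (θ₀ ^ k') (by rw [finrank_eq]; exact hn)
    (by rw [finrank_eq]; exact hsplit)
  rw [finrank_eq, sum_K_tau hn hγ hθ] at h1
  have hqn : 1 < Fintype.card F ^ n := Nat.one_lt_pow hn.ne' Fintype.one_lt_card
  have hN : ((Fintype.card F ^ n - 1 : ℕ) : ℂ) = (Fintype.card F : ℂ) ^ n - 1 := by
    rw [Nat.cast_sub hqn.le]; push_cast; rfl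
  have hN0 : (Fintype.card F : ℂ) ^ n - 1 ≠ 0 := by
    rw [← hN]
    have : Fintype.card F ^ n - 1 ≠ 0 := by omega
    exact_mod_cast this
  rw [hN] at h1
  set T : ℂ := (((Finset.range n ×ˢ Finset.range n).filter (fun x : ℕ × ℕ =>
        k * Fintype.card F ^ x.1 ≡ k' * Fintype.card F ^ x.2 [MOD Fintype.card F ^ n - 1])).card : ℂ)
    with hT
  have h2 : ∑ g : ((Fin n → F) →ₗ[F] (Fin n → F))ˣ,
      J (tr (θ₀ ^ k)) (Fin n → F) (g : (Fin n → F) →ₗ[F] (Fin n → F)) *
      conj (tr (θ₀ ^ k') (Fin n → F) (g : (Fin n → F) →ₗ[F] (Fin n → F))) =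
      (Fintype.card ((Fin n → F) →ₗ[F] (Fin n → F))ˣ : ℂ) * ((n : ℂ)⁻¹ * T) := by
    apply mul_left_cancel₀ hN0
    rw [h1]
    ring
  unfold classInner
  have h3 : ∀ x : GL (Fin n) F, chi (F := F) (θ₀ ^ k) n x * conj (chi (θ₀ ^ k') n x) =
      (fun g : (Fin n → F) →ₗ[F] (Fin n → F) => J (tr (θ₀ ^ k)) (Fin n → F) g *
        conj (J (tr (θ₀ ^ k')) (Fin n → F) g)) (toEnd F n x) := by
    intro x
    unfold chi
    rw [map_mul, map_pow, map_neg, map_one]
    have h4 : (-1 : ℂ) ^ (n - 1) * (-1 : ℂ) ^ (n - 1) = 1 := by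
      rw [← mul_pow]; norm_num
    linear_combination (J (tr (θ₀ ^ k)) (Fin n → F) (toEnd F n x) *
      conj (J (tr (θ₀ ^ k')) (Fin n → F) (toEnd F n x))) * h4
  have h7 := sum_GL (F := F) (n := n) (inst := inferInstance)
    (fun g : (Fin n → F) →ₗ[F] (Fin n → F) => J (tr (θ₀ ^ k)) (Fin n → F) g *
        conj (J (tr (θ₀ ^ k')) (Fin n → F) g))
  rw [(Finset.sum_congr rfl fun x _ => h3 x).trans h7, sum_J_J (isoInv_tr _) (isAdd_tr _)
    (isoInv_tr _) (isAdd_tr _), h2]
  have h5 : (Nat.card (GL (Fin n) F) : ℂ) = (Fintype.card ((Fin n → F) →ₗ[F] (Fin n → F))ˣ : ℂ) := by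
    rw [← Nat.card_eq_fintype_card, Nat.card_congr
      (Matrix.GeneralLinearGroup.toLin (n := Fin n) (R := F)).toEquiv]
  rw [h5]
  have h6 : (Fintype.card ((Fin n → F) →ₗ[F] (Fin n → F))ˣ : ℂ) ≠ 0 := by
    exact_mod_cast Fintype.card_ne_zero
  field_simp

theorem isGen_chi (θ : MulChar L ℂ)
    (hsplit : ∀ f : F[X], f.Monic → f.natDegree ≤ n → (f.map (algebraMap F L)).Splits) :
    IsGeneralizedCharacter (GL (Fin n) F) (chi θ n) := by
  have h1 := genLE_J (isoInv_tr θ) (H45.BrauerLift.genLE_tr θ n hsplit) (GL (Fin n) F) (Fin n → F)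
    (toEnd F n) (by rw [finrank_eq])
  rcases neg_one_pow_eq_or ℂ (n - 1) with h2 | h2
  · have : chi (F := F) θ n = fun x => J (tr θ) (Fin n → F) (toEnd F n x) := by
      ext x
      unfold chi
      rw [h2, one_mul]
    rw [this]; exact h1
  · have : chi (F := F) θ n = -(fun x => J (tr θ) (Fin n → F) (toEnd F n x)) := by
      ext x
      unfold chi
      rw [h2]
      simp
    rw [this]; exact isGen_neg h1

theorem chi_one (θ : MulChar L ℂ) (hn : 0 < n) :
    chi (F := F) θ n 1 = ∏ i ∈ Finset.Ico 1 n, ((Fintype.card F : ℂ) ^ i - 1) := by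
  unfold chi
  rw [map_one, H45.JDeg.J_one (fun V _ _ _ => tr_one θ) n (Fin n → F) (by rw [finrank_eq]),
    finrank_eq]
  unfold H45.JDeg.adeg
  rw [if_neg hn.ne']
  have h1 : (-1 : ℂ) ^ (n - 1) = ∏ i ∈ Finset.Ico 1 n, (-1 : ℂ) := by
    rw [Finset.prod_const, Nat.card_Ico]
  rw [h1, ← Finset.prod_mul_distrib]
  exact Finset.prod_congr rfl fun i _ => by ring

theorem chi_one_pos (θ : MulChar L ℂ) (hn : 0 < n) : 0 < (chi (F := F) θ n 1).re := by
  rw [chi_one θ hn]
  have h1 : (∏ i ∈ Finset.Ico 1 n, ((Fintype.card F : ℂ) ^ i - 1)) =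
      ((∏ i ∈ Finset.Ico 1 n, ((Fintype.card F : ℝ) ^ i - 1) : ℝ) : ℂ) := by
    push_cast; rfl
  rw [h1, Complex.ofReal_re]
  refine Finset.prod_pos fun i hi => ?_
  rw [Finset.mem_Ico] at hi
  have hq : (1 : ℝ) < Fintype.card F := by exact_mod_cast Fintype.one_lt_card
  have := one_lt_pow₀ hq (by omega : i ≠ 0)
  linarith

/-- the space of vectors supported in the first `m` coordinates -/
def Sm (F : Type u) [Field F] (n m : ℕ) : Submodule F (Fin n → F) where
  carrier := {v | ∀ i : Fin n, m ≤ i.val → v i = 0}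
  add_mem' := by
    intro a b ha hb i hi
    rw [Pi.add_apply, ha i hi, hb i hi, add_zero]
  zero_mem' := fun _ _ => rfl
  smul_mem' := by
    intro c a ha i hi
    rw [Pi.smul_apply, ha i hi, smul_zero]

theorem mem_B_iff (x : GL (Fin n) F) (m : ℕ) :
    (∀ i j : Fin n, ¬ (i.val < m ∧ m ≤ j.val) → (x : Matrix (Fin n) (Fin n) F) i j =
      (1 : Matrix (Fin n) (Fin n) F) i j) ↔ toEnd F n x - 1 ∈ B (Sm F n m) := by
  have hval : ∀ v, (toEnd F n x - 1) v = ((x : Matrix (Fin n) (Fin n) F) - 1).mulVec v := by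
    intro v
    rw [Matrix.sub_mulVec, Matrix.one_mulVec]
    rfl
  set A : Matrix (Fin n) (Fin n) F := (x : Matrix (Fin n) (Fin n) F) - 1 with hA
  have h0 : (∀ i j : Fin n, ¬ (i.val < m ∧ m ≤ j.val) → (x : Matrix (Fin n) (Fin n) F) i j =
      (1 : Matrix (Fin n) (Fin n) F) i j) ↔ ∀ i j : Fin n, ¬ (i.val < m ∧ m ≤ j.val) → A i j = 0 := by
    refine forall_congr' fun i => forall_congr' fun j => imp_congr_right fun _ => ?_
    rw [hA, Matrix.sub_apply, sub_eq_zero]
  rw [h0, mem_B]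
  constructor
  · intro h
    constructor
    · intro v i hi
      rw [hval, Matrix.mulVec, dotProduct]
      refine Finset.sum_eq_zero fun j _ => ?_
      rw [h i j (by omega), zero_mul]
    · intro s hs
      rw [hval]
      ext i
      rw [Matrix.mulVec, dotProduct]
      refine Finset.sum_eq_zero fun j _ => ?_
      by_cases hj : m ≤ j.val
      · rw [hs j hj, mul_zero]
      · rw [h i j (by omega), zero_mul]
  · rintro ⟨h1, h2⟩ i j hij
    have h3 : A.mulVec (Pi.single j 1) i = A i j := by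
      rw [Matrix.mulVec_single_one]; rfl
    rw [← h3, ← hval]
    by_cases hj : m ≤ j.val
    · exact h1 _ i (by omega)
    · rw [h2 (Pi.single j 1)]
      · rfl
      · intro i' hi'
        rw [Pi.single_eq_of_ne]
        rintro rfl
        exact hj hi'

open Classical in
theorem cuspidal_chi (θ : MulChar L ℂ) {m : ℕ} (hm : 0 < m) (hmn : m < n) :
    (∑ g : GL (Fin n) F,
            if (∀ i j : Fin n, ¬ (i.val < m ∧ m ≤ j.val) → (g : Matrix (Fin n) (Fin n) F) i j = (1 : Matrix (Fin n) (Fin n) F) i j)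
            then chi (F := F) θ n g else 0) = 0 := by
  have h1 : ∀ g : GL (Fin n) F, (if (∀ i j : Fin n, ¬ (i.val < m ∧ m ≤ j.val) → (g : Matrix (Fin n) (Fin n) F) i j = (1 : Matrix (Fin n) (Fin n) F) i j)
            then chi (F := F) θ n g else 0) = (fun h : (Fin n → F) →ₗ[F] (Fin n → F) =>
              if h - 1 ∈ B (Sm F n m) then (-1 : ℂ) ^ (n - 1) * J (tr θ) (Fin n → F) h else 0)
              (toEnd F n g) := by
    intro g
    by_cases h : (∀ i j : Fin n, ¬ (i.val < m ∧ m ≤ j.val) → (g : Matrix (Fin n) (Fin n) F) i j = (1 : Matrix (Fin n) (Fin n) F) i j)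
    · rw [if_pos h]
      simp only [if_pos ((mem_B_iff g m).1 h)]
      rfl
    · rw [if_neg h]
      simp only [if_neg (fun hc => h ((mem_B_iff g m).2 hc))]
  have h7 := sum_GL (F := F) (n := n) (inst := inferInstance)
    (fun h : (Fin n → F) →ₗ[F] (Fin n → F) =>
              if h - 1 ∈ B (Sm F n m) then (-1 : ℂ) ^ (n - 1) * J (tr θ) (Fin n → F) h else 0)
  rw [(Finset.sum_congr rfl fun g _ => h1 g).trans h7]
  have hS0 : Sm F n m ≠ ⊥ := by
    intro h
    have h2 : (Pi.single (⟨0, by omega⟩ : Fin n) (1 : F) : Fin n → F) ∈ Sm F n m := by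
      intro i hi
      rw [Pi.single_eq_of_ne]
      rintro rfl
      exact absurd hi (by simp; omega)
    rw [h, Submodule.mem_bot] at h2
    have := congrFun h2 (⟨0, by omega⟩ : Fin n)
    simp at this
  have hS1 : Sm F n m ≠ ⊤ := by
    intro h
    have h2 : (Pi.single (⟨m, hmn⟩ : Fin n) (1 : F) : Fin n → F) ∈ Sm F n m := by rw [h]; trivial
    have := h2 (⟨m, hmn⟩ : Fin n) le_rfl
    simp at this
  have h2 := sum_B_eq_zero (isoInv_tr θ) (isAdd_tr θ) n (Fin n → F) (by rw [finrank_eq])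
    (Sm F n m) hS0 hS1 1 (fun x hx => hx)
  have h3 : ∑ g : ((Fin n → F) →ₗ[F] (Fin n → F))ˣ,
      (if (g : (Fin n → F) →ₗ[F] (Fin n → F)) - 1 ∈ B (Sm F n m) then
        (-1 : ℂ) ^ (n - 1) * J (tr θ) (Fin n → F) (g : (Fin n → F) →ₗ[F] (Fin n → F)) else 0) =
      ∑ b : B (Sm F n m), (-1 : ℂ) ^ (n - 1) *
        J (tr θ) (Fin n → F) (1 + (b : (Fin n → F) →ₗ[F] (Fin n → F))) := by
    symm
    refine Finset.sum_of_injOn (fun b => uni b) ?_ ?_ ?_ ?_
    · intro a _ b _ hab
      have h4 : (1 : (Fin n → F) →ₗ[F] (Fin n → F)) + a = 1 + b := congrArg Units.val hab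
      exact Subtype.ext (add_left_cancel h4)
    · intro b _
      exact Finset.mem_coe.2 (Finset.mem_univ _)
    · intro g _ hg
      rw [if_neg]
      intro hc
      apply hg
      refine ⟨⟨_, hc⟩, Finset.mem_coe.2 (Finset.mem_univ _), Units.ext ?_⟩
      show 1 + ((g : (Fin n → F) →ₗ[F] (Fin n → F)) - 1) = g
      abel
    · intro b _
      have h4 : ((uni b : ((Fin n → F) →ₗ[F] (Fin n → F))ˣ) : (Fin n → F) →ₗ[F] (Fin n → F)) =
        1 + (b : (Fin n → F) →ₗ[F] (Fin n → F)) := rfl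
      rw [h4, if_pos]
      rw [add_sub_cancel_left]
      exact b.2
  rw [h3, ← Finset.mul_sum, h2, mul_zero]

open Classical in
/-- the number of solutions for the norm -/
theorem card_norm {q n k : ℕ} (hq : 1 < q) (hn : 2 ≤ n) (hk : k.Coprime (q ^ n - 1)) :
    ((Finset.range n ×ˢ Finset.range n).filter (fun x : ℕ × ℕ =>
        k * q ^ x.1 ≡ k * q ^ x.2 [MOD q ^ n - 1])).card = n := by
  have h1 : ((Finset.range n ×ˢ Finset.range n).filter (fun x : ℕ × ℕ =>
        k * q ^ x.1 ≡ k * q ^ x.2 [MOD q ^ n - 1])) =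
      (Finset.range n).image (fun i => (i, i)) := by
    ext ⟨i, j⟩
    simp only [Finset.mem_filter, Finset.mem_product, Finset.mem_range, Finset.mem_image,
      Prod.mk.injEq]
    constructor
    · rintro ⟨⟨hi, hj⟩, h⟩
      have h2 : q ^ i ≡ q ^ j [MOD q ^ n - 1] := Nat.ModEq.cancel_left_of_coprime hk.symm h
      have hlt : ∀ l, l < n → q ^ l < q ^ n - 1 := by
        intro l hl
        have h3 : q ^ l ≤ q ^ (n - 1) := Nat.pow_le_pow_right (by omega) (by omega)
        have h4 : q ^ n = q * q ^ (n - 1) := by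
          rw [← pow_succ']; congr 1; omega
        have h5 : 2 ≤ q ^ (n - 1) := by
          calc 2 ≤ q := hq
            _ = q ^ 1 := (pow_one q).symm
            _ ≤ q ^ (n - 1) := Nat.pow_le_pow_right (by omega) (by omega)
        have h6 : 2 * q ^ (n - 1) ≤ q * q ^ (n - 1) := Nat.mul_le_mul_right _ hq
        omega
      have h3 : q ^ i = q ^ j := by
        have := h2
        unfold Nat.ModEq at this
        rwa [Nat.mod_eq_of_lt (hlt i hi), Nat.mod_eq_of_lt (hlt j hj)] at this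
      exact ⟨i, hi, rfl, Nat.pow_right_injective hq h3⟩
    · rintro ⟨l, hl, rfl, rfl⟩
      exact ⟨⟨hl, hl⟩, rfl⟩
  rw [h1, Finset.card_image_of_injective _ (fun a b h => (Prod.ext_iff.1 h).1), Finset.card_range]

theorem modEq_of {q n k k' i j : ℕ} (hq : 1 < q) (hi : i < n) (hj : j < n)
    (h : k * q ^ i ≡ k' * q ^ j [MOD q ^ n - 1]) (hk' : k' < q ^ n - 1) :
    ∃ l < n, k' = (k * q ^ l) % (q ^ n - 1) := by
  have hqn : 1 ≤ q ^ n := Nat.one_le_pow _ _ (by omega)
  have h1 : q ^ n ≡ 1 [MOD q ^ n - 1] := by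
    have h2 := (Nat.modEq_iff_dvd' hqn).2 (dvd_refl (q ^ n - 1))
    exact h2.symm
  have h2 : k' ≡ k * q ^ (i + (n - j)) [MOD q ^ n - 1] := by
    calc k' = k' * 1 := (mul_one _).symm
      _ ≡ k' * q ^ n [MOD q ^ n - 1] := (Nat.ModEq.mul_left k' h1).symm
      _ = k' * q ^ j * q ^ (n - j) := by
          rw [mul_assoc, ← pow_add]; congr 2; omega
      _ ≡ k * q ^ i * q ^ (n - j) [MOD q ^ n - 1] := (Nat.ModEq.mul_right _ h).symm
      _ = k * q ^ (i + (n - j)) := by rw [mul_assoc, ← pow_add]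
  have h3 : ∃ l < n, k * q ^ (i + (n - j)) ≡ k * q ^ l [MOD q ^ n - 1] := by
    by_cases hl : i + (n - j) < n
    · exact ⟨_, hl, rfl⟩
    · refine ⟨i + (n - j) - n, by omega, ?_⟩
      have h4 : q ^ (i + (n - j)) = q ^ (i + (n - j) - n) * q ^ n := by
        rw [← pow_add]; congr 1; omega
      rw [h4]
      have := Nat.ModEq.mul_left (k * q ^ (i + (n - j) - n)) h1
      rw [mul_one, mul_assoc] at this
      exact this
  obtain ⟨l, hl, h4⟩ := h3
  refine ⟨l, hl, ?_⟩
  have h5 := h2.trans h4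
  unfold Nat.ModEq at h5
  rwa [Nat.mod_eq_of_lt hk'] at h5

end final

end H45.CuspCount
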