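import Mathlib
import Cfsg.Prelude.Def_ParabolicCharacters

/-!
# Inner products of permutation characters and double cosets
-/

set_option autoImplicit false

namespace H45.DCount

open MulAction

/-- two maps with the same fibres have ranges of the same size -/
theorem card_range_eq {S T U : Type*} (f : S → T) (g : S → U) (h : ∀ s s', f s = f s' ↔ g s = g s') :
    Nat.card (Set.range f) = Nat.card (Set.range g) := by
  classical
  apply Nat.card_congr
  refine Equiv.ofBijective (fun x => ⟨g x.2.choose, ⟨_, rfl⟩⟩) ⟨?_, ?_⟩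
  · rintro ⟨x, hx⟩ ⟨y, hy⟩ hxy
    have h1 : g hx.choose = g hy.choose := congrArg Subtype.val hxy
    have h2 := (h _ _).2 h1
    apply Subtype.ext
    change x = y
    rw [← hx.choose_spec, ← hy.choose_spec, h2]
  · rintro ⟨_, ⟨s, rfl⟩⟩
    refine ⟨⟨f s, ⟨s, rfl⟩⟩, ?_⟩
    apply Subtype.ext
    change g _ = g s
    rw [← h]
    exact (⟨s, rfl⟩ : ∃ y, f y = f s).choose_spec

/-- The inner product of two permutation characters counts double cosets. -/
theorem inner_fixedPointCharacter {G : Type*} [Group G] [Fintype G] (H K : Subgroup G) {S T : Type*}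
    (i : S → G) (M : S → T)
    (hcover : ∀ g : G, ∃ s, ∃ h ∈ H, ∃ k ∈ K, g = h * i s * k)
    (hM : ∀ s s', M s = M s' ↔ ∃ h ∈ H, ∃ k ∈ K, i s' = h * i s * k) :
    (Nat.card G : ℂ)⁻¹ * ∑ g : G, Cfsg.fixedPointCharacter H g * Cfsg.fixedPointCharacter K g =
      Nat.card (Set.range M) := by
  classical
  let X := (G ⧸ H) × (G ⧸ K)
  have hfin : Finite (orbitRel.Quotient G X) := inferInstance
  have : Fintype (orbitRel.Quotient G X) := Fintype.ofFinite _
  have hfix : ∀ g : G, Fintype (fixedBy X g) := fun g => Fintype.ofFinite _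
  have hB := sum_card_fixedBy_eq_card_orbits_mul_card_group G X
  -- fixed points in the product
  have hprod : ∀ g : G, (Fintype.card (fixedBy X g) : ℂ) = Cfsg.fixedPointCharacter H g * Cfsg.fixedPointCharacter K g := by
    intro g
    unfold Cfsg.fixedPointCharacter
    rw [← Nat.cast_mul, ← Nat.card_prod, ← Nat.card_eq_fintype_card]
    congr 1
    apply Nat.card_congr
    exact
      { toFun := fun p => (⟨p.1.1, congrArg Prod.fst p.2⟩, ⟨p.1.2, congrArg Prod.snd p.2⟩)
        invFun := fun p => ⟨(p.1.1, p.2.1), Prod.ext p.1.2 p.2.2⟩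
        left_inv := fun p => rfl
        right_inv := fun p => rfl }
  -- the map to orbits
  let f : S → orbitRel.Quotient G X := fun s =>
    Quotient.mk (orbitRel G X) (((1 : G) : G ⧸ H), ((i s : G) : G ⧸ K))
  have hf : ∀ s s', f s = f s' ↔ M s = M s' := by
    intro s s'
    rw [hM]
    constructor
    · intro h
      have h1 : orbitRel G X (((1 : G) : G ⧸ H), ((i s : G) : G ⧸ K)) (((1 : G) : G ⧸ H), ((i s' : G) : G ⧸ K)) :=
        Quotient.exact h
      rw [orbitRel_apply, mem_orbit_iff] at h1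
      obtain ⟨g, hg⟩ := h1
      have e1 : g • ((1 : G) : G ⧸ H) = ((1 : G) : G ⧸ H) := congrArg Prod.fst hg
      have e2 : g • ((i s' : G) : G ⧸ K) = ((i s : G) : G ⧸ K) := congrArg Prod.snd hg
      rw [MulAction.Quotient.smul_coe, smul_eq_mul, mul_one, QuotientGroup.eq] at e1
      rw [MulAction.Quotient.smul_coe, smul_eq_mul, QuotientGroup.eq] at e2
      have hgH : g⁻¹ ∈ H := by simpa using e1
      refine ⟨g⁻¹, hgH, ((g * i s')⁻¹ * i s)⁻¹, K.inv_mem e2, ?_⟩
      group
    · rintro ⟨h, hh, k, hk, he⟩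
      apply Quotient.sound
      change orbitRel G X _ _
      rw [orbitRel_apply, mem_orbit_iff]
      refine ⟨h⁻¹, ?_⟩
      apply Prod.ext
      · change h⁻¹ • ((1 : G) : G ⧸ H) = ((1 : G) : G ⧸ H)
        rw [MulAction.Quotient.smul_coe, smul_eq_mul, mul_one, QuotientGroup.eq]
        simpa using hh
      · change h⁻¹ • ((i s' : G) : G ⧸ K) = ((i s : G) : G ⧸ K)
        rw [MulAction.Quotient.smul_coe, smul_eq_mul, QuotientGroup.eq, he]
        have : (h⁻¹ * (h * i s * k))⁻¹ * i s = k⁻¹ := by group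
        rw [this]; exact K.inv_mem hk
  have hsurj : Function.Surjective f := by
    intro q
    obtain ⟨⟨x, y⟩, rfl⟩ := Quotient.exists_rep q
    obtain ⟨x, rfl⟩ := QuotientGroup.mk_surjective x
    obtain ⟨y, rfl⟩ := QuotientGroup.mk_surjective y
    obtain ⟨s, h, hh, k, hk, he⟩ := hcover (x⁻¹ * y)
    refine ⟨s, ?_⟩
    apply Quotient.sound
    change orbitRel G X _ _
    rw [orbitRel_apply, mem_orbit_iff]
    refine ⟨h⁻¹ * x⁻¹, ?_⟩
    apply Prod.ext
    · change (h⁻¹ * x⁻¹) • ((x : G) : G ⧸ H) = ((1 : G) : G ⧸ H)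
      rw [MulAction.Quotient.smul_coe, smul_eq_mul, QuotientGroup.eq]
      simpa using hh
    · change (h⁻¹ * x⁻¹) • ((y : G) : G ⧸ K) = ((i s : G) : G ⧸ K)
      rw [MulAction.Quotient.smul_coe, smul_eq_mul, QuotientGroup.eq, mul_assoc, he]
      have : (h⁻¹ * (h * i s * k))⁻¹ * i s = k⁻¹ := by group
      rw [this]; exact K.inv_mem hk
  have hcardO : Fintype.card (orbitRel.Quotient G X) = Nat.card (Set.range M) := by
    rw [← card_range_eq f M hf, Set.range_eq_univ.2 hsurj, Nat.card_univ, Nat.card_eq_fintype_card]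
  have hG : (Nat.card G : ℂ) ≠ 0 := by exact_mod_cast Nat.card_pos.ne'
  have hsum : ∑ g : G, Cfsg.fixedPointCharacter H g * Cfsg.fixedPointCharacter K g =
      (Nat.card (Set.range M) : ℂ) * Nat.card G := by
    rw [← hcardO, Nat.card_eq_fintype_card, ← Nat.cast_mul, ← hB, Nat.cast_sum]
    exact Finset.sum_congr rfl (fun g _ => (hprod g).symm)
  rw [hsum]
  field_simp

end H45.DCount
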