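import Mathlib
import Cfsg.Prelude.Def_LinearParabolics

/-!
# Block labels of compositions, and permutations with prescribed contingency tables
-/

set_option autoImplicit false

namespace H45.Labels

open Finset

/-- partial sums -/
def psum {n : ℕ} (μ : Fin n → ℕ) (m : ℕ) : ℕ := ∑ k ∈ univ.filter (fun k : Fin n => k.val < m), μ k

theorem psum_mono {n : ℕ} (μ : Fin n → ℕ) {a b : ℕ} (h : a ≤ b) : psum μ a ≤ psum μ b := by
  unfold psum
  apply Finset.sum_le_sum_of_subset
  intro k hk
  rw [mem_filter] at hk ⊢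
  exact ⟨hk.1, by omega⟩

theorem psum_zero {n : ℕ} (μ : Fin n → ℕ) : psum μ 0 = 0 := by
  unfold psum
  apply Finset.sum_eq_zero
  intro k hk
  rw [mem_filter] at hk
  omega

theorem psum_succ {n : ℕ} (μ : Fin n → ℕ) (b : Fin n) : psum μ (b.val + 1) = psum μ b.val + μ b := by
  unfold psum
  have : univ.filter (fun k : Fin n => k.val < b.val + 1) = insert b (univ.filter (fun k : Fin n => k.val < b.val)) := by
    ext k
    simp only [mem_filter, mem_univ, true_and, mem_insert, Fin.ext_iff]
    omega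
  rw [this, sum_insert, add_comm]
  simp

theorem psum_full {n : ℕ} (μ : Fin n → ℕ) : psum μ n = ∑ i, μ i := by
  unfold psum
  congr 1
  ext k; simp

theorem compLabel_eq {n : ℕ} (μ : Fin n → ℕ) (i : Fin n) :
    Cfsg.compLabel μ i = (univ.filter fun j : Fin n => psum μ (j.val + 1) ≤ i.val).card := by
  unfold Cfsg.compLabel
  congr 1
  ext j
  rw [mem_filter, mem_filter]
  have : ∑ k ∈ univ.filter (fun k : Fin n => k ≤ j), μ k = psum μ (j.val + 1) := by
    unfold psum
    congr 1
    ext k
    simp only [mem_filter, mem_univ, true_and, Fin.le_def]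
    omega
  rw [this]

theorem compLabel_mono {n : ℕ} (μ : Fin n → ℕ) : Monotone (Cfsg.compLabel μ) := by
  intro i i' h
  rw [compLabel_eq, compLabel_eq]
  apply Finset.card_le_card
  intro j hj
  rw [mem_filter] at hj ⊢
  exact ⟨hj.1, le_trans hj.2 h⟩

theorem compLabel_eq_of {n : ℕ} (μ : Fin n → ℕ) (i : Fin n) {m : ℕ} (hm : m < n)
    (h1 : psum μ m ≤ i.val) (h2 : i.val < psum μ (m + 1)) : Cfsg.compLabel μ i = m := by
  rw [compLabel_eq]
  have : (univ.filter fun j : Fin n => psum μ (j.val + 1) ≤ i.val) = univ.filter (fun j : Fin n => j < ⟨m, hm⟩) := by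
    ext j
    simp only [mem_filter, mem_univ, true_and, Fin.lt_def]
    constructor
    · intro h
      by_contra hcon
      have := psum_mono μ (show m + 1 ≤ j.val + 1 by omega)
      omega
    · intro h
      exact le_trans (psum_mono μ (by omega)) h1
  rw [this]
  have h3 : univ.filter (fun j : Fin n => j < ⟨m, hm⟩) = Finset.Iio ⟨m, hm⟩ := by
    ext j; simp
  rw [h3, Fin.card_Iio]

theorem exists_block {n : ℕ} (μ : Fin n → ℕ) (hμ : ∑ i, μ i = n) (i : Fin n) :
    ∃ m, m < n ∧ psum μ m ≤ i.val ∧ i.val < psum μ (m + 1) := by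
  have key : ∀ m, m ≤ n → i.val < psum μ m → ∃ m', m' < n ∧ psum μ m' ≤ i.val ∧ i.val < psum μ (m' + 1) := by
    intro m
    induction m with
    | zero => intro _ h; rw [psum_zero] at h; omega
    | succ m ih =>
      intro hm h
      by_cases h1 : i.val < psum μ m
      · exact ih (by omega) h1
      · exact ⟨m, by omega, by omega, h⟩
  apply key n le_rfl
  rw [psum_full, hμ]; exact i.isLt

theorem compLabel_lt {n : ℕ} (μ : Fin n → ℕ) (hμ : ∑ i, μ i = n) (i : Fin n) : Cfsg.compLabel μ i < n := by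
  obtain ⟨m, hm, h1, h2⟩ := exists_block μ hμ i
  rw [compLabel_eq_of μ i hm h1 h2]; exact hm

theorem compLabel_iff {n : ℕ} (μ : Fin n → ℕ) (hμ : ∑ i, μ i = n) (i : Fin n) (b : Fin n) :
    Cfsg.compLabel μ i = b.val ↔ psum μ b.val ≤ i.val ∧ i.val < psum μ (b.val + 1) := by
  constructor
  · intro h
    obtain ⟨m, hm, h1, h2⟩ := exists_block μ hμ i
    have h3 := compLabel_eq_of μ i hm h1 h2
    rw [h] at h3
    rw [h3]; exact ⟨h1, h2⟩
  · rintro ⟨h1, h2⟩
    exact compLabel_eq_of μ i b.isLt h1 h2

/-- the blocks have the prescribed sizes -/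
theorem card_compLabel {n : ℕ} (μ : Fin n → ℕ) (hμ : ∑ i, μ i = n) (b : Fin n) :
    (univ.filter fun i : Fin n => Cfsg.compLabel μ i = b.val).card = μ b := by
  have h1 : psum μ (b.val + 1) ≤ n := by
    have h2 := psum_mono μ (show b.val + 1 ≤ n from b.isLt)
    rw [psum_full, hμ] at h2; exact h2
  have h3 : (univ.filter fun i : Fin n => Cfsg.compLabel μ i = b.val).card =
      ((Finset.Ico (psum μ b.val) (psum μ (b.val + 1)))).card := by
    apply Finset.card_bij (fun i _ => i.val)
    · intro i hi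
      rw [mem_filter, compLabel_iff μ hμ] at hi
      rw [mem_Ico]; exact hi.2
    · intro i _ j _ h
      exact Fin.ext h
    · intro k hk
      rw [mem_Ico] at hk
      refine ⟨⟨k, by omega⟩, ?_, rfl⟩
      rw [mem_filter, compLabel_iff μ hμ]
      exact ⟨mem_univ _, hk⟩
  rw [h3, Nat.card_Ico, psum_succ]; omega

/-- Two maps with equal fibre cardinalities differ by a permutation. -/
theorem exists_perm_of_card_fiber {X Y : Type*} [Fintype X] [DecidableEq Y] (f f' : X → Y)
    (h : ∀ y, (univ.filter fun x => f x = y).card = (univ.filter fun x => f' x = y).card) :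
    ∃ u : Equiv.Perm X, ∀ x, f (u x) = f' x := by
  classical
  have he : ∀ y, Nonempty ({x // f' x = y} ≃ {x // f x = y}) := by
    intro y
    rw [← Fintype.card_eq, Fintype.card_subtype, Fintype.card_subtype]
    exact (h y).symm
  let e := fun y => (he y).some
  refine ⟨(Equiv.sigmaFiberEquiv f').symm.trans ((Equiv.sigmaCongrRight fun y => e y).trans (Equiv.sigmaFiberEquiv f)), ?_⟩
  intro x
  exact (e (f' x) ⟨x, rfl⟩).2

/-- The contingency table of a permutation with respect to two labellings. -/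
def table {n : ℕ} (α β : Fin n → ℕ) (w : Equiv.Perm (Fin n)) (i j : ℕ) : ℕ :=
  (univ.filter fun c : Fin n => α (w c) = i ∧ β c = j).card

/-- Permutations with the same table differ by label preserving permutations. -/
theorem exists_young {n : ℕ} (α β : Fin n → ℕ) (w w' : Equiv.Perm (Fin n)) (h : ∀ i j, table α β w i j = table α β w' i j) :
    ∃ u v : Equiv.Perm (Fin n), (∀ c, α (u c) = α c) ∧ (∀ c, β (v c) = β c) ∧ w' = u * w * v := by
  obtain ⟨v, hv⟩ := exists_perm_of_card_fiber (fun c => (α (w c), β c)) (fun c => (α (w' c), β c)) (by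
    rintro ⟨i, j⟩
    have := h i j
    unfold table at this
    simpa only [Prod.mk.injEq] using this)
  refine ⟨w' * v⁻¹ * w⁻¹, v, ?_, ?_, by group⟩
  · intro c
    have h1 := hv (v⁻¹ (w⁻¹ c))
    rw [Prod.mk.injEq] at h1
    have e1 : v (v⁻¹ (w⁻¹ c)) = w⁻¹ c := by simp
    have e2 : w (w⁻¹ c) = c := by simp
    rw [e1, e2] at h1
    exact h1.1.symm
  · intro c
    have h1 := hv c
    rw [Prod.mk.injEq] at h1
    exact h1.2

/-- tables depend only on the double coset -/
theorem table_young {n : ℕ} (α β : Fin n → ℕ) (w u v : Equiv.Perm (Fin n)) (hu : ∀ c, α (u c) = α c)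
    (hv : ∀ c, β (v c) = β c) (i j : ℕ) : table α β (u * w * v) i j = table α β w i j := by
  unfold table
  apply Finset.card_bij (fun c _ => v c)
  · intro c hc
    rw [mem_filter] at hc ⊢
    refine ⟨mem_univ _, ?_, ?_⟩
    · rw [← hc.2.1]; exact (hu _).symm
    · rw [hv]; exact hc.2.2
  · intro a _ b _ hab
    exact v.injective hab
  · intro c hc
    rw [mem_filter] at hc
    refine ⟨v⁻¹ c, ?_, by simp⟩
    rw [mem_filter]
    refine ⟨mem_univ _, ?_, ?_⟩
    · rw [← hc.2.1]
      have : (u * w * v) (v⁻¹ c) = u (w c) := by simp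
      rw [this, hu]
    · have := hv (v⁻¹ c)
      rw [← this]
      simpa using hc.2.2

theorem table_row {n : ℕ} (α β : Fin n → ℕ) (hβ : ∀ c, β c < n) (w : Equiv.Perm (Fin n)) (i : ℕ) :
    ∑ j : Fin n, table α β w i j.val = (univ.filter fun c => α c = i).card := by
  unfold table
  have h1 : (univ.filter fun c => α c = i).card = (univ.filter fun c => α (w c) = i).card := by
    symm
    apply Finset.card_bij (fun c _ => w c)
    · intro c hc; rw [mem_filter] at hc ⊢; exact ⟨mem_univ _, hc.2⟩
    · intro a _ b _ hab; exact w.injective hab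
    · intro c hc
      rw [mem_filter] at hc
      exact ⟨w⁻¹ c, by rw [mem_filter]; refine ⟨mem_univ _, ?_⟩; simpa using hc.2, by simp⟩
  rw [h1, Finset.card_eq_sum_card_fiberwise (f := fun c => (⟨β c, hβ c⟩ : Fin n)) (t := univ) (fun _ _ => mem_univ _)]
  apply Finset.sum_congr rfl
  intro j _
  congr 1
  ext c
  simp only [mem_filter, mem_univ, true_and, Fin.ext_iff]

theorem table_col {n : ℕ} (α β : Fin n → ℕ) (hα : ∀ c, α c < n) (w : Equiv.Perm (Fin n)) (j : ℕ) :
    ∑ i : Fin n, table α β w i.val j = (univ.filter fun c => β c = j).card := by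
  unfold table
  rw [Finset.card_eq_sum_card_fiberwise (f := fun c => (⟨α (w c), hα (w c)⟩ : Fin n)) (t := univ) (fun _ _ => mem_univ _)]
  apply Finset.sum_congr rfl
  intro i _
  congr 1
  ext c
  simp only [mem_filter, mem_univ, true_and, Fin.ext_iff]
  tauto

/-- Every table with the right margins occurs. -/
theorem exists_table {n : ℕ} (α β : Fin n → ℕ) (hα : ∀ c, α c < n) (hβ : ∀ c, β c < n) (m : Fin n → Fin n → ℕ)
    (hrow : ∀ i : Fin n, ∑ j, m i j = (univ.filter fun c => α c = i.val).card)
    (hcol : ∀ j : Fin n, ∑ i, m i j = (univ.filter fun c => β c = j.val).card) :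
    ∃ w : Equiv.Perm (Fin n), ∀ i j : Fin n, table α β w i.val j.val = m i j := by
  classical
  let S := Σ p : Fin n × Fin n, Fin (m p.1 p.2)
  -- equivalence with `Fin n` over the rows
  have hφ : ∃ φ : S ≃ Fin n, ∀ s, α (φ s) = s.1.1.val := by
    have he : ∀ i : Fin n, Nonempty ({s : S // s.1.1 = i} ≃ {c : Fin n // (⟨α c, hα c⟩ : Fin n) = i}) := by
      intro i
      rw [← Fintype.card_eq, Fintype.card_subtype, Fintype.card_subtype]
      have h1 : (univ.filter fun c : Fin n => (⟨α c, hα c⟩ : Fin n) = i).card = ∑ j, m i j := by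
        rw [hrow]; congr 1; ext c; simp [Fin.ext_iff]
      rw [h1]
      have h3 : Fintype.card {s : S // s.1.1 = i} = ∑ j, m i j := by
        have e : {s : S // s.1.1 = i} ≃ Σ j : Fin n, Fin (m i j) :=
          { toFun := fun s => ⟨s.1.1.2, Fin.cast (by rw [s.2]) s.1.2⟩
            invFun := fun t => ⟨⟨(i, t.1), t.2⟩, rfl⟩
            left_inv := by
              rintro ⟨⟨⟨a, b⟩, x⟩, h⟩
              change a = i at h
              subst h
              rfl
            right_inv := fun t => rfl }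
        rw [Fintype.card_congr e, Fintype.card_sigma]
        simp
      rw [← h3, Fintype.card_subtype]
    let e := fun y => (he y).some
    refine ⟨(Equiv.sigmaFiberEquiv (fun s : S => s.1.1)).symm.trans ((Equiv.sigmaCongrRight e).trans
      (Equiv.sigmaFiberEquiv (fun c : Fin n => (⟨α c, hα c⟩ : Fin n)))), ?_⟩
    intro s
    have := (e s.1.1 ⟨s, rfl⟩).2
    exact congrArg Fin.val this
  have hψ : ∃ ψ : S ≃ Fin n, ∀ s, β (ψ s) = s.1.2.val := by
    have he : ∀ j : Fin n, Nonempty ({s : S // s.1.2 = j} ≃ {c : Fin n // (⟨β c, hβ c⟩ : Fin n) = j}) := by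
      intro j
      rw [← Fintype.card_eq, Fintype.card_subtype (fun c : Fin n => (⟨β c, hβ c⟩ : Fin n) = j)]
      have h1 : (univ.filter fun c : Fin n => (⟨β c, hβ c⟩ : Fin n) = j).card = ∑ i, m i j := by
        rw [hcol]; congr 1; ext c; simp [Fin.ext_iff]
      rw [h1]
      have e : {s : S // s.1.2 = j} ≃ Σ i : Fin n, Fin (m i j) :=
        { toFun := fun s => ⟨s.1.1.1, Fin.cast (by rw [s.2]) s.1.2⟩
          invFun := fun t => ⟨⟨(t.1, j), t.2⟩, rfl⟩
          left_inv := by
            rintro ⟨⟨⟨a, b⟩, x⟩, h⟩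
            change b = j at h
            subst h
            rfl
          right_inv := fun t => rfl }
      rw [Fintype.card_congr e, Fintype.card_sigma]
      simp
    let e := fun y => (he y).some
    refine ⟨(Equiv.sigmaFiberEquiv (fun s : S => s.1.2)).symm.trans ((Equiv.sigmaCongrRight e).trans
      (Equiv.sigmaFiberEquiv (fun c : Fin n => (⟨β c, hβ c⟩ : Fin n)))), ?_⟩
    intro s
    have := (e s.1.2 ⟨s, rfl⟩).2
    exact congrArg Fin.val this
  obtain ⟨φ, hφ⟩ := hφ
  obtain ⟨ψ, hψ⟩ := hψ
  refine ⟨ψ.symm.trans φ, ?_⟩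
  intro i j
  unfold table
  have h1 : (univ.filter fun c : Fin n => α ((ψ.symm.trans φ) c) = i.val ∧ β c = j.val).card =
      (univ.filter fun s : S => s.1 = (i, j)).card := by
    symm
    apply Finset.card_bij (fun s _ => ψ s)
    · intro s hs
      rw [mem_filter] at hs ⊢
      refine ⟨mem_univ _, ?_, ?_⟩
      · rw [Equiv.trans_apply, Equiv.symm_apply_apply, hφ, hs.2]
      · rw [hψ, hs.2]
    · intro a _ b _ hab; exact ψ.injective hab
    · intro c hc
      rw [mem_filter] at hc
      refine ⟨ψ.symm c, ?_, by simp⟩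
      rw [mem_filter]
      refine ⟨mem_univ _, ?_⟩
      apply Prod.ext
      · apply Fin.ext
        rw [← hφ]; exact hc.2.1
      · apply Fin.ext
        rw [← hψ, Equiv.apply_symm_apply]; exact hc.2.2
  rw [h1]
  have h2 : (univ.filter fun s : S => s.1 = (i, j)).card = Fintype.card {s : S // s.1 = (i, j)} := by
    rw [Fintype.card_subtype]
  rw [h2]
  have e : {s : S // s.1 = (i, j)} ≃ Fin (m i j) :=
    { toFun := fun s => Fin.cast (by rw [s.2]) s.1.2
      invFun := fun t => ⟨⟨(i, j), t⟩, rfl⟩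
      left_inv := by
        rintro ⟨⟨⟨a, b⟩, x⟩, h⟩
        change (a, b) = (i, j) at h
        rw [Prod.mk.injEq] at h
        obtain ⟨rfl, rfl⟩ := h
        rfl
      right_inv := fun t => rfl }
  rw [Fintype.card_congr e, Fintype.card_fin]

end H45.Labels
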