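import Mathlib
import Cfsg.Prelude.Def_LinearParabolics
import Cfsg.Agent.Lib.H45.Bruhat
import Cfsg.Agent.Lib.H45.Labels
import Cfsg.Agent.Lib.H45.DCount

/-!
# Double cosets of parabolic subgroups of `GL_n(q)` and contingency tables
-/

set_option autoImplicit false

namespace H45.FlagOrbits

open Matrix H45.Bruhat H45.Labels

variable {F : Type*} [Field F] {n : ℕ}

theorem upper_le (μ : Fin n → ℕ) : Cfsg.upperTriangularGL n F ≤ Cfsg.parabolicGL n F μ := by
  intro b hb
  change (b : Matrix (Fin n) (Fin n) F).BlockTriangular (Cfsg.compLabel μ)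
  have hb' : (b : Matrix (Fin n) (Fin n) F).BlockTriangular id := hb
  intro i j hij
  apply hb'
  by_contra hcon
  have : i ≤ j := not_lt.1 hcon
  exact absurd (compLabel_mono μ this) (not_le.2 hij)

theorem pm_mem (μ : Fin n → ℕ) (u : Equiv.Perm (Fin n)) (hu : ∀ c, Cfsg.compLabel μ (u c) = Cfsg.compLabel μ c) :
    pm F n u ∈ Cfsg.parabolicGL n F μ := by
  change (pm F n u : Matrix (Fin n) (Fin n) F).BlockTriangular (Cfsg.compLabel μ)
  intro i j hij
  rw [pm_apply, if_neg]
  rintro rfl
  rw [hu] at hij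
  exact lt_irrefl _ hij

/-- coordinate subspaces as sets -/
def cset (F : Type*) [Field F] {n : ℕ} (α : Fin n → ℕ) (i : ℕ) : Set (Fin n → F) := {v | ∀ r, i ≤ α r → v r = 0}

theorem mulVec_mem_cset (μ : Fin n → ℕ) {h : GL (Fin n) F} (hh : h ∈ Cfsg.parabolicGL n F μ) {i : ℕ} {v : Fin n → F}
    (hv : v ∈ cset F (Cfsg.compLabel μ) i) : (h : Matrix (Fin n) (Fin n) F).mulVec v ∈ cset F (Cfsg.compLabel μ) i := by
  intro r hr
  rw [Matrix.mulVec, dotProduct]
  apply Finset.sum_eq_zero
  intro c _
  by_cases hc : i ≤ Cfsg.compLabel μ c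
  · rw [hv c hc, mul_zero]
  · have hh' : (h : Matrix (Fin n) (Fin n) F).BlockTriangular (Cfsg.compLabel μ) := hh
    rw [hh' (show Cfsg.compLabel μ c < Cfsg.compLabel μ r by omega), zero_mul]

theorem mulVec_mem_cset_iff (μ : Fin n → ℕ) {h : GL (Fin n) F} (hh : h ∈ Cfsg.parabolicGL n F μ) {i : ℕ} {v : Fin n → F} :
    (h : Matrix (Fin n) (Fin n) F).mulVec v ∈ cset F (Cfsg.compLabel μ) i ↔ v ∈ cset F (Cfsg.compLabel μ) i := by
  constructor
  · intro h1
    have h2 := mulVec_mem_cset μ (inv_mem hh) h1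
    rw [Matrix.mulVec_mulVec, ← Units.val_mul, inv_mul_cancel, Units.val_one, Matrix.one_mulVec] at h2
    exact h2
  · exact mulVec_mem_cset μ hh

/-- the relative position invariant -/
noncomputable def inv (α β : Fin n → ℕ) (g : GL (Fin n) F) (i j : ℕ) : ℕ :=
  Nat.card {v : Fin n → F // v ∈ cset F β j ∧ (g : Matrix (Fin n) (Fin n) F).mulVec v ∈ cset F α i}

theorem inv_mul (μ ν : Fin n → ℕ) (g : GL (Fin n) F) {h k : GL (Fin n) F} (hh : h ∈ Cfsg.parabolicGL n F μ)
    (hk : k ∈ Cfsg.parabolicGL n F ν) (i j : ℕ) :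
    inv (Cfsg.compLabel μ) (Cfsg.compLabel ν) (h * g * k) i j = inv (Cfsg.compLabel μ) (Cfsg.compLabel ν) g i j := by
  unfold inv
  apply Nat.card_congr
  have key : ∀ v : Fin n → F, ((h * g * k : GL (Fin n) F) : Matrix (Fin n) (Fin n) F).mulVec v =
      (h : Matrix (Fin n) (Fin n) F).mulVec ((g : Matrix (Fin n) (Fin n) F).mulVec ((k : Matrix (Fin n) (Fin n) F).mulVec v)) := by
    intro v
    rw [Matrix.mulVec_mulVec, Matrix.mulVec_mulVec, Units.val_mul, Units.val_mul]
  refine
    { toFun := fun v => ⟨(k : Matrix (Fin n) (Fin n) F).mulVec v.1, ?_, ?_⟩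
      invFun := fun v => ⟨((k⁻¹ : GL (Fin n) F) : Matrix (Fin n) (Fin n) F).mulVec v.1, ?_, ?_⟩
      left_inv := ?_
      right_inv := ?_ }
  · exact mulVec_mem_cset ν hk v.2.1
  · have h1 := v.2.2
    rw [key, mulVec_mem_cset_iff μ hh] at h1
    exact h1
  · exact mulVec_mem_cset ν (inv_mem hk) v.2.1
  · rw [key, mulVec_mem_cset_iff μ hh, Matrix.mulVec_mulVec v.1 (k : Matrix (Fin n) (Fin n) F), ← Units.val_mul, mul_inv_cancel, Units.val_one, Matrix.one_mulVec]
    exact v.2.2
  · intro v
    apply Subtype.ext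
    change ((k⁻¹ : GL (Fin n) F) : Matrix (Fin n) (Fin n) F).mulVec ((k : Matrix (Fin n) (Fin n) F).mulVec v.1) = v.1
    rw [Matrix.mulVec_mulVec, ← Units.val_mul, inv_mul_cancel, Units.val_one, Matrix.one_mulVec]
  · intro v
    apply Subtype.ext
    change (k : Matrix (Fin n) (Fin n) F).mulVec (((k⁻¹ : GL (Fin n) F) : Matrix (Fin n) (Fin n) F).mulVec v.1) = v.1
    rw [Matrix.mulVec_mulVec, ← Units.val_mul, mul_inv_cancel, Units.val_one, Matrix.one_mulVec]

/-- the corner counts -/
def corner (α β : Fin n → ℕ) (w : Equiv.Perm (Fin n)) (i j : ℕ) : ℕ :=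
  (Finset.univ.filter fun c : Fin n => α (w c) < i ∧ β c < j).card

theorem corner_table (α β : Fin n → ℕ) (w : Equiv.Perm (Fin n)) (i j : ℕ) :
    corner α β w (i + 1) (j + 1) + corner α β w i j = corner α β w i (j + 1) + corner α β w (i + 1) j + table α β w i j := by
  unfold corner table
  simp only [Finset.card_filter]
  rw [← Finset.sum_add_distrib, ← Finset.sum_add_distrib, ← Finset.sum_add_distrib]
  apply Finset.sum_congr rfl
  intro c _
  generalize α (w c) = a
  generalize β c = b
  split_ifs <;> omega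

theorem table_eq_of_corner (α β : Fin n → ℕ) (w w' : Equiv.Perm (Fin n)) (h : ∀ i j, corner α β w i j = corner α β w' i j)
    (i j : ℕ) : table α β w i j = table α β w' i j := by
  have h1 := corner_table α β w i j
  have h2 := corner_table α β w' i j
  rw [h, h, h, h] at h1
  omega

theorem pm_mulVec (w : Equiv.Perm (Fin n)) (v : Fin n → F) (c : Fin n) :
    (pm F n w : Matrix (Fin n) (Fin n) F).mulVec v (w c) = v c := by
  rw [Matrix.mulVec, dotProduct]
  simp [pm_apply]

theorem inv_pm [Fintype F] (α β : Fin n → ℕ) (w : Equiv.Perm (Fin n)) (i j : ℕ) :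
    inv α β (pm F n w) i j = Fintype.card F ^ corner α β w i j := by
  classical
  unfold inv
  have e : {v : Fin n → F // v ∈ cset F β j ∧ (pm F n w : Matrix (Fin n) (Fin n) F).mulVec v ∈ cset F α i} ≃
      ({c : Fin n // α (w c) < i ∧ β c < j} → F) :=
    { toFun := fun v c => v.1 c.1
      invFun := fun f => ⟨fun c => if h : α (w c) < i ∧ β c < j then f ⟨c, h⟩ else 0, by
          intro c hc
          dsimp only
          rw [dif_neg]
          rintro ⟨_, h2⟩
          omega, by
          intro r hr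
          have hr' : r = w (w⁻¹ r) := by simp
          rw [hr', pm_mulVec, dif_neg]
          rintro ⟨h1, _⟩
          rw [← hr'] at h1
          omega⟩
      left_inv := by
        intro v
        apply Subtype.ext
        funext c
        dsimp only
        by_cases h : α (w c) < i ∧ β c < j
        · rw [dif_pos h]
        · rw [dif_neg h]
          by_cases h2 : β c < j
          · have h3 : i ≤ α (w c) := by
              by_contra hcon
              exact h ⟨by omega, h2⟩
            have h4 := v.2.2 (w c) h3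
            rw [pm_mulVec] at h4
            exact h4.symm
          · exact (v.2.1 c (by omega)).symm
      right_inv := by
        intro f
        funext c
        dsimp only
        rw [dif_pos c.2] }
  rw [Nat.card_congr e, Nat.card_eq_fintype_card, Fintype.card_fun, Fintype.card_subtype]
  rfl

theorem corner_eq_of_dcoset [Fintype F] (μ ν : Fin n → ℕ) (w w' : Equiv.Perm (Fin n)) {h k : GL (Fin n) F}
    (hh : h ∈ Cfsg.parabolicGL n F μ) (hk : k ∈ Cfsg.parabolicGL n F ν) (he : pm F n w' = h * pm F n w * k) (i j : ℕ) :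
    corner (Cfsg.compLabel μ) (Cfsg.compLabel ν) w i j = corner (Cfsg.compLabel μ) (Cfsg.compLabel ν) w' i j := by
  have h1 := inv_mul μ ν (pm F n w) hh hk i j
  rw [← he, inv_pm, inv_pm] at h1
  exact (Nat.pow_right_injective (Fintype.one_lt_card (α := F)) h1).symm

/-- The table of a permutation, restricted to `Fin n × Fin n`. -/
def tab (μ ν : Fin n → ℕ) (w : Equiv.Perm (Fin n)) : Fin n → Fin n → ℕ := fun i j =>
  table (Cfsg.compLabel μ) (Cfsg.compLabel ν) w i.val j.val

theorem table_eq_of_tab (μ ν : Fin n → ℕ) (hμ : ∑ i, μ i = n) (hν : ∑ i, ν i = n) (w w' : Equiv.Perm (Fin n))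
    (h : tab μ ν w = tab μ ν w') (i j : ℕ) :
    table (Cfsg.compLabel μ) (Cfsg.compLabel ν) w i j = table (Cfsg.compLabel μ) (Cfsg.compLabel ν) w' i j := by
  by_cases hi : i < n
  · by_cases hj : j < n
    · exact congrFun (congrFun h ⟨i, hi⟩) ⟨j, hj⟩
    · have : ∀ u : Equiv.Perm (Fin n), table (Cfsg.compLabel μ) (Cfsg.compLabel ν) u i j = 0 := by
        intro u
        unfold table
        rw [Finset.card_eq_zero, Finset.filter_eq_empty_iff]
        rintro c _ ⟨_, h2⟩
        have := compLabel_lt ν hν c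
        omega
      rw [this, this]
  · have : ∀ u : Equiv.Perm (Fin n), table (Cfsg.compLabel μ) (Cfsg.compLabel ν) u i j = 0 := by
      intro u
      unfold table
      rw [Finset.card_eq_zero, Finset.filter_eq_empty_iff]
      rintro c _ ⟨h2, _⟩
      have := compLabel_lt μ hμ (u c)
      omega
    rw [this, this]

/-- Inner products of flag permutation characters of `GL_n(q)`: the number of tables. -/
theorem inner_parabolic [Fintype F] [DecidableEq F] (μ ν : Fin n → ℕ) (hμ : ∑ i, μ i = n) (hν : ∑ i, ν i = n) :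
    (Nat.card (GL (Fin n) F) : ℂ)⁻¹ * ∑ g : GL (Fin n) F,
        Cfsg.fixedPointCharacter (Cfsg.parabolicGL n F μ) g * Cfsg.fixedPointCharacter (Cfsg.parabolicGL n F ν) g =
      Nat.card (Set.range (tab μ ν)) := by
  apply H45.DCount.inner_fixedPointCharacter _ _ (pm F n)
  · intro g
    obtain ⟨b, hb, b', hb', w, hw⟩ := bruhat g
    exact ⟨w, b, upper_le μ hb, b', upper_le ν hb', hw⟩
  · intro w w'
    constructor
    · intro h
      obtain ⟨u, v, hu, hv, he⟩ := exists_young _ _ w w' (table_eq_of_tab μ ν hμ hν w w' h)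
      refine ⟨pm F n u, pm_mem μ u hu, pm F n v, pm_mem ν v hv, ?_⟩
      rw [he, map_mul, map_mul]
    · rintro ⟨h, hh, k, hk, he⟩
      funext i j
      exact table_eq_of_corner _ _ w w' (corner_eq_of_dcoset μ ν w w' hh hk he) i.val j.val

/-- Inner products of the Young permutation characters: the number of tables. -/
theorem inner_young (μ ν : Fin n → ℕ) (hμ : ∑ i, μ i = n) (hν : ∑ i, ν i = n) :
    (Nat.card (Equiv.Perm (Fin n)) : ℂ)⁻¹ * ∑ σ : Equiv.Perm (Fin n),
        Cfsg.fixedPointCharacter (Cfsg.youngSubgroup μ) σ * Cfsg.fixedPointCharacter (Cfsg.youngSubgroup ν) σ =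
      Nat.card (Set.range (tab μ ν)) := by
  apply H45.DCount.inner_fixedPointCharacter _ _ (fun w : Equiv.Perm (Fin n) => w)
  · intro g
    exact ⟨g, 1, one_mem _, 1, one_mem _, by simp⟩
  · intro w w'
    constructor
    · intro h
      obtain ⟨u, v, hu, hv, he⟩ := exists_young _ _ w w' (table_eq_of_tab μ ν hμ hν w w' h)
      exact ⟨u, hu, v, hv, he⟩
    · rintro ⟨h, hh, k, hk, he⟩
      funext i j
      unfold tab
      rw [he, table_young _ _ _ _ _ hh hk]

/-- The range of tables. -/
theorem range_tab (μ ν : Fin n → ℕ) (hμ : ∑ i, μ i = n) (hν : ∑ i, ν i = n) :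
    Set.range (tab μ ν) = {m : Fin n → Fin n → ℕ | (∀ i, ∑ j, m i j = μ i) ∧ (∀ j, ∑ i, m i j = ν j)} := by
  ext m
  constructor
  · rintro ⟨w, rfl⟩
    refine ⟨fun i => ?_, fun j => ?_⟩
    · have := table_row (Cfsg.compLabel μ) (Cfsg.compLabel ν) (compLabel_lt ν hν) w i.val
      rw [card_compLabel μ hμ] at this
      exact this
    · have := table_col (Cfsg.compLabel μ) (Cfsg.compLabel ν) (compLabel_lt μ hμ) w j.val
      rw [card_compLabel ν hν] at this
      exact this
  · rintro ⟨h1, h2⟩
    obtain ⟨w, hw⟩ := exists_table (Cfsg.compLabel μ) (Cfsg.compLabel ν) (compLabel_lt μ hμ) (compLabel_lt ν hν) m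
      (fun i => by rw [h1, card_compLabel μ hμ]) (fun j => by rw [h2, card_compLabel ν hν])
    exact ⟨w, funext fun i => funext fun j => hw i j⟩

end H45.FlagOrbits
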