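import Cfsg.Agent.Lib.H22.ChevSolv
import Cfsg.Agent.Lib.H22.ChevPerfect
import Cfsg.Agent.Lib.H22.ChevAll
import Cfsg.Agent.Lib.H22.ChevRC

/-!
Generation of Chevalley groups by two elements: a calculus of obtained root subgroups.
-/

set_option autoImplicit false
set_option linter.unusedSectionVars false

namespace H45.Gen2

open H22.RGD H22.Coord H22.RCCheck H22.RCComb H22.ChevTri H22.ChevRel H22.ChevSys H22.ChevMain
open Cfsg.Lie (ChevalleyDatum)
open scoped MatrixGroups Matrix

variable {D : ChevalleyDatum} {F : Type*} [Field F] (R : Rel D F) (X : RCX D)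

/-- word of `n`'s -/
def nl (L : List ℕ) : GL D.Idx F := (L.map fun i => ns R i).prod

theorem nl_cons (i : ℕ) (L : List ℕ) : nl R (i :: L) = ns R i * nl R L := by simp [nl]

/-- action of a word on roots -/
def wa (D : ChevalleyDatum) (L : List ℕ) (r : ℕ) : ℕ := L.foldr (fun i r => D.reflectRoot i r) r

include X in
theorem nl_conj (L : List ℕ) (hL : ∀ i ∈ L, i < D.rank) (s : ℕ) (hs : s < D.nroots) :
    wa D L s < D.nroots ∧ ∃ ε : F, (ε = 1 ∨ ε = -1) ∧ ∀ t : F,
      nl R L * xg R s t * (nl R L)⁻¹ = xg R (wa D L s) (ε * t) := by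
  induction L with
  | nil => exact ⟨hs, 1, Or.inl rfl, fun t => by simp [nl, wa]⟩
  | cons i L ih =>
    obtain ⟨h1, ε, h2, h3⟩ := ih (fun j hj => hL j (List.mem_cons_of_mem _ hj))
    have hi : i < D.rank := hL i List.mem_cons_self
    obtain ⟨η, h4, h5⟩ := exists_sign R ⟨i, hi⟩
    refine ⟨X.rc.refl_lt i hi _ h1, η (wa D L s) * ε, ?_, fun t => ?_⟩
    · rcases (h4 _ h1).1 with h | h <;> rcases h2 with h' | h' <;> rw [h, h'] <;> simp
    · have e : nl R (i :: L) * xg R s t * (nl R (i :: L))⁻¹ =
          ns R i * (nl R L * xg R s t * (nl R L)⁻¹) * (ns R i)⁻¹ := by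
        rw [nl_cons]; group
      rw [e, h3, h5 _ h1]
      show _ = xg R (D.reflectRoot i (wa D L s)) _
      rw [mul_assoc]

variable (K : Subgroup (GL D.Idx F))

def Full (r : ℕ) : Prop := r < D.nroots ∧ ∀ t : F, xg R r t ∈ K

def Half (r : ℕ) : Prop := r < D.nroots ∧ xg R r (1 : F) ∈ K

variable {K}

include X in
theorem full_w {L : List ℕ} (hL : ∀ i ∈ L, i < D.rank) (hn : nl R L ∈ K) {s : ℕ}
    (h : Full R K s) : Full R K (wa D L s) := by
  obtain ⟨h1, ε, h2, h3⟩ := nl_conj R X L hL s h.1
  refine ⟨h1, fun t => ?_⟩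
  have h4 := K.mul_mem (K.mul_mem hn (h.2 (ε * t))) (K.inv_mem hn)
  rw [h3] at h4
  have e : ε * (ε * t) = t := by rcases h2 with h | h <;> rw [h] <;> ring
  rwa [e] at h4

include X in
theorem half_w {L : List ℕ} (hL : ∀ i ∈ L, i < D.rank) (hn : nl R L ∈ K) {s : ℕ}
    (h : Half R K s) : Half R K (wa D L s) := by
  obtain ⟨h1, ε, h2, h3⟩ := nl_conj R X L hL s h.1
  refine ⟨h1, ?_⟩
  have h4 := K.mul_mem (K.mul_mem hn h.2) (K.inv_mem hn)
  rw [h3] at h4
  rcases h2 with h | h
  · rw [h] at h4; simpa using h4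
  · rw [h] at h4
    have h5 := K.inv_mem h4
    rw [xg_inv] at h5
    simpa using h5

theorem ng_mem {r : ℕ} (h1 : Full R K r) (h2 : Full R K (D.neg r)) (t : F) : ng R r t ∈ K := by
  rw [ng_def]
  exact K.mul_mem (K.mul_mem (h1.2 _) (h2.2 _)) (h1.2 _)

theorem ns_mem {i : ℕ} (h1 : Full R K (D.simple i)) (h2 : Full R K (D.neg (D.simple i))) :
    ns R i ∈ K := ng_mem R h1 h2 1

theorem hs_mem' {i : ℕ} (h1 : Full R K (D.simple i)) (h2 : Full R K (D.neg (D.simple i))) (c : F) :
    hs R i c ∈ K := by
  unfold hs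
  rw [hg_def]
  exact K.mul_mem (ng_mem R h1 h2 _) (ng_mem R h1 h2 _)

include X in
theorem full_r {i : ℕ} (hi : i < D.rank) (h1 : Full R K (D.simple i))
    (h2 : Full R K (D.neg (D.simple i))) {r : ℕ} (h : Full R K r) :
    Full R K (D.reflectRoot i r) := by
  have := full_w R X (L := [i]) (by simpa using hi) (by simpa [nl] using ns_mem R h1 h2) h
  simpa [wa] using this

/-- in a finite field the squares generate additively -/
theorem squares_top [Finite F] (A : AddSubgroup F) (h : ∀ c : F, c ≠ 0 → c ^ 2 ∈ A) (t : F) :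
    t ∈ A := by
  have h' : ∀ c : F, c ^ 2 ∈ A := by
    intro c
    by_cases hc : c = 0
    · rw [hc]; simp
    · exact h c hc
  by_cases h2 : (2 : F) = 0
  · have hch : ringChar F = 2 := by
      have h3 : ringChar F ∣ 2 := (ringChar.spec F 2).1 (by exact_mod_cast h2)
      have := (Nat.dvd_prime Nat.prime_two).1 h3
      rcases this with h4 | h4
      · exfalso
        have h5 := (ringChar.spec F 1).2 (by rw [h4])
        simp at h5
      · exact h4
    have := Fintype.ofFinite F
    obtain ⟨c, hc⟩ := FiniteField.isSquare_of_char_two hch t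
    rw [hc, ← sq]
    exact h' c
  · have e : t = ((t + 1) / 2) ^ 2 - ((t - 1) / 2) ^ 2 := by field_simp; ring
    rw [e]
    exact A.sub_mem (h' _) (h' _)

/-- the additive group of parameters of `K ∩ X_r` -/
def par (K : Subgroup (GL D.Idx F)) (r : ℕ) : AddSubgroup F where
  carrier := {t | xg R r t ∈ K}
  zero_mem' := by
    show xg R r 0 ∈ K
    rw [xg_zero]; exact K.one_mem
  add_mem' := by
    intro a b ha hb
    show xg R r (a + b) ∈ K
    rw [← xg_mul]; exact K.mul_mem ha hb
  neg_mem' := by
    intro a ha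
    show xg R r (-a) ∈ K
    rw [← xg_inv]; exact K.inv_mem ha

include X in
theorem full_t [Finite F] {i : ℕ} (hi : i < D.rank) (h1 : Full R K (D.simple i))
    (h2 : Full R K (D.neg (D.simple i))) {r : ℕ} (h : Half R K r)
    (hc : (D.cartan i r).natAbs = 1 ∨ (D.cartan i r).natAbs = 2) : Full R K r := by
  refine ⟨h.1, ?_⟩
  have key : ∀ c : F, c ≠ 0 → xg R r (c ^ D.cartan i r) ∈ K := by
    intro c hc0
    have h3 := K.mul_mem (K.mul_mem (hs_mem' R h1 h2 c) h.2) (K.inv_mem (hs_mem' R h1 h2 c))
    rwa [hs_conj R hi hc0 h.1 X.rc, mul_one] at h3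
  rcases hc with hc | hc
  · intro t
    by_cases ht : t = 0
    · rw [ht, xg_zero]; exact K.one_mem
    · rcases Int.natAbs_eq (D.cartan i r) with h4 | h4 <;> rw [hc] at h4
      · have := key t ht
        rw [h4] at this; simpa using this
      · have := key t⁻¹ (inv_ne_zero ht)
        rw [h4] at this; simpa using this
  · intro t
    apply squares_top (par R K r)
    intro c hc0
    show xg R r (c ^ 2) ∈ K
    rcases Int.natAbs_eq (D.cartan i r) with h4 | h4 <;> rw [hc] at h4
    · have := key c hc0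
      rw [h4] at this
      exact_mod_cast this
    · have := key c⁻¹ (inv_ne_zero hc0)
      rw [h4] at this
      have e : c⁻¹ ^ (-(2 : ℕ) : ℤ) = c ^ 2 := by
        rw [zpow_neg, inv_zpow, inv_inv]; norm_cast
      rwa [e] at this

theorem full_a {a b k : ℕ} {m : ℤ} (hk : k < D.nroots) (ha : Full R K a) (hb : Half R K b)
    (h1 : b ≠ a) (h2 : b ≠ D.neg a) (hm : m.natAbs = 1) (ht : D.commTerms a b = [(k, m, 1, 1)]) :
    Full R K k := by
  refine ⟨hk, fun v => ?_⟩
  have h3 := comm_g R ha.1 hb.1 h1 h2 (-(m * v)) 1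
  have h4 : wg R (D.commWord F a b (-(m * v)) 1) = xg R k v := by
    unfold ChevalleyDatum.commWord
    rw [ht]
    simp only [List.map_cons, List.map_nil, wg, List.prod_cons, List.prod_nil, mul_one, one_pow,
      pow_one, _root_.neg_neg]
    congr 1
    rcases Int.natAbs_eq m with h | h <;> rw [hm] at h <;> rw [h] <;> push_cast <;> ring
  rw [h4] at h3
  have h5 : xg R k v = (xg R a (-(m * v)) * xg R b 1)⁻¹ * (xg R b 1 * xg R a (-(m * v))) := by
    rw [h3]; group
  rw [h5]
  exact K.mul_mem (K.inv_mem (K.mul_mem (ha.2 _) hb.2)) (K.mul_mem hb.2 (ha.2 _))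

/-! ### certificates -/

inductive Stp where
  | w (k r : ℕ) : Stp
  | h (k r : ℕ) : Stp
  | r (i r : ℕ) : Stp
  | t (i r : ℕ) : Stp
  | a (a b : ℕ) : Stp

/-- one step of the calculus -/
def stp (D : ChevalleyDatum) (ws : List (List ℕ)) (fu ha : List ℕ) : Stp → Option (List ℕ × List ℕ)
  | .w k r => if k < ws.length ∧ fu.contains r = true then some (wa D (ws.getD k []) r :: fu, ha)
      else none
  | .h k r => if k < ws.length ∧ ha.contains r = true then some (fu, wa D (ws.getD k []) r :: ha)
      else none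
  | .r i r => if i < D.rank ∧ fu.contains (D.simple i) = true ∧
      fu.contains (D.neg (D.simple i)) = true ∧ fu.contains r = true then
        some (D.reflectRoot i r :: fu, ha) else none
  | .t i r => if i < D.rank ∧ fu.contains (D.simple i) = true ∧
      fu.contains (D.neg (D.simple i)) = true ∧ ha.contains r = true ∧
      ((D.cartan i r).natAbs = 1 ∨ (D.cartan i r).natAbs = 2) then some (r :: fu, ha) else none
  | .a a b => if fu.contains a = true ∧ (fu.contains b = true ∨ ha.contains b = true) ∧ b ≠ a ∧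
      b ≠ D.neg a then
        match D.commTerms a b with
        | [(k, m, 1, 1)] => if k < D.nroots ∧ m.natAbs = 1 then some (k :: fu, ha) else none
        | _ => none
      else none

def run (D : ChevalleyDatum) (ws : List (List ℕ)) : List Stp → List ℕ → List ℕ →
    Option (List ℕ × List ℕ)
  | [], fu, ha => some (fu, ha)
  | s :: L, fu, ha => match stp D ws fu ha s with
    | some p => run D ws L p.1 p.2
    | none => none

def chk (D : ChevalleyDatum) (ws : List (List ℕ)) (L : List Stp) (fu ha : List ℕ) : Bool :=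
  (ws.all fun w => w.all fun i => decide (i < D.rank)) &&
  match run D ws L fu ha with
  | some p => (List.range D.rank).all fun i =>
      p.1.contains (D.simple i) && p.1.contains (D.neg (D.simple i))
  | none => false

variable [Finite F]

include X in
theorem stp_sound {ws : List (List ℕ)} (hws : ∀ w ∈ ws, ∀ i ∈ w, i < D.rank)
    (hK : ∀ w ∈ ws, nl R w ∈ K) {fu ha : List ℕ} (hfu : ∀ r ∈ fu, Full R K r)
    (hha : ∀ r ∈ ha, Half R K r) (s : Stp) {p : List ℕ × List ℕ} (h : stp D ws fu ha s = some p) :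
    (∀ r ∈ p.1, Full R K r) ∧ ∀ r ∈ p.2, Half R K r := by
  have hget : ∀ k, k < ws.length → ws.getD k [] ∈ ws := by
    intro k hk
    rw [List.getD_eq_getElem _ _ hk]
    exact List.getElem_mem hk
  cases s with
  | w k r =>
    simp only [stp] at h
    split_ifs at h with hc
    obtain rfl := Option.some.inj h
    refine ⟨fun r' hr' => ?_, hha⟩
    rcases List.mem_cons.1 hr' with rfl | hr'
    · exact full_w R X (hws _ (hget k hc.1)) (hK _ (hget k hc.1)) (hfu r (by simpa using hc.2))
    · exact hfu r' hr'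
  | h k r =>
    simp only [stp] at h
    split_ifs at h with hc
    obtain rfl := Option.some.inj h
    refine ⟨hfu, fun r' hr' => ?_⟩
    rcases List.mem_cons.1 hr' with rfl | hr'
    · exact half_w R X (hws _ (hget k hc.1)) (hK _ (hget k hc.1)) (hha r (by simpa using hc.2))
    · exact hha r' hr'
  | r i r =>
    simp only [stp] at h
    split_ifs at h with hc
    obtain rfl := Option.some.inj h
    refine ⟨fun r' hr' => ?_, hha⟩
    rcases List.mem_cons.1 hr' with rfl | hr'
    · exact full_r R X hc.1 (hfu _ (by simpa using hc.2.1)) (hfu _ (by simpa using hc.2.2.1))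
        (hfu _ (by simpa using hc.2.2.2))
    · exact hfu r' hr'
  | t i r =>
    simp only [stp] at h
    split_ifs at h with hc
    obtain rfl := Option.some.inj h
    refine ⟨fun r' hr' => ?_, hha⟩
    rcases List.mem_cons.1 hr' with rfl | hr'
    · exact full_t R X hc.1 (hfu _ (by simpa using hc.2.1)) (hfu _ (by simpa using hc.2.2.1))
        (hha _ (by simpa using hc.2.2.2.1)) hc.2.2.2.2
    · exact hfu r' hr'
  | a a b =>
    simp only [stp] at h
    split_ifs at h with hc
    split at h
    · rename_i k m heq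
      split_ifs at h with hc2
      obtain rfl := Option.some.inj h
      refine ⟨fun r' hr' => ?_, hha⟩
      rcases List.mem_cons.1 hr' with rfl | hr'
      · have hb : Half R K b := by
          rcases hc.2.1 with h3 | h3
          · have := hfu b (by simpa using h3)
            exact ⟨this.1, this.2 1⟩
          · exact hha b (by simpa using h3)
        exact full_a R hc2.1 (hfu a (by simpa using hc.1)) hb hc.2.2.1 hc.2.2.2 hc2.2 heq
      · exact hfu r' hr'
    · cases h

include X in
theorem run_sound {ws : List (List ℕ)} (hws : ∀ w ∈ ws, ∀ i ∈ w, i < D.rank)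
    (hK : ∀ w ∈ ws, nl R w ∈ K) (L : List Stp) : ∀ {fu ha : List ℕ}, (∀ r ∈ fu, Full R K r) →
    (∀ r ∈ ha, Half R K r) → ∀ {p : List ℕ × List ℕ}, run D ws L fu ha = some p →
    (∀ r ∈ p.1, Full R K r) ∧ ∀ r ∈ p.2, Half R K r := by
  induction L with
  | nil =>
    intro fu ha h1 h2 p hp
    obtain rfl := Option.some.inj hp
    exact ⟨h1, h2⟩
  | cons s L ih =>
    intro fu ha h1 h2 p hp
    simp only [run] at hp
    split at hp
    · rename_i p' heq
      have h3 := stp_sound R X hws hK h1 h2 s heq
      exact ih h3.1 h3.2 hp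
    · cases hp

include X in
/-- all simple root subgroups and their negatives generate -/
theorem top_of_simple (h : ∀ i < D.rank, Full R K (D.simple i) ∧ Full R K (D.neg (D.simple i))) :
    D.group F ≤ K := by
  rw [group_eq_closure, Subgroup.closure_le]
  rintro g ⟨r, t, hr, hg⟩
  rw [xg_eq R hg, SetLike.mem_coe]
  obtain ⟨L, i, _, ε, _, hx, _⟩ := exists_ng_conj R X ⟨r, hr⟩
  have h1 := hx t
  simp only at h1
  rw [h1]
  have hn : ∀ L : List (Fin D.rank), nsw R L ∈ K := by
    intro L
    induction L with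
    | nil => simp [nsw]
    | cons j L ih =>
      rw [nsw_cons]
      exact K.mul_mem (ns_mem R (h j j.2).1 (h j j.2).2) ih
  exact K.mul_mem (K.mul_mem (hn L) ((h i i.2).1.2 _)) (K.inv_mem (hn L))

include X in
theorem chk_sound {ws : List (List ℕ)} {L : List Stp} {fu ha : List ℕ}
    (h : chk D ws L fu ha = true) (hK : ∀ w ∈ ws, nl R w ∈ K) (hfu : ∀ r ∈ fu, Full R K r)
    (hha : ∀ r ∈ ha, Half R K r) : D.group F ≤ K := by
  unfold chk at h
  rw [Bool.and_eq_true] at h
  obtain ⟨h1, h2⟩ := h
  have hws : ∀ w ∈ ws, ∀ i ∈ w, i < D.rank := by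
    intro w hw i hi
    rw [List.all_eq_true] at h1
    have := h1 w hw
    rw [List.all_eq_true] at this
    simpa using this i hi
  split at h2
  · rename_i p heq
    have h3 := run_sound R X hws hK L hfu hha heq
    apply top_of_simple R X
    intro i hi
    rw [List.all_eq_true] at h2
    have h4 := h2 i (List.mem_range.2 hi)
    rw [Bool.and_eq_true] at h4
    exact ⟨h3.1 _ (by simpa using h4.1), h3.1 _ (by simpa using h4.2)⟩
  · cases h2

end H45.Gen2
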