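import Cfsg.Agent.Lib.H45.Gen2
import Cfsg.Agent.Lib.H22.CoxIso

/-!
Generation of Chevalley groups by two elements: main constructions.
-/

set_option autoImplicit false
set_option linter.unusedSectionVars false

namespace H45.Gen2

open H22.RGD H22.Coord H22.RCCheck H22.RCComb H22.ChevTri H22.ChevRel H22.ChevSys H22.ChevMain
open Cfsg.Lie (ChevalleyDatum)
open scoped MatrixGroups Matrix

variable {D : ChevalleyDatum} {F : Type*} [Field F] (R : Rel D F) (X : RCX D)

theorem xg_pow (r : ℕ) (t : F) (n : ℕ) : xg R r t ^ n = xg R r (n * t) := by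
  induction n with
  | zero => simp [xg_zero]
  | succ n ih => rw [pow_succ, ih, xg_mul]; congr 1; push_cast; ring

theorem hs_pow {i : ℕ} (hi : i < D.rank) {c : F} (hc : c ≠ 0) (n : ℕ) :
    hs R i c ^ n = hs R i (c ^ n) := by
  induction n with
  | zero => simp [hs_one R hi]
  | succ n ih => rw [pow_succ, ih, hs_mul R hi (pow_ne_zero _ hc) hc, pow_succ]

include X in
theorem nl_Hs (L : List ℕ) (hL : ∀ i ∈ L, i < D.rank) {h : GL D.Idx F} (hh : h ∈ Hs R) :
    nl R L * h * (nl R L)⁻¹ ∈ Hs R := by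
  induction L with
  | nil => simpa [nl] using hh
  | cons i L ih =>
    have h1 := ih (fun j hj => hL j (List.mem_cons_of_mem _ hj))
    have h2 := conj_mem_of_stabSub (ns_stab_Hs R (hL i List.mem_cons_self) X) h1
    have e : nl R (i :: L) * h * (nl R (i :: L))⁻¹ =
        ns R i * (nl R L * h * (nl R L)⁻¹) * (ns R i)⁻¹ := by
      rw [nl_cons]; group
    rw [e]; exact h2

include X in
theorem full_group {r : ℕ} (hr : r < D.nroots) : Full R (D.group F) r :=
  ⟨hr, fun t => xg_mem_group R hr t⟩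

include X in
theorem hs_group {i : ℕ} (hi : i < D.rank) (c : F) : hs R i c ∈ D.group F :=
  hs_mem' R (full_group R X (X.rc.simple_lt i hi))
    (full_group R X (H22.RCComb.neg_lt X.rc (X.rc.simple_lt i hi))) c

include X in
theorem nl_group (L : List ℕ) (hL : ∀ i ∈ L, i < D.rank) : nl R L ∈ D.group F := by
  induction L with
  | nil => simp [nl]
  | cons i L ih =>
    rw [nl_cons]
    have hi := hL i List.mem_cons_self
    exact (D.group F).mul_mem (ns_mem R (full_group R X (X.rc.simple_lt i hi))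
      (full_group R X (H22.RCComb.neg_lt X.rc (X.rc.simple_lt i hi))))
      (ih (fun j hj => hL j (List.mem_cons_of_mem _ hj)))

/-- passing to the subtype -/
theorem closure_top {G : Type*} [Group G] {K : Subgroup G} {a b : G} (ha : a ∈ K) (hb : b ∈ K)
    (h : K ≤ Subgroup.closure {a, b}) :
    ∃ a b : K, Subgroup.closure ({a, b} : Set K) = ⊤ := by
  refine ⟨⟨a, ha⟩, ⟨b, hb⟩, ?_⟩
  apply Subgroup.map_injective K.subtype_injective
  rw [MonoidHom.map_closure, Set.image_pair, ← MonoidHom.range_eq_map, Subgroup.range_subtype]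
  apply le_antisymm
  · rw [Subgroup.closure_le]
    rintro x (rfl | rfl)
    · exact ha
    · exact hb
  · exact h

include R X in
theorem gen3 [Finite F] (hF : ∃ x : F, x ≠ 0 ∧ x ≠ 1) {i β α γ : ℕ} {w : List ℕ} {L : List Stp}
    (hi : i < D.rank) (hβ : β < D.nroots) (hα : α < D.nroots) (hγ : γ < D.nroots)
    (hw : ∀ j ∈ w, j < D.rank) (hwγ : wa D w γ = β)
    (c1 : (D.cartan i β).natAbs = 1) (c2 : (D.cartan i γ).natAbs = 1) (c3 : D.cartan i α = 0)
    (hchk : chk D [w] L [β] [α] = true) :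
    ∃ a b : D.group F, Subgroup.closure ({a, b} : Set (D.group F)) = ⊤ := by
  have : Fintype F := Fintype.ofFinite F
  classical
  obtain ⟨g, hg⟩ := IsCyclic.exists_generator (α := Fˣ)
  set l : F := (g : F) with hl
  have hl0 : l ≠ 0 := g.ne_zero
  have hl1 : l ≠ 1 := by
    intro h
    obtain ⟨x, hx0, hx1⟩ := hF
    obtain ⟨k, hk⟩ := hg (Units.mk0 x hx0)
    have hg1 : g = 1 := Units.ext h
    apply hx1
    have := congrArg (fun u : Fˣ => (u : F)) hk
    simp only [hg1, one_zpow] at this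
    simpa using this.symm
  set s := hs R i l with hs_def
  set n := nl R w with hn_def
  set a := xg R α 1 * s with ha
  set b := xg R β 1 * n with hb
  set K := Subgroup.closure {a, b} with hK
  have haK : a ∈ K := Subgroup.subset_closure (by simp)
  have hbK : b ∈ K := Subgroup.subset_closure (by simp)
  -- `s ∈ K`
  have hcomm : Commute (xg R α 1) s := by
    have h1 := hs_conj R hi hl0 hα X.rc (1 : F)
    rw [c3, zpow_zero, one_mul, mul_inv_eq_iff_eq_mul] at h1
    exact h1.symm
  have hsK : s ∈ K := by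
    have h1 := K.pow_mem haK (Fintype.card F)
    rw [ha, hcomm.mul_pow, xg_pow, hs_def, hs_pow R hi hl0, FiniteField.pow_card, mul_one,
      FiniteField.cast_card_eq_zero, xg_zero, one_mul] at h1
    exact h1
  have hαK : xg R α 1 ∈ K := by
    have := K.mul_mem haK (K.inv_mem hsK)
    rwa [ha, mul_inv_cancel_right] at this
  -- all `h_i(c)` are in `K`
  have hallK : ∀ c : F, c ≠ 0 → hs R i c ∈ K := by
    intro c hc
    obtain ⟨k, hk⟩ := hg (Units.mk0 c hc)
    obtain ⟨m, hm⟩ : ∃ m : ℕ, g ^ m = Units.mk0 c hc := by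
      have : Units.mk0 c hc ∈ Submonoid.powers g := by
        rw [mem_powers_iff_mem_zpowers]; exact ⟨k, hk⟩
      exact this
    have h1 := K.pow_mem hsK m
    rw [hs_def, hs_pow R hi hl0] at h1
    have h2 : l ^ m = c := by
      have := congrArg (fun u : Fˣ => (u : F)) hm
      simpa using this
    rwa [h2] at h1
  set μ := l ^ D.cartan i β with hμ
  set ν := l ^ D.cartan i γ with hν
  have hne : ∀ z : ℤ, z.natAbs = 1 → l ^ z ≠ 1 := by
    intro z hz
    rcases Int.natAbs_eq z with h | h <;> rw [h, hz]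
    · simpa using hl1
    · simpa using hl1
  have hμ1 : μ ≠ 1 := hne _ c1
  have hν1 : ν ≠ 1 := hne _ c2
  set t := n * s * n⁻¹ with ht
  have hsH : s ∈ Hs R := hs_mem R hi hl0
  have htH : t ∈ Hs R := nl_Hs R X w hw hsH
  have hst : s * t = t * s := H22.ChevSolv.Hs_comm R X.rc hsH htH
  have hs1 : ∀ u : F, s * xg R β u = xg R β (μ * u) * s := by
    intro u
    rw [← mul_inv_eq_iff_eq_mul]
    exact hs_conj R hi hl0 hβ X.rc u
  obtain ⟨_, ε, hε, hconj⟩ := nl_conj R X w hw γ hγ
  rw [hwγ] at hconj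
  have hεε : ε * ε = 1 := by rcases hε with h | h <;> rw [h] <;> ring
  have ht1 : ∀ u : F, t * xg R β u = xg R β (ν * u) * t := by
    intro u
    have h1 := hconj (ε * u)
    rw [← mul_assoc, hεε, one_mul] at h1
    have h2 := hconj (ν * (ε * u))
    have h3 := hs_conj R hi hl0 hγ X.rc (ε * u)
    rw [← mul_inv_eq_iff_eq_mul]
    calc t * xg R β u * t⁻¹ = n * (s * xg R γ (ε * u) * s⁻¹) * n⁻¹ := by
          rw [← h1, ht, hn_def]; group
      _ = n * xg R γ (ν * (ε * u)) * n⁻¹ := by rw [h3]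
      _ = xg R β (ε * (ν * (ε * u))) := h2
      _ = xg R β (ν * u) := by
          congr 1
          calc ε * (ν * (ε * u)) = (ε * ε) * (ν * u) := by ring
            _ = ν * u := by rw [hεε, one_mul]
  have hz : b * s * b⁻¹ = xg R β (1 - ν) * t := by
    calc b * s * b⁻¹ = xg R β 1 * t * (xg R β 1)⁻¹ := by rw [hb, ht]; group
      _ = xg R β 1 * (t * xg R β (-1)) := by rw [xg_inv, mul_assoc]
      _ = xg R β 1 * (xg R β (ν * (-1)) * t) := by rw [ht1]
      _ = xg R β (1 - ν) * t := by rw [← mul_assoc, xg_mul]; congr 2; ring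
  have hz2 : s * (b * s * b⁻¹) * s⁻¹ * (b * s * b⁻¹)⁻¹ = xg R β ((μ - 1) * (1 - ν)) := by
    rw [hz]
    calc s * (xg R β (1 - ν) * t) * s⁻¹ * (xg R β (1 - ν) * t)⁻¹
        = (s * xg R β (1 - ν)) * t * s⁻¹ * t⁻¹ * (xg R β (1 - ν))⁻¹ := by group
      _ = xg R β (μ * (1 - ν)) * (s * t) * s⁻¹ * t⁻¹ * (xg R β (1 - ν))⁻¹ := by rw [hs1]; group
      _ = xg R β (μ * (1 - ν)) * (t * s) * s⁻¹ * t⁻¹ * (xg R β (1 - ν))⁻¹ := by rw [hst]
      _ = xg R β (μ * (1 - ν)) * (xg R β (1 - ν))⁻¹ := by group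
      _ = xg R β ((μ - 1) * (1 - ν)) := by rw [xg_inv, xg_mul]; congr 1; ring
  set u0 := (μ - 1) * (1 - ν) with hu0
  have hu0' : u0 ≠ 0 := mul_ne_zero (sub_ne_zero.2 hμ1) (sub_ne_zero.2 hν1.symm)
  have hu0K : xg R β u0 ∈ K := by
    rw [← hz2]
    have h1 := K.mul_mem (K.mul_mem hbK hsK) (K.inv_mem hbK)
    exact K.mul_mem (K.mul_mem (K.mul_mem hsK h1) (K.inv_mem hsK)) (K.inv_mem h1)
  have hβK : Full R K β := by
    refine ⟨hβ, fun v => ?_⟩
    by_cases hv : v = 0
    · rw [hv, xg_zero]; exact K.one_mem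
    have key : ∀ c : F, c ≠ 0 → xg R β (c ^ D.cartan i β * u0) ∈ K := by
      intro c hc
      have h1 := K.mul_mem (K.mul_mem (hallK c hc) hu0K) (K.inv_mem (hallK c hc))
      rwa [hs_conj R hi hc hβ X.rc] at h1
    rcases Int.natAbs_eq (D.cartan i β) with h4 | h4 <;> rw [c1] at h4
    · have := key (v / u0) (div_ne_zero hv hu0')
      rw [h4] at this
      have e : (v / u0) ^ ((1 : ℕ) : ℤ) * u0 = v := by
        rw [Nat.cast_one, zpow_one]; field_simp
      rwa [e] at this
    · have := key (u0 / v) (div_ne_zero hu0' hv)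
      rw [h4] at this
      have e : (u0 / v) ^ (-((1 : ℕ) : ℤ)) * u0 = v := by
        rw [Nat.cast_one, zpow_neg_one, inv_div]; field_simp
      rwa [e] at this
  have hnK : n ∈ K := by
    have := K.mul_mem (K.inv_mem (hβK.2 1)) hbK
    rwa [hb, inv_mul_cancel_left] at this
  have hfin : D.group F ≤ K := by
    apply chk_sound R X hchk
    · intro w' hw'
      rw [List.mem_singleton] at hw'
      rw [hw']; exact hnK
    · intro r hr
      rw [List.mem_singleton] at hr
      rw [hr]; exact hβK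
    · intro r hr
      rw [List.mem_singleton] at hr
      rw [hr]; exact ⟨hα, hαK⟩
  refine closure_top (a := a) (b := b) ?_ ?_ hfin
  · exact (D.group F).mul_mem (xg_mem_group R hα _) (hs_group R X hi _)
  · exact (D.group F).mul_mem (xg_mem_group R hβ _) (nl_group R X w hw)

/-! ### the field with two elements -/

theorem lift_list {n : ℕ} (L : List ℕ) (hL : ∀ i ∈ L, i < n) : ∃ L' : List (Fin n),
    L'.map Fin.val = L := by
  induction L with
  | nil => exact ⟨[], rfl⟩
  | cons i L ih =>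
    obtain ⟨L', h⟩ := ih (fun j hj => hL j (List.mem_cons_of_mem _ hj))
    exact ⟨⟨i, hL i List.mem_cons_self⟩ :: L', by simp [h]⟩

theorem nl_nsw (L : List (Fin D.rank)) : nl R (L.map Fin.val) = nsw R L := by
  induction L with
  | nil => simp [nl, nsw]
  | cons i L ih => rw [List.map_cons, nl_cons, nsw_cons, ih]

theorem wa_w (L : List (Fin D.rank)) (r : Fin D.nroots) :
    wa D (L.map Fin.val) r = ((comb X).w L r : Fin D.nroots) := by
  induction L with
  | nil => simp [wa]
  | cons i L ih =>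
    rw [RootComb.w_cons, Equiv.Perm.mul_apply]
    show D.reflectRoot i (wa D (L.map Fin.val) r) = _
    rw [ih]; rfl

theorem wa_append (L M : List ℕ) (r : ℕ) : wa D (L ++ M) r = wa D L (wa D M r) := by
  simp [wa]

theorem nl_append (L M : List ℕ) : nl R (L ++ M) = nl R L * nl R M := by
  simp [nl]

/-- word trivial on simple roots -/
def trivB (D : ChevalleyDatum) (L : List ℕ) (m : ℕ) : Bool :=
  (List.range D.rank).all fun i => Nat.beq ((wa D L)^[m] (D.simple i)) (D.simple i)

include X in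
theorem nl_triv (hF : ∀ x : F, x = 0 ∨ x = 1) {L : List ℕ} (hL : ∀ i ∈ L, i < D.rank) {m : ℕ}
    (h : trivB D L m = true) : nl R L ^ m = 1 := by
  obtain ⟨L', rfl⟩ := lift_list L hL
  rw [nl_nsw, nsw_eq_nw R X]
  have h1 : (comb X).w L' ^ m = 1 := by
    apply (coord X).ext_of_simple ((comb X).W.pow_mem ((comb X).w_mem L') m) (comb X).W.one_mem
    intro i
    apply Fin.ext
    unfold trivB at h
    rw [List.all_eq_true] at h
    have h2 := Nat.eq_of_beq_eq_true (h i (List.mem_range.2 i.2))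
    have h3 : ∀ k : ℕ, ((((comb X).w L' ^ k) ((comb X).simple i) : Fin D.nroots) : ℕ) =
        (wa D (L'.map Fin.val))^[k] (D.simple i) := by
      intro k
      induction k with
      | zero => simp
      | succ k ih =>
        rw [pow_succ', Equiv.Perm.mul_apply, ← wa_w, ih, Function.iterate_succ_apply']
    rw [h3, h2]; rfl
  have h2 : (chevSys R X).Rep ((chevSys R X).nw L' ^ m) 1 := by
    have h3 : ∀ k : ℕ, (chevSys R X).Rep ((chevSys R X).nw L' ^ k) ((comb X).w L' ^ k) := by
      intro k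
      induction k with
      | zero =>
        rw [pow_zero, pow_zero]
        exact (chevSys R X).rep_H (chevSys R X).H.one_mem
      | succ k ih =>
        rw [pow_succ, pow_succ]
        exact ih.mul ((chevSys R X).rep_nw L')
    have := h3 m
    rwa [h1] at this
  have h4 : (chevSys R X).nw L' ^ m ∈ (chevSys R X).H := by
    exact (chevSys R X).mem_H_of_rep_one h2
  have h6 : Hs R = ⊥ := by
    unfold Hs
    rw [Subgroup.closure_eq_bot_iff]
    rintro g ⟨i, hi, c, hc, rfl⟩
    have : c = 1 := (hF c).resolve_left hc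
    rw [this, hs_one R hi]; rfl
  have h7 : (chevSys R X).H = Hs R := by
    rw [chevSys_H, diagonalSubgroup_eq R X]
  rw [h7, h6] at h4
  exact Subgroup.mem_bot.1 h4

include R in
theorem two_eq_zero (hF : ∀ x : F, x = 0 ∨ x = 1) : (1 : F) + 1 = 0 := by
  rcases hF (1 + 1) with h | h
  · exact h
  · exfalso
    have : (1 : F) = 0 := by linear_combination h
    exact one_ne_zero this

include R in
theorem full_of_half (hF : ∀ x : F, x = 0 ∨ x = 1) {K : Subgroup (GL D.Idx F)} {r : ℕ}
    (h : Half R K r) : Full R K r := by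
  refine ⟨h.1, fun t => ?_⟩
  rcases hF t with h1 | h1
  · rw [h1, xg_zero]; exact K.one_mem
  · rw [h1]; exact h.2

include X in
/-- extraction from `x_α(1) n_v` with `v` of odd order fixing `α` -/
theorem extract (hF : ∀ x : F, x = 0 ∨ x = 1) {K : Subgroup (GL D.Idx F)} {α m : ℕ} {v : List ℕ}
    (hα : α < D.nroots) (hv : ∀ i ∈ v, i < D.rank) (hva : wa D v α = α)
    (ht : trivB D v (2 * m + 1) = true) (hK : xg R α 1 * nl R v ∈ K) :
    Full R K α ∧ nl R v ∈ K := by
  have h2 := two_eq_zero R hF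
  have hx2 : xg R α (1 : F) * xg R α 1 = 1 := by rw [xg_mul, h2, xg_zero]
  have hcomm : Commute (xg R α 1) (nl R v) := by
    obtain ⟨_, ε, hε, hc⟩ := nl_conj R X v hv α hα
    have h3 := hc 1
    rw [hva] at h3
    have hε1 : ε = 1 := by
      rcases hε with h | h
      · exact h
      · rw [h]; linear_combination -h2
    rw [hε1, one_mul, mul_inv_eq_iff_eq_mul] at h3
    exact h3.symm
  have h4 := K.pow_mem hK (2 * m + 1)
  rw [hcomm.mul_pow, nl_triv R X hF hv ht, mul_one, pow_succ, pow_mul, sq, hx2, one_pow,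
    one_mul] at h4
  refine ⟨full_of_half R hF ⟨hα, h4⟩, ?_⟩
  have := K.mul_mem (K.inv_mem h4) hK
  rwa [inv_mul_cancel_left] at this

include R X in
theorem gen2 [Finite F] (hF : ∀ x : F, x = 0 ∨ x = 1) {α β : ℕ} {v w : List ℕ} {mv mw : ℕ}
    {L : List Stp} (hα : α < D.nroots) (hβ : β < D.nroots) (hv : ∀ j ∈ v, j < D.rank)
    (hw : ∀ j ∈ w, j < D.rank) (hva : wa D v α = α) (hwb : wa D w β = β)
    (hv1 : trivB D v (2 * mv + 1) = true) (hw1 : trivB D w (2 * mw + 1) = true)
    (hchk : chk D [v, w] L [α, β] [] = true) :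
    ∃ a b : D.group F, Subgroup.closure ({a, b} : Set (D.group F)) = ⊤ := by
  set a := xg R α 1 * nl R v with ha
  set b := xg R β 1 * nl R w with hb
  set K := Subgroup.closure {a, b} with hK
  have haK : a ∈ K := Subgroup.subset_closure (by simp)
  have hbK : b ∈ K := Subgroup.subset_closure (by simp)
  obtain ⟨h1, h2⟩ := extract R X hF hα hv hva hv1 haK
  obtain ⟨h3, h4⟩ := extract R X hF hβ hw hwb hw1 hbK
  have hfin : D.group F ≤ K := by
    apply chk_sound R X hchk
    · intro w' hw'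
      simp only [List.mem_cons, List.not_mem_nil, or_false] at hw'
      rcases hw' with rfl | rfl
      · exact h2
      · exact h4
    · intro r hr
      simp only [List.mem_cons, List.not_mem_nil, or_false] at hr
      rcases hr with rfl | rfl
      · exact h1
      · exact h3
    · intro r hr; cases hr
  refine closure_top (a := a) (b := b) ?_ ?_ hfin
  · exact (D.group F).mul_mem (xg_mem_group R hα _) (nl_group R X v hv)
  · exact (D.group F).mul_mem (xg_mem_group R hβ _) (nl_group R X w hw)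

/-! ### type D₄ over the field with two elements -/

theorem comm_nil {r s : ℕ} (hr : r < D.nroots) (hs : s < D.nroots) (h1 : s ≠ r) (h2 : s ≠ D.neg r)
    (h : D.commTerms r s = []) (t u : F) : Commute (xg R s u) (xg R r t) := by
  have h3 := comm_g R hr hs h1 h2 t u
  have h4 : wg R (D.commWord F r s t u) = 1 := by
    unfold ChevalleyDatum.commWord
    rw [h]; simp [wg]
  rw [h4, mul_one] at h3
  exact h3

theorem gg_move (hF : ∀ x : F, x = 0 ∨ x = 1) {K : Subgroup (GL D.Idx F)} {δ ε k : ℕ} {m : ℤ}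
    (hδ : δ < D.nroots) (hδ' : D.neg δ < D.nroots) (hk : k < D.nroots)
    (hg : xg R δ 1 * xg R (D.neg δ) 1 ∈ K) (he : Full R K ε)
    (h1 : δ ≠ ε) (h2 : δ ≠ D.neg ε) (h3 : D.commTerms ε δ = [(k, m, 1, 1)])
    (h4 : k ≠ δ) (h5 : k ≠ D.neg δ) (h6 : D.commTerms δ k = [])
    (h7 : ε ≠ D.neg δ) (h8 : ε ≠ D.neg (D.neg δ)) (h9 : D.commTerms (D.neg δ) ε = [])
    (hm : m.natAbs = 1) : Full R K k := by
  have hh := two_eq_zero R hF
  have c1 := comm_nil R hδ' he.1 h7 h8 h9 1 1
  have c2 := comm_nil R hδ hk h4 h5 h6 1 (-(m : F))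
  have e1 := comm_g R he.1 hδ h1 h2 1 1
  have e2 : wg R (D.commWord F ε δ 1 1) = xg R k (-(m : F)) := by
    unfold ChevalleyDatum.commWord
    rw [h3]
    simp only [List.map_cons, List.map_nil, wg, List.prod_cons, List.prod_nil, mul_one, one_pow,
      pow_one]
    congr 1
    ring
  rw [e2] at e1
  have h10 := K.mul_mem (K.mul_mem hg (he.2 1)) (K.inv_mem hg)
  have h11 : xg R δ 1 * xg R (D.neg δ) 1 * xg R ε 1 * (xg R δ 1 * xg R (D.neg δ) 1)⁻¹ =
      xg R ε 1 * xg R k (-(m : F)) := by
    calc xg R δ 1 * xg R (D.neg δ) 1 * xg R ε 1 * (xg R δ 1 * xg R (D.neg δ) 1)⁻¹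
        = xg R δ 1 * (xg R (D.neg δ) 1 * xg R ε 1) * (xg R (D.neg δ) 1)⁻¹ * (xg R δ 1)⁻¹ := by
          group
      _ = xg R δ 1 * (xg R ε 1 * xg R (D.neg δ) 1) * (xg R (D.neg δ) 1)⁻¹ * (xg R δ 1)⁻¹ := by
          rw [c1.eq]
      _ = (xg R δ 1 * xg R ε 1) * (xg R δ 1)⁻¹ := by group
      _ = xg R ε 1 * xg R δ 1 * xg R k (-(m : F)) * (xg R δ 1)⁻¹ := by rw [e1]
      _ = xg R ε 1 * (xg R δ 1 * xg R k (-(m : F))) * (xg R δ 1)⁻¹ := by group
      _ = xg R ε 1 * (xg R k (-(m : F)) * xg R δ 1) * (xg R δ 1)⁻¹ := by rw [c2.eq]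
      _ = xg R ε 1 * xg R k (-(m : F)) := by group
  rw [h11] at h10
  have h12 : xg R k (-(m : F)) ∈ K := by
    have := K.mul_mem (K.inv_mem (he.2 1)) h10
    rwa [inv_mul_cancel_left] at this
  apply full_of_half R hF
  refine ⟨hk, ?_⟩
  have e3 : -(m : F) = 1 := by
    rcases Int.natAbs_eq m with h | h <;> rw [hm] at h <;> rw [h] <;> push_cast
    · linear_combination -hh
    · ring
  rwa [e3] at h12

theorem gg_cube (hF : ∀ x : F, x = 0 ∨ x = 1) {i : ℕ} (hi : i < D.rank)
    (hlt : D.simple i < D.nroots) :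
    (xg R (D.neg (D.simple i)) (1 : F) * xg R (D.simple i) 1) ^ 3 = 1 := by
  have hh := two_eq_zero R hF
  have h1 : (-1 : F) = 1 := by linear_combination -hh
  set x := xg R (D.simple i) (1 : F) with hx
  set y := xg R (D.neg (D.simple i)) (1 : F) with hy
  have hxx : x * x = 1 := by rw [hx, xg_mul, hh, xg_zero]
  have hyy : y * y = 1 := by rw [hy, xg_mul, hh, xg_zero]
  have hn : ns R i = x * y * x := by
    unfold ns
    rw [ng_def, inv_one, h1]
  obtain ⟨η, h2, h3⟩ := exists_sign R ⟨i, hi⟩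
  have h4 := h3 _ hlt 1
  have h5 : D.reflectRoot i (D.simple i) = D.neg (D.simple i) := by
    unfold ChevalleyDatum.reflectRoot
    simp
  have h6 : η (D.simple i) = 1 := by
    rcases (h2 _ hlt).1 with h | h
    · exact h
    · rw [h, h1]
  simp only at h4
  rw [h5, h6, mul_one, hn] at h4
  have h7 : x * y * x * x = y * (x * y * x) := by
    rw [mul_inv_eq_iff_eq_mul] at h4
    exact h4
  have h8 : x * y = y * x * y * x := by
    calc x * y = x * y * (x * x) := by rw [hxx, mul_one]
      _ = x * y * x * x := by group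
      _ = y * (x * y * x) := h7
      _ = y * x * y * x := by group
  have h9 : y * x * y = x * y * x := by
    calc y * x * y = y * (x * y) := by group
      _ = y * (y * x * y * x) := by rw [h8]
      _ = (y * y) * x * y * x := by group
      _ = x * y * x := by rw [hyy, one_mul]
  calc (y * x) ^ 3 = (y * x * y) * (x * y * x) := by
        rw [pow_succ, pow_two]; group
    _ = (x * y * x) * (x * y * x) := by rw [h9]
    _ = x * y * (x * x) * y * x := by group
    _ = x * (y * y) * x := by rw [hxx]; group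
    _ = 1 := by rw [hyy, mul_one, hxx]

include R X in
theorem genD [Finite F] (hF : ∀ x : F, x = 0 ∨ x = 1) {α i ε k : ℕ} {m : ℤ} {w : List ℕ}
    {L : List Stp} (hα : α < D.nroots) (hi : i < D.rank) (hw : ∀ j ∈ w, j < D.rank)
    (hε : wa D w α = ε) (hk : k < D.nroots)
    (a1 : α ≠ D.neg (D.simple i)) (a2 : α ≠ D.simple i)
    (a3 : D.neg (D.neg (D.simple i)) = D.simple i)
    (a4 : D.commTerms (D.neg (D.simple i)) α = []) (a5 : D.commTerms (D.simple i) α = [])
    (h1 : D.neg (D.simple i) ≠ ε) (h2 : D.neg (D.simple i) ≠ D.neg ε)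
    (h3 : D.commTerms ε (D.neg (D.simple i)) = [(k, m, 1, 1)])
    (h4 : k ≠ D.neg (D.simple i)) (h5 : k ≠ D.simple i)
    (h6 : D.commTerms (D.neg (D.simple i)) k = [])
    (h7 : ε ≠ D.simple i) (h9 : D.commTerms (D.simple i) ε = []) (hm : m.natAbs = 1)
    (hchk : chk D [w] L [α, k] [] = true) :
    ∃ a b : D.group F, Subgroup.closure ({a, b} : Set (D.group F)) = ⊤ := by
  have hh := two_eq_zero R hF
  have hs := X.rc.simple_lt i hi
  have hs' := H22.RCComb.neg_lt X.rc hs
  set g := xg R (D.neg (D.simple i)) (1 : F) * xg R (D.simple i) 1 with hg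
  set a := xg R α 1 * g with ha
  set b := nl R w with hb
  set K := Subgroup.closure {a, b} with hK
  have haK : a ∈ K := Subgroup.subset_closure (by simp)
  have hbK : b ∈ K := Subgroup.subset_closure (by simp)
  have c1 : Commute (xg R α (1 : F)) (xg R (D.neg (D.simple i)) 1) :=
    comm_nil R hs' hα a1 (by rw [a3]; exact a2) a4 1 1
  have c2 : Commute (xg R α (1 : F)) (xg R (D.simple i) 1) :=
    comm_nil R hs hα a2 a1 a5 1 1
  have c3 : Commute (xg R α (1 : F)) g := c1.mul_right c2
  have hx2 : xg R α (1 : F) * xg R α 1 = 1 := by rw [xg_mul, hh, xg_zero]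
  have h10 : a ^ 3 = xg R α 1 := by
    rw [ha, c3.mul_pow, gg_cube R hF hi hs, mul_one, pow_succ, sq, hx2, one_mul]
  have hαK : Full R K α := by
    apply full_of_half R hF
    refine ⟨hα, ?_⟩
    rw [← h10]; exact K.pow_mem haK 3
  have hgK : g ∈ K := by
    have := K.mul_mem (K.inv_mem (hαK.2 1)) haK
    rwa [ha, inv_mul_cancel_left] at this
  have hεK : Full R K ε := by
    rw [← hε]; exact full_w R X hw hbK hαK
  have hkK : Full R K k := by
    refine gg_move R hF (δ := D.neg (D.simple i)) hs' (by rw [a3]; exact hs) hk ?_ hεK h1 h2 h3 h4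
      (by rw [a3]; exact h5) h6 (by rw [a3]; exact h7) ?_ (by rw [a3]; exact h9) hm
    · rw [a3]; exact hgK
    · rw [a3]; exact h1.symm
  have hfin : D.group F ≤ K := by
    apply chk_sound R X hchk
    · intro w' hw'
      rw [List.mem_singleton] at hw'
      rw [hw']; exact hbK
    · intro r hr
      simp only [List.mem_cons, List.not_mem_nil, or_false] at hr
      rcases hr with rfl | rfl
      · exact hαK
      · exact hkK
    · intro r hr; cases hr
  refine closure_top (a := a) (b := b) ?_ ?_ hfin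
  · exact (D.group F).mul_mem (xg_mem_group R hα _)
      ((D.group F).mul_mem (xg_mem_group R hs' _) (xg_mem_group R hs _))
  · exact nl_group R X w hw

end H45.Gen2
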