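import Mathlib

/-!
# Jacobi-Trudi type identity and alternating sums of numbers of contingency tables
-/

set_option autoImplicit false

namespace H45.JT

open Finset MvPolynomial

variable (n : ℕ)

/-- geometric series in `x_i t` -/
noncomputable def G (i : Fin n) : PowerSeries (MvPolynomial (Fin n) ℤ) := PowerSeries.mk fun m => (X i : MvPolynomial (Fin n) ℤ) ^ m

/-- generating function of the complete homogeneous polynomials -/
noncomputable def H : PowerSeries (MvPolynomial (Fin n) ℤ) := ∏ i, G n i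

/-- complete homogeneous polynomials -/
noncomputable def h (m : ℕ) : MvPolynomial (Fin n) ℤ := PowerSeries.coeff m (H n)

theorem one_sub_mul_G (i : Fin n) : (1 - PowerSeries.C (X i : MvPolynomial (Fin n) ℤ) * PowerSeries.X) * G n i = 1 := by
  ext1 m
  rw [sub_mul, one_mul, mul_assoc, map_sub, PowerSeries.coeff_C_mul, PowerSeries.coeff_one]
  cases m with
  | zero => simp [G]
  | succ m =>
    rw [PowerSeries.coeff_succ_X_mul, G, PowerSeries.coeff_mk, PowerSeries.coeff_mk, if_neg (by omega)]
    ring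

/-- `∏_{i ≠ k} (1 - x_i t)` -/
noncomputable def P (k : Fin n) : Polynomial (MvPolynomial (Fin n) ℤ) :=
  ∏ i ∈ univ.erase k, (1 - Polynomial.C (X i : MvPolynomial (Fin n) ℤ) * Polynomial.X)

theorem natDegree_P_lt (k : Fin n) : (P n k).natDegree < n := by
  have h1 : (P n k).natDegree ≤ ∑ i ∈ univ.erase k, (1 - Polynomial.C (X i : MvPolynomial (Fin n) ℤ) * Polynomial.X).natDegree :=
    Polynomial.natDegree_prod_le _ _
  have h2 : ∑ i ∈ univ.erase k, (1 - Polynomial.C (X i : MvPolynomial (Fin n) ℤ) * Polynomial.X).natDegree ≤ ∑ _i ∈ univ.erase k, 1 := by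
    apply Finset.sum_le_sum
    intro i _
    compute_degree
  rw [Finset.sum_const, smul_eq_mul, mul_one, Finset.card_erase_of_mem (mem_univ _), card_univ, Fintype.card_fin] at h2
  have := k.isLt
  omega

theorem P_mul_H (k : Fin n) : ((P n k : Polynomial (MvPolynomial (Fin n) ℤ)) : PowerSeries (MvPolynomial (Fin n) ℤ)) * H n = G n k := by
  have h1 : ((P n k : Polynomial (MvPolynomial (Fin n) ℤ)) : PowerSeries (MvPolynomial (Fin n) ℤ)) =
      ∏ i ∈ univ.erase k, (1 - PowerSeries.C (X i : MvPolynomial (Fin n) ℤ) * PowerSeries.X) := by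
    unfold P
    rw [← Polynomial.coeToPowerSeries.ringHom_apply, map_prod]
    apply Finset.prod_congr rfl
    intro i _
    rw [map_sub, map_one, map_mul, Polynomial.coeToPowerSeries.ringHom_apply, Polynomial.coeToPowerSeries.ringHom_apply,
      Polynomial.coe_C, Polynomial.coe_X]
  rw [h1]
  unfold H
  rw [← Finset.mul_prod_erase univ (G n) (mem_univ k), mul_left_comm, ← Finset.prod_mul_distrib]
  rw [Finset.prod_eq_one (fun i _ => one_sub_mul_G n i), mul_one]

/-- extended complete homogeneous polynomials -/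
noncomputable def hh (m i : ℕ) : MvPolynomial (Fin n) ℤ := if i ≤ m then h n (m - i) else 0

theorem X_pow_eq (k : Fin n) (m : ℕ) : (X k : MvPolynomial (Fin n) ℤ) ^ m = ∑ i : Fin n, (P n k).coeff i.val * hh n m i.val := by
  have h1 := congrArg (PowerSeries.coeff m) (P_mul_H n k)
  rw [PowerSeries.coeff_mul] at h1
  have h2 : PowerSeries.coeff m (G n k) = (X k : MvPolynomial (Fin n) ℤ) ^ m := by
    rw [G, PowerSeries.coeff_mk]
  rw [← h2, ← h1, Finset.Nat.sum_antidiagonal_eq_sum_range_succ (fun i j => PowerSeries.coeff i ((P n k : Polynomial (MvPolynomial (Fin n) ℤ)) : PowerSeries (MvPolynomial (Fin n) ℤ)) * PowerSeries.coeff j (H n))]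
  rw [Fin.sum_univ_eq_sum_range (fun i => (P n k).coeff i * hh n m i) n]
  -- compare both with the sum over a large range
  have e1 : ∑ i ∈ range (m + 1), PowerSeries.coeff i ((P n k : Polynomial (MvPolynomial (Fin n) ℤ)) : PowerSeries (MvPolynomial (Fin n) ℤ)) * PowerSeries.coeff (m - i) (H n) =
      ∑ i ∈ range (m + 1), (P n k).coeff i * hh n m i := by
    apply Finset.sum_congr rfl
    intro i hi
    rw [mem_range] at hi
    rw [Polynomial.coeff_coe, hh, if_pos (by omega)]
    rfl
  rw [e1]
  have e2 : ∑ i ∈ range (m + 1), (P n k).coeff i * hh n m i = ∑ i ∈ range (m + 1 + n), (P n k).coeff i * hh n m i := by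
    apply Finset.sum_subset (by intro i hi; rw [mem_range] at hi ⊢; omega)
    intro i _ hi
    rw [mem_range] at hi
    rw [hh, if_neg (by omega), mul_zero]
  have e3 : ∑ i ∈ range n, (P n k).coeff i * hh n m i = ∑ i ∈ range (m + 1 + n), (P n k).coeff i * hh n m i := by
    apply Finset.sum_subset (by intro i hi; rw [mem_range] at hi ⊢; omega)
    intro i _ hi
    rw [mem_range] at hi
    rw [Polynomial.coeff_eq_zero_of_natDegree_lt (lt_of_lt_of_le (natDegree_P_lt n k) (by omega)), zero_mul]
  rw [e2, e3]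

/-- The alternant. -/
noncomputable def alt (l : Fin n → ℕ) : MvPolynomial (Fin n) ℤ :=
  Matrix.det (Matrix.of fun j k : Fin n => (X k : MvPolynomial (Fin n) ℤ) ^ l j)

/-- The Jacobi-Trudi determinant. -/
noncomputable def jt (l : Fin n → ℕ) : MvPolynomial (Fin n) ℤ :=
  Matrix.det (Matrix.of fun i j : Fin n => hh n (l j) i.val)

theorem alt_eq (l : Fin n → ℕ) : alt n l =
    Matrix.det (Matrix.of fun k i : Fin n => (P n k).coeff i.val) * jt n l := by
  unfold alt jt
  rw [← Matrix.det_mul, ← Matrix.det_transpose]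
  congr 1
  ext1 k j
  rw [Matrix.transpose_apply, Matrix.of_apply, X_pow_eq, Matrix.mul_apply]
  rfl

theorem h_zero : h n 0 = 1 := by
  unfold h H
  rw [PowerSeries.coeff_zero_eq_constantCoeff_apply, map_prod]
  apply Finset.prod_eq_one
  intro i _
  rw [← PowerSeries.coeff_zero_eq_constantCoeff_apply, G, PowerSeries.coeff_mk, pow_zero]

theorem alt_id : alt n (fun i => i.val) = Matrix.det (Matrix.of fun k i : Fin n => (P n k).coeff i.val) := by
  rw [alt_eq]
  have : jt n (fun i => i.val) = 1 := by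
    unfold jt
    rw [Matrix.det_of_isUpperTriangular]
    · apply Finset.prod_eq_one
      intro i _
      rw [Matrix.of_apply, hh, if_pos le_rfl, Nat.sub_self, h_zero]
    · intro i j hij
      rw [Matrix.of_apply, hh, if_neg]
      have : j.val < i.val := hij
      exact not_le.2 this
  rw [this, mul_one]

theorem alt_eq_mul (l : Fin n → ℕ) : alt n l = alt n (fun i => i.val) * jt n l := by
  rw [alt_id, ← alt_eq]

/-- expansion of `h m` into monomials -/
theorem h_eq (m : ℕ) : h n m = ∑ l ∈ finsuppAntidiag univ m, monomial l (1 : ℤ) := by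
  unfold h H
  rw [PowerSeries.coeff_prod]
  apply Finset.sum_congr rfl
  intro l _
  rw [MvPolynomial.monomial_eq, C_1, one_mul, Finsupp.prod_fintype _ _ (fun i => pow_zero _)]
  apply Finset.prod_congr rfl
  intro i _
  rw [G, PowerSeries.coeff_mk]

/-- The set of contingency tables. -/
def Tab (a b : Fin n → ℕ) : Set (Fin n → Fin n → ℕ) := {m | (∀ i, ∑ j, m i j = a i) ∧ (∀ j, ∑ i, m i j = b j)}

theorem coeff_prod_h (b : Fin n → ℕ) (a : Fin n →₀ ℕ) : coeff a (∏ j, h n (b j)) = (Nat.card (Tab n a b) : ℤ) := by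
  classical
  simp only [h_eq]
  rw [Finset.prod_univ_sum]
  simp only [← MvPolynomial.monomial_sum_one, MvPolynomial.coeff_sum, MvPolynomial.coeff_monomial]
  rw [Finset.sum_boole]
  rw [← Fintype.card_coe, ← Nat.card_eq_fintype_card]
  congr 1
  apply Nat.card_congr
  refine
    { toFun := fun L => ⟨fun i j => L.1 j i, ?_, ?_⟩
      invFun := fun m => ⟨fun j => Finsupp.equivFunOnFinite.symm (fun i => m.1 i j), ?_⟩
      left_inv := ?_
      right_inv := ?_ }
  · intro i
    have h1 := L.2
    rw [mem_filter] at h1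
    have h2 := DFunLike.congr_fun h1.2 i
    rw [Finsupp.finsetSum_apply] at h2
    exact h2
  · intro j
    have h1 := L.2
    rw [mem_filter, Fintype.mem_piFinset] at h1
    have h2 := h1.1 j
    rw [mem_finsuppAntidiag] at h2
    exact h2.1
  · rw [mem_filter, Fintype.mem_piFinset]
    constructor
    · intro j
      rw [mem_finsuppAntidiag]
      exact ⟨m.2.2 j, subset_univ _⟩
    · ext i
      rw [Finsupp.finsetSum_apply]
      exact m.2.1 i
  · intro L
    apply Subtype.ext
    funext j
    ext i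
    rfl
  · intro m
    rfl

/-- the exponent vector of a function -/
noncomputable def ev (a : Fin n → ℕ) : Fin n →₀ ℕ := Finsupp.equivFunOnFinite.symm a

theorem ev_apply (a : Fin n → ℕ) (i : Fin n) : ev n a i = a i := rfl

theorem coeff_jt (a : Fin n →₀ ℕ) (l : Fin n → ℕ) : coeff a (jt n l) =
    ∑ κ : Equiv.Perm (Fin n), if ∀ i, (κ i).val ≤ l i then
      (Equiv.Perm.sign κ : ℤ) * (Nat.card (Tab n a (fun i => l i - (κ i).val)) : ℤ) else 0 := by
  unfold jt
  rw [Matrix.det_apply', MvPolynomial.coeff_sum]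
  apply Finset.sum_congr rfl
  intro κ _
  have h1 : (((Equiv.Perm.sign κ : ℤˣ) : ℤ) : MvPolynomial (Fin n) ℤ) = C ((Equiv.Perm.sign κ : ℤˣ) : ℤ) := by
    rw [← eq_intCast (C : ℤ →+* MvPolynomial (Fin n) ℤ)]
  rw [h1, coeff_C_mul]
  split_ifs with hκ
  · congr 1
    rw [← coeff_prod_h]
    congr 1
    apply Finset.prod_congr rfl
    intro i _
    rw [Matrix.of_apply, hh, if_pos (hκ i)]
  · push Not at hκ
    obtain ⟨i, hi⟩ := hκ
    rw [Finset.prod_eq_zero (mem_univ i) (by rw [Matrix.of_apply, hh, if_neg (not_le.2 hi)]), coeff_zero, mul_zero]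

theorem alt_expand (l : Fin n → ℕ) : alt n l =
    ∑ κ : Equiv.Perm (Fin n), C ((Equiv.Perm.sign κ : ℤˣ) : ℤ) * monomial (ev n fun i => l (κ i)) 1 := by
  unfold alt
  rw [Matrix.det_apply']
  apply Finset.sum_congr rfl
  intro κ _
  have h1 : (((Equiv.Perm.sign κ : ℤˣ) : ℤ) : MvPolynomial (Fin n) ℤ) = C ((Equiv.Perm.sign κ : ℤˣ) : ℤ) := by
    rw [← eq_intCast (C : ℤ →+* MvPolynomial (Fin n) ℤ)]
  rw [h1, MvPolynomial.monomial_eq, C_1, one_mul, Finsupp.prod_fintype _ _ (fun i => pow_zero _)]
  rfl

theorem coeff_alt (l l' : Fin n → ℕ) (hl : StrictMono l) (hl' : StrictMono l') :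
    coeff (ev n l) (alt n l') = if l = l' then 1 else 0 := by
  rw [alt_expand, MvPolynomial.coeff_sum]
  simp only [coeff_C_mul, coeff_monomial]
  by_cases h : l = l'
  · subst h
    rw [if_pos rfl, Finset.sum_eq_single (1 : Equiv.Perm (Fin n))]
    · simp
    · intro κ _ hκ
      rw [if_neg, mul_zero]
      intro he
      apply hκ
      ext i
      have h1 := DFunLike.congr_fun he i
      rw [ev_apply, ev_apply] at h1
      have h2 := hl.injective h1
      rw [h2]; rfl
    · intro h; exact absurd (mem_univ _) h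
  · rw [if_neg h]
    apply Finset.sum_eq_zero
    intro κ _
    rw [if_neg, mul_zero]
    intro he
    apply h
    have h1 : ∀ i, l' (κ i) = l i := fun i => DFunLike.congr_fun he i
    have hmono : StrictMono κ := by
      intro i j hij
      have := hl hij
      rw [← h1, ← h1] at this
      exact hl'.lt_iff_lt.1 this
    have hid : ∀ i, κ i = i := by
      have := StrictMono.range_inj (f := κ) (g := id) hmono strictMono_id
      have h3 : (κ : Fin n → Fin n) = id := this.1 (by rw [Set.range_id]; exact κ.surjective.range_eq)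
      intro i; rw [h3]; rfl
    funext i
    rw [← h1 i, hid]

/-- The key identity: alternating sums of numbers of contingency tables. -/
theorem key (l l' : Fin n → ℕ) (hl : StrictMono l) (hl' : StrictMono l') :
    (∑ κ : Equiv.Perm (Fin n), if ∀ i, (κ i).val ≤ l i then
      (Equiv.Perm.sign κ : ℤ) * ∑ κ' : Equiv.Perm (Fin n), (if ∀ i, (κ' i).val ≤ l' i then
        (Equiv.Perm.sign κ' : ℤ) * (Nat.card (Tab n (fun i => l i - (κ i).val) (fun i => l' i - (κ' i).val)) : ℤ) else 0) else 0) =
      if l = l' then 1 else 0 := by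
  rw [← coeff_alt n l l' hl hl', alt_eq_mul n l', alt_expand n (fun i => i.val), Finset.sum_mul, MvPolynomial.coeff_sum]
  apply Finset.sum_congr rfl
  intro κ _
  rw [mul_assoc, coeff_C_mul, coeff_monomial_mul']
  have h1 : (ev n (fun i => ((κ i).val)) ≤ ev n l) ↔ ∀ i, (κ i).val ≤ l i := by
    rw [Finsupp.le_def]
    rfl
  simp only [h1]
  split_ifs with h
  · rw [one_mul, coeff_jt]
    rfl
  · rw [mul_zero]

end H45.JT
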