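import Mathlib
import Cfsg.Prelude.Def_Blocks
import Cfsg.Agent.Lib.H18.CharOrtho
import Cfsg.Agent.Lib.H18.CharQuot
import Cfsg.Agent.Lib.H81.DegreeCount
import Cfsg.Agent.Lib.H77.BlkEquiv
import Cfsg.Agent.Lib.H77.FSCount
import Cfsg.Agent.Lib.H4.CenterIndex
import Cfsg.Agent.Lib.H60.MaxClassTwo

/-!
# Generic counting lemmas for the McKay count of SL_2(q)
-/

set_option autoImplicit false
set_option linter.unusedSectionVars false
set_option linter.unusedVariables false
open Cfsg

namespace H45.McKA

universe u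

/-- from the number of elements with given value of `f` to the number of elements with a property of `f` -/
theorem card_pred {X : Type*} [Finite X] (f : X → ℕ) {J : Type*} [Fintype J] (a m : J → ℕ)
    (h : ∀ d, Nat.card {x // f x = d} = ∑ j, if a j = d then m j else 0) (P : ℕ → Prop) [DecidablePred P] :
    Nat.card {x // P (f x)} = ∑ j, if P (a j) then m j else 0 := by
  classical
  have := Fintype.ofFinite X
  set D : Finset ℕ := (Finset.univ.image f) ∪ (Finset.univ.image a) with hD
  have e1 : Nat.card {x // P (f x)} = (Finset.univ.filter (fun x => P (f x))).card := by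
    rw [Nat.card_eq_fintype_card, Fintype.card_subtype]
  have hmaps : ∀ x ∈ Finset.univ.filter (fun x => P (f x)), f x ∈ D := fun x _ =>
    Finset.mem_union_left _ (Finset.mem_image_of_mem _ (Finset.mem_univ _))
  rw [e1, Finset.card_eq_sum_card_fiberwise hmaps]
  have e2 : ∀ d ∈ D, ((Finset.univ.filter (fun x => P (f x))).filter (fun x => f x = d)).card =
      ∑ j, if a j = d then (if P (a j) then m j else 0) else 0 := by
    intro d _
    by_cases hd : P d
    · have : ((Finset.univ.filter (fun x => P (f x))).filter (fun x => f x = d)) =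
          Finset.univ.filter (fun x => f x = d) := by
        ext x
        simp only [Finset.mem_filter, Finset.mem_univ, true_and, and_iff_right_iff_imp]
        rintro rfl; exact hd
      rw [this, ← Fintype.card_subtype, ← Nat.card_eq_fintype_card, h]
      refine Finset.sum_congr rfl fun j _ => ?_
      by_cases hj : a j = d
      · rw [if_pos hj, if_pos hj, if_pos (hj ▸ hd)]
      · rw [if_neg hj, if_neg hj]
    · have : ((Finset.univ.filter (fun x => P (f x))).filter (fun x => f x = d)) = ∅ := by
        ext x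
        simp only [Finset.mem_filter, Finset.mem_univ, true_and, Finset.notMem_empty, iff_false, not_and]
        rintro h1 rfl; exact hd h1
      rw [this, Finset.card_empty]
      symm
      refine Finset.sum_eq_zero fun j _ => ?_
      by_cases hj : a j = d
      · rw [if_pos hj, if_neg (hj ▸ hd)]
      · rw [if_neg hj]
  rw [Finset.sum_congr rfl e2, Finset.sum_comm]
  refine Finset.sum_congr rfl fun j _ => ?_
  rw [Finset.sum_ite_eq, if_pos]
  exact Finset.mem_union_right _ (Finset.mem_image_of_mem _ (Finset.mem_univ _))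

/-- number of irreducible characters with a property of the degree -/
noncomputable def cnt (G : Type u) [Group G] (P : ℕ → Prop) : ℕ :=
  Nat.card {χ : IrrCharacter G // P (charDegree (χ : G → ℂ))}

theorem cnt_iso {A B : Type u} [Group A] [Group B] (e : A ≃* B) (P : ℕ → Prop) : cnt A P = cnt B P := by
  apply Nat.card_congr
  apply Equiv.subtypeEquiv (H77.BlkEquiv.irrE e)
  intro χ
  rw [H77.BlkEquiv.charDegree_irrE]

theorem cnt_sylow {G : Type u} [Group G] [Finite G] {p : ℕ} [Fact p.Prime] (S S₀ : Sylow p G) (P : ℕ → Prop) :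
    cnt (Subgroup.normalizer ((S : Subgroup G) : Set G)) P = cnt (Subgroup.normalizer ((S₀ : Subgroup G) : Set G)) P := by
  obtain ⟨g, hg⟩ := MulAction.exists_smul_eq G S₀ S
  have hS : (S : Subgroup G) = (S₀ : Subgroup G).map (MulAut.conj g).toMonoidHom := by
    rw [← hg, Sylow.coe_subgroup_smul]; rfl
  have hmem : ∀ x : G, g * x * g⁻¹ ∈ Subgroup.normalizer ((S : Subgroup G) : Set G) ↔
      x ∈ Subgroup.normalizer ((S₀ : Subgroup G) : Set G) := by
    intro x
    have key : ∀ y : G, g * y * g⁻¹ ∈ (S : Subgroup G) ↔ y ∈ (S₀ : Subgroup G) := by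
      intro y
      rw [hS]
      constructor
      · rintro ⟨z, hz, hzy⟩
        have h1 : g * z * g⁻¹ = g * y * g⁻¹ := hzy
        have h2 : z = y := by
          have := mul_right_cancel h1
          exact mul_left_cancel this
        rw [← h2]; exact hz
      · intro hy; exact ⟨y, hy, rfl⟩
    rw [Subgroup.mem_normalizer_iff, Subgroup.mem_normalizer_iff]
    constructor
    · intro h y
      rw [← key y, h (g * y * g⁻¹), ← key]
      have : g * x * g⁻¹ * (g * y * g⁻¹) * (g * x * g⁻¹)⁻¹ = g * (x * y * x⁻¹) * g⁻¹ := by group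
      rw [this]
    · intro h y
      obtain ⟨z, rfl⟩ : ∃ z, y = g * z * g⁻¹ := ⟨g⁻¹ * y * g, by group⟩
      have : g * x * g⁻¹ * (g * z * g⁻¹) * (g * x * g⁻¹)⁻¹ = g * (x * z * x⁻¹) * g⁻¹ := by group
      rw [this]
      exact (key z).trans ((h z).trans (key _).symm)
  refine (cnt_iso (P := P) ?_).symm
  exact
    { toFun := fun x => ⟨g * x.1 * g⁻¹, (hmem x.1).2 x.2⟩
      invFun := fun x => ⟨g⁻¹ * x.1 * g, (hmem _).1 (by
        have : g * (g⁻¹ * x.1 * g) * g⁻¹ = x.1 := by group
        rw [this]; exact x.2)⟩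
      left_inv := fun x => Subtype.ext (by change g⁻¹ * (g * x.1 * g⁻¹) * g = x.1; group)
      right_inv := fun x => Subtype.ext (by change g * (g⁻¹ * x.1 * g) * g⁻¹ = x.1; group)
      map_mul' := fun x y => Subtype.ext (by
        change g * (x.1 * y.1) * g⁻¹ = (g * x.1 * g⁻¹) * (g * y.1 * g⁻¹); group) }

theorem cnt_all {G : Type u} [Group G] [Finite G] {P : ℕ → Prop} (h : ∀ χ : IrrCharacter G, P (charDegree (χ : G → ℂ))) :
    cnt G P = Nat.card (ConjClasses G) := by
  have := Fintype.ofFinite G
  rw [cnt, Nat.card_congr (Equiv.subtypeUnivEquiv h), H18.CharOrtho.card_irr_eq_card_conjClasses]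

/-- Itô: an abelian normal subgroup of index prime to `ℓ` -/
theorem cnt_ito {G : Type u} [Group G] [Finite G] {ℓ : ℕ} (A : Subgroup G) [A.Normal]
    (hA : ∀ a ∈ A, ∀ b ∈ A, a * b = b * a) (hidx : ¬ ℓ ∣ A.index) :
    cnt G (fun d => ¬ ℓ ∣ d) = Nat.card (ConjClasses G) := by
  apply cnt_all
  intro χ h
  exact hidx (h.trans (H4.CenterIndex.ito χ.2 (H81.DegreeCount.irr_one_eq χ) A hA))

theorem cnt_not_dvd_card {G : Type u} [Group G] [Finite G] {ℓ : ℕ} (h : ¬ ℓ ∣ Nat.card G) :
    cnt G (fun d => ¬ ℓ ∣ d) = Nat.card (ConjClasses G) := by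
  apply cnt_all
  intro χ h1
  exact h (h1.trans (H81.DegreeCount.charDegree_dvd χ))

theorem card_linear {G : Type u} [Group G] [Finite G] :
    cnt G (fun d => d = 1) = (commutator G).index := by
  rw [← H18.CharQuot.card_hom_eq_index, ← Nat.card_congr (H18.CharQuot.linEquiv G)]
  apply Nat.card_congr
  apply Equiv.subtypeEquivRight
  intro χ
  rw [H81.DegreeCount.irr_one_eq]
  constructor
  · intro h; rw [h, Nat.cast_one]
  · intro h; exact_mod_cast h

/-- a 2-group with commutator subgroup of index four -/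
theorem cnt_two_group {G : Type u} [Group G] [Finite G] (hG : IsPGroup 2 G) {t : G}
    (hc : Nat.card (Subgroup.centralizer ({t} : Set G)) = 4) :
    cnt G (fun d => ¬ 2 ∣ d) = 4 := by
  have : Fact (Nat.Prime 2) := ⟨Nat.prime_two⟩
  rw [← H60.MaxClassTwo.commutator_index_four hG hc, ← card_linear]
  apply Nat.card_congr
  apply Equiv.subtypeEquivRight
  intro χ
  obtain ⟨k, hk⟩ := hG.exists_card_eq
  have h1 := H81.DegreeCount.charDegree_dvd χ
  rw [hk] at h1
  obtain ⟨j, _, hj⟩ := (Nat.dvd_prime_pow Nat.prime_two).1 h1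
  rw [hj]
  constructor
  · intro h
    rcases Nat.eq_zero_or_pos j with h0 | h0
    · rw [h0, pow_zero]
    · exact absurd (dvd_pow_self 2 h0.ne') h
  · intro h
    rw [h]; decide

/-- order 24 with commutator subgroup of order 8 -/
theorem cnt_24 {G : Type u} [Group G] [Finite G] (hG : Nat.card G = 24) (hc : (commutator G).index = 3) :
    cnt G (fun d => ¬ 2 ∣ d) = 4 := by
  classical
  have := Fintype.ofFinite G
  have := Fintype.ofFinite (IrrCharacter G)
  have h1 := H77.FSCount.sum_sq (G := G)
  have h2 := card_linear (G := G)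
  rw [hG] at h1
  rw [hc] at h2
  set X : ℕ → Finset (IrrCharacter G) := fun d => Finset.univ.filter (fun χ => charDegree (χ : G → ℂ) = d) with hX
  have hdeg : ∀ χ : IrrCharacter G, charDegree (χ : G → ℂ) = 1 ∨ charDegree (χ : G → ℂ) = 2 ∨
      charDegree (χ : G → ℂ) = 3 ∨ charDegree (χ : G → ℂ) = 4 := by
    intro χ
    have h3 := H81.DegreeCount.charDegree_pos χ
    have h4 : charDegree (χ : G → ℂ) ^ 2 ≤ 24 := by
      rw [← h1]
      exact Finset.single_le_sum (f := fun χ : IrrCharacter G => charDegree (χ : G → ℂ) ^ 2)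
        (fun _ _ => Nat.zero_le _) (Finset.mem_univ χ)
    have h5 : charDegree (χ : G → ℂ) ≤ 4 := by
      by_contra h6
      push Not at h6
      nlinarith
    omega
  have hsum : ∀ f : ℕ → ℕ, ∑ χ : IrrCharacter G, f (charDegree (χ : G → ℂ)) =
      (X 1).card * f 1 + (X 2).card * f 2 + (X 3).card * f 3 + (X 4).card * f 4 := by
    intro f
    have hmaps : ∀ χ ∈ (Finset.univ : Finset (IrrCharacter G)), charDegree (χ : G → ℂ) ∈ ({1, 2, 3, 4} : Finset ℕ) := by
      intro χ _
      simp only [Finset.mem_insert, Finset.mem_singleton]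
      exact hdeg χ
    rw [← Finset.sum_fiberwise_of_maps_to hmaps]
    have h6 : ∀ d ∈ ({1, 2, 3, 4} : Finset ℕ), ∑ χ ∈ Finset.univ.filter (fun χ : IrrCharacter G => charDegree (χ : G → ℂ) = d),
        f (charDegree (χ : G → ℂ)) = (X d).card * f d := by
      intro d _
      rw [Finset.sum_congr rfl (g := fun _ => f d)]
      · rw [Finset.sum_const, smul_eq_mul]
      · intro χ hχ
        rw [(Finset.mem_filter.1 hχ).2]
    rw [Finset.sum_congr rfl h6]
    rw [Finset.sum_insert (by decide), Finset.sum_insert (by decide), Finset.sum_insert (by decide), Finset.sum_singleton]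
    ring
  have h3 : cnt G (fun d => d = 1) = ∑ χ : IrrCharacter G, (fun d => if d = 1 then 1 else 0) (charDegree (χ : G → ℂ)) := by
    rw [cnt, Nat.card_eq_fintype_card, Fintype.card_subtype, Finset.card_filter]
  have h4 : cnt G (fun d => ¬ 2 ∣ d) = ∑ χ : IrrCharacter G, (fun d => if ¬ 2 ∣ d then 1 else 0) (charDegree (χ : G → ℂ)) := by
    rw [cnt, Nat.card_eq_fintype_card, Fintype.card_subtype, Finset.card_filter]
  have h5 := hsum (fun d => d ^ 2)
  have h3' := h3.trans (hsum (fun d => if d = 1 then 1 else 0))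
  have h4' := h4.trans (hsum (fun d => if ¬ 2 ∣ d then 1 else 0))
  rw [h4']
  rw [h2] at h3'
  rw [h1] at h5
  norm_num at h3' h5 ⊢
  omega

end H45.McKA
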