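import Cfsg.Agent.Lib.H45.McKA
import Cfsg.Agent.Lib.H45.SL2TorusCard
import Cfsg.Agent.Lib.H45.SL2TorusConj
import Cfsg.Agent.Lib.H43.SLOdd
import Cfsg.Agent.S2430
import Cfsg.Agent.S2437

/-!
# McKay count for SL_2(q): odd primes
-/

set_option autoImplicit false
set_option linter.unusedSectionVars false
set_option linter.unusedVariables false
open Cfsg

namespace H45.McKB

open H45.McKA H45.SL2

universe u
variable {F : Type u} [Field F]

local notation "G₀" => Matrix.SpecialLinearGroup (Fin 2) F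

/-- the character side -/
theorem cnt_SL2 [Fintype F] (hodd : Odd (Fintype.card F)) (P : ℕ → Prop) [DecidablePred P] :
    cnt G₀ P = (if P 1 then 1 else 0) + (if P (Fintype.card F) then 1 else 0) +
      (if P (Fintype.card F + 1) then (Fintype.card F - 3) / 2 else 0) +
      (if P ((Fintype.card F + 1) / 2) then 2 else 0) + (if P (Fintype.card F - 1) then (Fintype.card F - 1) / 2 else 0) +
      (if P ((Fintype.card F - 1) / 2) then 2 else 0) := by
  classical
  have h := card_pred (X := IrrCharacter G₀) (fun χ => charDegree (χ : G₀ → ℂ)) (J := Fin 6)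
    ![1, Fintype.card F, Fintype.card F + 1, (Fintype.card F + 1) / 2, Fintype.card F - 1, (Fintype.card F - 1) / 2]
    ![1, 1, (Fintype.card F - 3) / 2, 2, (Fintype.card F - 1) / 2, 2] ?_ P
  · rw [cnt, h, Fin.sum_univ_six]
    rfl
  · intro d
    have h1 := H43.SLOdd.card_deg_odd (F := F) hodd d
    have h2 : Nat.card {χ : IrrCharacter G₀ // (fun χ : IrrCharacter G₀ => charDegree (χ : G₀ → ℂ)) χ = d} =
        Nat.card {χ : IrrCharacter G₀ // (χ : G₀ → ℂ) 1 = (d : ℂ)} := by
      apply Nat.card_congr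
      apply Equiv.subtypeEquivRight
      intro χ
      change charDegree (χ : G₀ → ℂ) = d ↔ _
      rw [H81.DegreeCount.irr_one_eq χ]
      constructor
      · intro h; rw [h]
      · intro h; exact_mod_cast h
    rw [h2, h1, Fin.sum_univ_six]
    change _ = (if 1 = d then 1 else 0) + (if Fintype.card F = d then 1 else 0) +
      (if Fintype.card F + 1 = d then (Fintype.card F - 3) / 2 else 0) +
      (if (Fintype.card F + 1) / 2 = d then 2 else 0) +
      (if Fintype.card F - 1 = d then (Fintype.card F - 1) / 2 else 0) +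
      (if (Fintype.card F - 1) / 2 = d then 2 else 0)
    rw [← add_assoc, ← add_assoc]

/-- odd primes dividing the order of a torus -/
theorem odd_case [Finite F] {T : Subgroup G₀} (hT : TorusLike T) (h2 : (2 : F) ≠ 0)
    {m : ℕ} (hcard : Nat.card T = m)
    (ℓ : ℕ) [Fact ℓ.Prime] (hℓ : ℓ ≠ 2) (hdvd : ℓ ∣ m)
    (hfac : (Nat.card G₀).factorization ℓ = m.factorization ℓ)
    (P : Sylow ℓ G₀) :
    cnt (Subgroup.normalizer ((P : Subgroup G₀) : Set G₀)) (fun d => ¬ ℓ ∣ d) = m / 2 + 3 := by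
  obtain ⟨Q⟩ : Nonempty (Sylow ℓ T) := inferInstance
  have hQcard : Nat.card ((Q : Subgroup T).map T.subtype) = ℓ ^ (Nat.card G₀).factorization ℓ := by
    rw [hfac, ← hcard, Subgroup.card_subtype]
    exact Q.card_eq_multiplicity
  let P0 : Sylow ℓ G₀ := Sylow.ofCard ((Q : Subgroup T).map T.subtype) hQcard
  have hP0 : (P0 : Subgroup G₀) = (Q : Subgroup T).map T.subtype := rfl
  have hP0T : (P0 : Subgroup G₀) ≤ T := by
    rw [hP0]; exact Subgroup.map_subtype_le _
  have hex : ∃ t ∈ (P0 : Subgroup G₀), NonScalar t := by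
    have hc : ℓ ∣ Nat.card (P0 : Subgroup G₀) := by
      rw [hP0, hQcard, hfac]
      apply dvd_pow_self
      have hm : m ≠ 0 := by rw [← hcard]; exact Nat.card_pos.ne'
      exact (((Fact.out : ℓ.Prime).factorization_pos_of_dvd hm hdvd)).ne'
    obtain ⟨x, hx⟩ := exists_prime_orderOf_dvd_card' ℓ hc
    refine ⟨x, x.2, ?_⟩
    have hx' : orderOf (x : G₀) = ℓ := by rw [Subgroup.orderOf_coe]; exact hx
    constructor
    · intro h
      rw [h, orderOf_one] at hx'
      exact (Fact.out : ℓ.Prime).one_lt.ne hx'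
    · intro h
      have h3 : (x : G₀) ^ 2 = 1 := by rw [h, pow_two, neg_mul_neg, one_mul]
      have h4 := orderOf_dvd_of_pow_eq_one h3
      rw [hx'] at h4
      rcases (Nat.dvd_prime Nat.prime_two).1 h4 with h5 | h5
      · exact (Fact.out : ℓ.Prime).one_lt.ne' h5
      · exact hℓ h5
  obtain ⟨t, ht, hns⟩ := hex
  obtain ⟨hc, hn⟩ := Cfsg.Agent.S2430.torus_case hT hP0T ht hns
  rw [cnt_sylow P P0, hn]
  have hidx := (hT.card_normalizer (hP0T ht) hns).2
  rw [cnt_ito (T.subgroupOf (Subgroup.normalizer (T : Set G₀)))]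
  · rw [hT.card_conjClasses_normalizer h2 (hP0T ht) hns, hcard]
  · intro a ha b hb
    apply Subtype.ext
    exact hT.comm a ha b hb
  · rw [hidx]
    intro h
    rcases (Nat.dvd_prime Nat.prime_two).1 h with h5 | h5
    · exact (Fact.out : ℓ.Prime).one_lt.ne' h5
    · exact hℓ h5

/-- the unipotent subgroup -/
def U (F : Type u) [Field F] : Subgroup (Matrix.SpecialLinearGroup (Fin 2) F) where
  carrier := {g | g.1 1 0 = 0 ∧ g.1 0 0 = 1 ∧ g.1 1 1 = 1}
  mul_mem' := by
    rintro a b ⟨ha1, ha2, ha3⟩ ⟨hb1, hb2, hb3⟩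
    refine ⟨?_, ?_, ?_⟩
    · rw [mul_10, ha1, hb1]; ring
    · rw [mul_00, ha2, hb2, hb1]; ring
    · rw [mul_11, ha1, hb3, ha3]; ring
  one_mem' := ⟨one_10, one_00, one_11⟩
  inv_mem' := by
    rintro a ⟨ha1, ha2, ha3⟩
    refine ⟨?_, ?_, ?_⟩
    · rw [inv_10, ha1, neg_zero]
    · rw [inv_00, ha3]
    · rw [inv_11, ha2]

theorem mem_U (g : G₀) : g ∈ U F ↔ g.1 1 0 = 0 ∧ g.1 0 0 = 1 ∧ g.1 1 1 = 1 := Iff.rfl

theorem card_U [Fintype F] : Nat.card (U F) = Fintype.card F := by
  rw [← Nat.card_eq_fintype_card]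
  apply Nat.card_congr
  exact
    { toFun := fun g => g.1.1 0 1
      invFun := fun x => ⟨mk2 1 x 0 1 (by ring), ⟨rfl, rfl, rfl⟩⟩
      left_inv := by
        rintro ⟨g, h1, h2, h3⟩
        apply Subtype.ext
        apply ext4
        · exact h2.symm
        · rfl
        · exact h1.symm
        · exact h3.symm
      right_inv := fun x => rfl }

theorem U_comm : ∀ a ∈ U F, ∀ b ∈ U F, a * b = b * a := by
  rintro a ⟨ha1, ha2, ha3⟩ b ⟨hb1, hb2, hb3⟩
  apply ext4
  · rw [mul_00, mul_00, ha1, hb1]; ring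
  · rw [mul_01, mul_01, ha2, ha3, hb2, hb3]; ring
  · rw [mul_10, mul_10, ha1, hb1]; ring
  · rw [mul_11, mul_11, ha1, hb1]; ring

theorem conj_mem_U {g : G₀} (hg : g.1 1 0 = 0) {x : G₀} (hx : x ∈ U F) : g * x * g⁻¹ ∈ U F := by
  obtain ⟨h1, h2, h3⟩ := hx
  have hd := det_eq g
  rw [hg] at hd
  refine ⟨?_, ?_, ?_⟩
  · rw [mul_10, mul_10, mul_11, inv_00, inv_10, hg, h1]; ring
  · rw [mul_00, mul_00, mul_01, inv_00, inv_10, hg, h1, h2]; linear_combination hd
  · rw [mul_11, mul_10, mul_11, inv_01, inv_11, hg, h1, h3]; linear_combination hd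

theorem normalizer_U : Subgroup.normalizer ((U F : Subgroup G₀) : Set G₀) = Cfsg.Agent.S2437.B F := by
  ext g
  rw [Cfsg.Agent.S2437.mem_B, Subgroup.mem_normalizer_iff]
  constructor
  · intro h
    have h1 := (h (mk2 1 1 0 1 (by ring))).1 ⟨rfl, rfl, rfl⟩
    have h2 := h1.1
    rw [mul_10, mul_10, mul_11, inv_00, inv_10] at h2
    simp only [mk2_00, mk2_01, mk2_10, mk2_11] at h2
    have h3 : g.1 1 0 * g.1 1 0 = 0 := by linear_combination -h2
    exact mul_self_eq_zero.1 h3
  · intro h x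
    constructor
    · exact conj_mem_U h
    · intro hx
      have h1 : (g⁻¹).1 1 0 = 0 := by rw [inv_10, h, neg_zero]
      have h2 := conj_mem_U h1 hx
      have h3 : g⁻¹ * (g * x * g⁻¹) * g⁻¹⁻¹ = x := by group
      rwa [h3] at h2

theorem borel_case [Fintype F] (hodd : Odd (Fintype.card F)) (p : ℕ) [Fact p.Prime] (hp : p ∣ Fintype.card F)
    (S : Sylow p G₀) :
    cnt (Subgroup.normalizer ((S : Subgroup G₀) : Set G₀)) (fun d => ¬ p ∣ d) = Fintype.card F + 3 := by
  have hpp : p.Prime := Fact.out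
  have hq : 1 < Fintype.card F := Fintype.one_lt_card
  have hG := card_SL2 (F := F)
  -- q is a power of p
  obtain ⟨n, hn⟩ : ∃ n, Fintype.card F = p ^ n := by
    obtain ⟨p', _, n, hp', hn⟩ := FiniteField.card' F
    have h1 : p ∣ (p' : ℕ) := by
      rw [hn] at hp
      exact hpp.dvd_of_dvd_pow hp
    have h2 : p = p' := (Nat.prime_dvd_prime_iff_eq hpp hp').1 h1
    exact ⟨n, by rw [hn, h2]⟩
  have hq0 : Fintype.card F ≠ 0 := by omega
  have hq1 : Fintype.card F - 1 ≠ 0 := by omega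
  have hq2 : Fintype.card F + 1 ≠ 0 := by omega
  have h3 : ¬ p ∣ Fintype.card F - 1 := by
    intro h
    have h4 := Nat.dvd_sub hp h
    have h5 : Fintype.card F - (Fintype.card F - 1) = 1 := by omega
    rw [h5] at h4
    exact hpp.one_lt.ne' (Nat.dvd_one.1 h4)
  have h4 : ¬ p ∣ Fintype.card F + 1 := by
    intro h
    have h4 := Nat.dvd_sub h hp
    have h5 : Fintype.card F + 1 - Fintype.card F = 1 := by omega
    rw [h5] at h4
    exact hpp.one_lt.ne' (Nat.dvd_one.1 h4)
  have hfac : (Nat.card G₀).factorization p = n := by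
    rw [hG, Nat.factorization_mul (mul_ne_zero hq0 hq1) hq2, Nat.factorization_mul hq0 hq1,
      Finsupp.add_apply, Finsupp.add_apply, Nat.factorization_eq_zero_of_not_dvd h3,
      Nat.factorization_eq_zero_of_not_dvd h4, hn, Nat.Prime.factorization_pow hpp]
    simp
  have hUcard : Nat.card (U F) = p ^ (Nat.card G₀).factorization p := by
    rw [card_U, hfac, hn]
  let S0 : Sylow p G₀ := Sylow.ofCard (U F) hUcard
  have hS0 : (S0 : Subgroup G₀) = U F := rfl
  rw [cnt_sylow S S0, hS0]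
  have hN : ((U F).subgroupOf (Subgroup.normalizer ((U F : Subgroup G₀) : Set G₀))).Normal := inferInstance
  rw [cnt_ito ((U F).subgroupOf (Subgroup.normalizer ((U F : Subgroup G₀) : Set G₀)))]
  · rw [normalizer_U]
    exact Cfsg.Agent.S2437.result hodd
  · intro a ha b hb
    apply Subtype.ext
    exact U_comm a.1 (Subgroup.mem_subgroupOf.1 ha) b.1 (Subgroup.mem_subgroupOf.1 hb)
  · intro h
    have h5 : ((U F).subgroupOf (Subgroup.normalizer ((U F : Subgroup G₀) : Set G₀))).index ∣ (U F).index := by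
      refine Dvd.intro _ (Subgroup.relIndex_mul_index (H := U F) (K := Subgroup.normalizer ((U F : Subgroup G₀) : Set G₀)) Subgroup.le_normalizer)
    exact S0.not_dvd_index (h.trans h5)

end H45.McKB
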