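import Cfsg.Agent.Lib.H45.McKB
import Cfsg.Agent.Lib.H70.DLen

/-!
# McKay count for SL_2(q): the prime 2
-/

set_option autoImplicit false
set_option linter.unusedSectionVars false
set_option linter.unusedVariables false
open Cfsg

namespace H45.McKC

open H45.McKA H45.SL2

universe u
variable {F : Type u} [Field F]

local notation "G₀" => Matrix.SpecialLinearGroup (Fin 2) F

/-- the extension of a subgroup of a torus-like group by an inverting element -/
def ext {T : Subgroup G₀} (T₂ : Subgroup G₀) (hT₂ : T₂ ≤ T) (h1 : (-1 : G₀) ∈ T₂) (w : G₀)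
    (hww : w * w = -1) (hw : ∀ t ∈ T, w * t * w⁻¹ = t⁻¹) : Subgroup G₀ where
  carrier := {x | x ∈ T₂ ∨ w⁻¹ * x ∈ T₂}
  mul_mem' := by
    have key : ∀ x ∈ T₂, w⁻¹ * x * w = x⁻¹ := by
      intro x hx
      have h := hw x⁻¹ (hT₂ (T₂.inv_mem hx))
      rw [inv_inv] at h
      calc w⁻¹ * x * w = w⁻¹ * (w * x⁻¹ * w⁻¹) * w := by rw [h]
        _ = x⁻¹ := by group
    rintro x y (hx | hx) (hy | hy)
    · left; exact T₂.mul_mem hx hy
    · right
      have : w⁻¹ * (x * y) = (w⁻¹ * x * w) * (w⁻¹ * y) := by group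
      rw [this, key x hx]
      exact T₂.mul_mem (T₂.inv_mem hx) hy
    · right
      have : w⁻¹ * (x * y) = (w⁻¹ * x) * y := by group
      rw [this]; exact T₂.mul_mem hx hy
    · left
      have : x * y = (w * w) * (w⁻¹ * (w⁻¹ * x) * w) * (w⁻¹ * y) := by group
      rw [this, key _ hx, hww]
      exact T₂.mul_mem (T₂.mul_mem h1 (T₂.inv_mem hx)) hy
  one_mem' := Or.inl T₂.one_mem
  inv_mem' := by
    rintro x (hx | hx)
    · left; exact T₂.inv_mem hx
    · right
      have h := hw _ (hT₂ (T₂.inv_mem hx))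
      rw [inv_inv] at h
      have h2 : w⁻¹ * x⁻¹ = (w * w)⁻¹ * (w * (w⁻¹ * x)⁻¹ * w⁻¹) := by group
      rw [h2, h, hww]
      exact T₂.mul_mem (T₂.inv_mem h1) hx

section

variable {T : Subgroup (Matrix.SpecialLinearGroup (Fin 2) F)} {T₂ : Subgroup (Matrix.SpecialLinearGroup (Fin 2) F)}
    (hT₂ : T₂ ≤ T) (h1 : (-1 : Matrix.SpecialLinearGroup (Fin 2) F) ∈ T₂) {w : Matrix.SpecialLinearGroup (Fin 2) F}
    (hww : w * w = -1) (hw : ∀ t ∈ T, w * t * w⁻¹ = t⁻¹) (hwT : w ∉ T)

theorem mem_ext {x : Matrix.SpecialLinearGroup (Fin 2) F} : x ∈ ext T₂ hT₂ h1 w hww hw ↔ x ∈ T₂ ∨ w⁻¹ * x ∈ T₂ := Iff.rfl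

theorem w_mem : w ∈ ext T₂ hT₂ h1 w hww hw := Or.inr (by rw [inv_mul_cancel]; exact T₂.one_mem)

include hwT in
theorem mem_ext_T {x : Matrix.SpecialLinearGroup (Fin 2) F} (hx : x ∈ ext T₂ hT₂ h1 w hww hw) (hxT : x ∈ T) : x ∈ T₂ := by
  rcases hx with h | h
  · exact h
  · exfalso
    apply hwT
    have h3 : w = x * (w⁻¹ * x)⁻¹ := by group
    rw [h3]; exact T.mul_mem hxT (T.inv_mem (hT₂ h))

include hwT in
theorem card_ext [Finite F] : Nat.card (ext T₂ hT₂ h1 w hww hw) = 2 * Nat.card T₂ := by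
  have h3 : Nat.card (ext T₂ hT₂ h1 w hww hw) = Nat.card (T₂ ⊕ T₂) := by
    symm
    apply Nat.card_congr
    refine Equiv.ofBijective (fun x : T₂ ⊕ T₂ => Sum.elim
      (fun a : T₂ => (⟨a.1, Or.inl a.2⟩ : ext T₂ hT₂ h1 w hww hw))
      (fun a : T₂ => (⟨w * a.1, Or.inr (by rw [inv_mul_cancel_left]; exact a.2)⟩ : ext T₂ hT₂ h1 w hww hw)) x) ⟨?_, ?_⟩
    · rintro (⟨a, ha⟩ | ⟨a, ha⟩) (⟨b, hb⟩ | ⟨b, hb⟩) h
      · have h4 : a = b := congrArg Subtype.val h
        subst h4; rfl
      · exfalso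
        have h4 : a = w * b := congrArg Subtype.val h
        apply hwT
        have h5 : w = a * b⁻¹ := by rw [h4]; group
        rw [h5]; exact T.mul_mem (hT₂ ha) (T.inv_mem (hT₂ hb))
      · exfalso
        have h4 : w * a = b := congrArg Subtype.val h
        apply hwT
        have h5 : w = b * a⁻¹ := by rw [← h4]; group
        rw [h5]; exact T.mul_mem (hT₂ hb) (T.inv_mem (hT₂ ha))
      · have h4 : w * a = w * b := congrArg Subtype.val h
        have h5 := mul_left_cancel h4
        subst h5; rfl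
    · rintro ⟨x, hx | hx⟩
      · exact ⟨Sum.inl ⟨x, hx⟩, rfl⟩
      · refine ⟨Sum.inr ⟨_, hx⟩, Subtype.ext ?_⟩
        change w * (w⁻¹ * x) = x
        rw [mul_inv_cancel_left]
  rw [h3, Nat.card_sum]; ring

end

/-- an element of the normalizer of a Sylow 2-subgroup whose square is in it lies in it -/
theorem mem_sylow_of_sq {G : Type u} [Group G] [Finite G] (S : Sylow 2 G) {g : G}
    (hg : g ∈ Subgroup.normalizer ((S : Subgroup G) : Set G)) (hg2 : g * g ∈ (S : Subgroup G)) : g ∈ (S : Subgroup G) := by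
  have h1 : IsPGroup 2 (Subgroup.zpowers g) := by
    obtain ⟨k, hk⟩ := S.isPGroup' ⟨g * g, hg2⟩
    have hk' : (g * g) ^ (2 ^ k) = 1 := congrArg Subtype.val hk
    apply IsPGroup.of_card (n := (Nat.card (Subgroup.zpowers g)).factorization 2)
    rw [Nat.card_zpowers]
    have h2 : orderOf g ∣ 2 ^ (k + 1) := by
      apply orderOf_dvd_of_pow_eq_one
      rw [pow_succ', pow_mul, pow_two]; exact hk'
    obtain ⟨j, _, hj⟩ := (Nat.dvd_prime_pow Nat.prime_two).1 h2
    rw [hj, Nat.Prime.factorization_pow Nat.prime_two]; simp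
  have : Fact (Nat.Prime 2) := ⟨Nat.prime_two⟩
  have h2 := h1.inf_normalizer_sylow S
  have h3 : g ∈ Subgroup.zpowers g ⊓ Subgroup.normalizer ((S : Subgroup G) : Set G) := ⟨Subgroup.mem_zpowers g, hg⟩
  have h4 : g ∈ Subgroup.zpowers g ⊓ (S : Subgroup G) := by
    rw [← h2]; exact h3
  exact h4.2

theorem mem_of_conj [Finite F] {T : Subgroup G₀} (hT : TorusLike T) (S : Sylow 2 G₀) {t w : G₀} (ht : t ∈ T)
    (hns : NonScalar t) (hwS : w ∈ (S : Subgroup G₀)) (hw : ∀ t ∈ T, w * t * w⁻¹ = t⁻¹)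
    (hm1 : (-1 : G₀) ∈ (S : Subgroup G₀)) {g : G₀}
    (hg : g ∈ Subgroup.normalizer ((S : Subgroup G₀) : Set G₀)) (hgt : g * t * g⁻¹ ∈ T) : g ∈ (S : Subgroup G₀) := by
  apply mem_sylow_of_sq S hg
  by_cases hgT : g ∈ T
  · have h1 := (Subgroup.mem_normalizer_iff.1 hg w).1 hwS
    have h2 := (S : Subgroup G₀).mul_mem h1 ((S : Subgroup G₀).inv_mem hwS)
    have h3 : g * w * g⁻¹ * w⁻¹ = g * (w * g⁻¹ * w⁻¹) := by group
    rw [h3, hw _ (T.inv_mem hgT), inv_inv] at h2
    exact h2
  · rw [(hT.outside t ht hns g hgT hgt).1]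
    exact hm1

theorem pow4 {G : Type u} [Group G] (x : G) : x ^ 4 = (x * x) * (x * x) := by
  rw [show (4 : ℕ) = 2 + 2 from rfl, pow_add, pow_two]

/-- the main count for the prime two -/
theorem two_case [Finite F] {T : Subgroup G₀} (hT : TorusLike T) (h2 : (2 : F) ≠ 0) (hcyc : IsCyclic T)
    {m : ℕ} (hcard : Nat.card T = m) (hdvd : 4 ∣ m)
    (hfac : (Nat.card G₀).factorization 2 = m.factorization 2 + 1)
    (P : Sylow 2 G₀) :
    cnt (Subgroup.normalizer ((P : Subgroup G₀) : Set G₀)) (fun d => ¬ 2 ∣ d) = 4 := by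
  have hf2 : Fact (Nat.Prime 2) := ⟨Nat.prime_two⟩
  have hm : m ≠ 0 := by rw [← hcard]; exact Nat.card_pos.ne'
  obtain ⟨Q⟩ : Nonempty (Sylow 2 T) := inferInstance
  obtain ⟨a, ha⟩ : ∃ a, a = m.factorization 2 := ⟨_, rfl⟩
  have ha2 : 2 ≤ a := by
    rw [ha]
    exact (Nat.prime_two.pow_dvd_iff_le_factorization hm).1 hdvd
  obtain ⟨T₂, hT₂def⟩ : ∃ T₂ : Subgroup G₀, T₂ = (Q : Subgroup T).map T.subtype := ⟨_, rfl⟩
  have hT₂card : Nat.card T₂ = 2 ^ a := by
    rw [hT₂def, Subgroup.card_subtype, ha, ← hcard]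
    exact Q.card_eq_multiplicity
  have hT₂T : T₂ ≤ T := by rw [hT₂def]; exact Subgroup.map_subtype_le _
  have hcomm := hT.comm
  -- a nonscalar element
  obtain ⟨t, ht, hns⟩ : ∃ t ∈ T₂, NonScalar t := by
    apply exists_nonscalar
    rw [hT₂card]
    calc 3 ≤ 2 ^ 2 := by norm_num
      _ ≤ 2 ^ a := Nat.pow_le_pow_right (by norm_num) ha2
  -- -1 in T₂
  have hm1 : (-1 : G₀) ∈ T₂ := by
    have h3 : 2 ∣ Nat.card T₂ := by
      rw [hT₂card]; exact dvd_pow_self 2 (by omega)
    obtain ⟨x, hx⟩ := exists_prime_orderOf_dvd_card' 2 h3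
    have hx1 : (x : G₀) * x = 1 := by
      have h4 := pow_orderOf_eq_one x
      rw [hx, pow_two] at h4
      exact congrArg Subtype.val h4
    rcases (hT.sq_iff x (hT₂T x.2)).1 hx1 with h4 | h4
    · exfalso
      have : x = 1 := Subtype.ext h4
      rw [this, orderOf_one] at hx
      omega
    · rw [← h4]; exact x.2
  obtain ⟨w, hwT, hw⟩ := hT.exists_w
  have hww : w * w = -1 := (hT.outside t (hT₂T ht) hns w hwT (by
    rw [hw t (hT₂T ht)]; exact T.inv_mem (hT₂T ht))).1
  obtain ⟨S₀, hS₀def⟩ : ∃ S₀ : Subgroup G₀, S₀ = ext T₂ hT₂T hm1 w hww hw := ⟨_, rfl⟩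
  have hS₀card : Nat.card S₀ = 2 * 2 ^ a := by
    rw [hS₀def, card_ext hT₂T hm1 hww hw hwT, hT₂card]
  have hS₀card' : Nat.card S₀ = 2 ^ (Nat.card G₀).factorization 2 := by
    rw [hS₀card, hfac, ← ha, pow_succ]; ring
  have hT₂S : T₂ ≤ S₀ := by
    rw [hS₀def]; intro x hx; exact Or.inl hx
  have hwS : w ∈ S₀ := by rw [hS₀def]; exact w_mem hT₂T hm1 hww hw
  have hST : ∀ x ∈ S₀, x ∈ T → x ∈ T₂ := by
    rw [hS₀def]; intro x hx hxT; exact mem_ext_T hT₂T hm1 hww hw hwT hx hxT
  have hSmem : ∀ x ∈ S₀, x ∈ T₂ ∨ w⁻¹ * x ∈ T₂ := by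
    rw [hS₀def]; intro x hx; exact hx
  have houts : ∀ x ∈ S₀, x ∉ T → x * x = -1 := by
    intro x hx hxT
    rcases hSmem x hx with h | h
    · exact absurd (hT₂T h) hxT
    · apply (hT.outside t (hT₂T ht) hns x hxT _).1
      have h3 : x * t * x⁻¹ = w * ((w⁻¹ * x) * t * (w⁻¹ * x)⁻¹) * w⁻¹ := by group
      have h4 : (w⁻¹ * x) * t * (w⁻¹ * x)⁻¹ = t := by
        rw [mul_inv_eq_iff_eq_mul]; exact hcomm _ (hT₂T h) _ (hT₂T ht)
      rw [h3, h4, hw t (hT₂T ht)]
      exact T.inv_mem (hT₂T ht)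
  obtain ⟨S, hS⟩ : ∃ S : Sylow 2 G₀, (S : Subgroup G₀) = S₀ := ⟨Sylow.ofCard S₀ hS₀card', rfl⟩
  rw [cnt_sylow P S]
  have hkey : ∀ u ∈ T, NonScalar u → ∀ g ∈ Subgroup.normalizer ((S : Subgroup G₀) : Set G₀), g * u * g⁻¹ ∈ T → g ∈ S₀ := by
    intro u hu hnu g hg hgu
    rw [← hS]
    exact mem_of_conj hT S hu hnu (hS ▸ hwS) hw (hS ▸ hT₂S hm1) hg hgu
  obtain ⟨N, hN⟩ : ∃ N : Subgroup G₀, N = Subgroup.normalizer ((S : Subgroup G₀) : Set G₀) := ⟨_, rfl⟩
  rw [← hN] at hkey ⊢
  have hSN : S₀ ≤ N := by rw [hN, hS]; exact Subgroup.le_normalizer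
  have hNmem : ∀ g ∈ N, ∀ x ∈ S₀, g * x * g⁻¹ ∈ S₀ := by
    intro g hg x hx
    rw [hN, hS] at hg
    exact (Subgroup.mem_normalizer_iff.1 hg x).1 hx
  have hone : (1 : G₀) ≠ -1 := one_ne_neg_one h2
  by_cases ha3 : a = 2
  · -- order eight
    -- the centralizer of t in N
    have hcent : Nat.card (Subgroup.centralizer ({(⟨t, hSN (hT₂S ht)⟩ : N)} : Set N)) = 4 := by
      have h3 : Nat.card T₂ = 4 := by rw [hT₂card, ha3]; rfl
      rw [← h3]
      apply Nat.card_congr
      exact
        { toFun := fun x => ⟨x.1.1, by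
            have h4 := Subgroup.mem_centralizer_singleton_iff.1 x.2
            have h5 : x.1.1 * t = t * x.1.1 := congrArg Subtype.val h4
            have h6 : x.1.1 * t * x.1.1⁻¹ = t := by rw [h5]; group
            have h7 : x.1.1 ∈ S₀ := hkey t (hT₂T ht) hns x.1.1 x.1.2 (by rw [h6]; exact hT₂T ht)
            have h8 : x.1.1 ∈ T := by
              rw [← hT.centralizer_eq t (hT₂T ht) hns, Subgroup.mem_centralizer_singleton_iff]
              exact h5
            exact hST _ h7 h8⟩
          invFun := fun x => ⟨⟨x.1, hSN (hT₂S x.2)⟩, by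
            rw [Subgroup.mem_centralizer_singleton_iff]
            apply Subtype.ext
            exact hcomm _ (hT₂T x.2) _ (hT₂T ht)⟩
          left_inv := fun x => rfl
          right_inv := fun x => rfl }
    set t' : N := ⟨t, hSN (hT₂S ht)⟩ with ht'
    have hNcard := (Subgroup.centralizer ({t'} : Set N)).card_mul_index
    rw [hcent] at hNcard
    -- the index is at most six
    have hidx : (Subgroup.centralizer ({t'} : Set N)).index ≤ 6 := by
      have h3 : Nat.card {s : S₀ // s.1 ≠ 1 ∧ s.1 ≠ -1} = 6 := by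
        have := Fintype.ofFinite S₀
        classical
        have h5 : (Finset.univ : Finset S₀).card = 8 := by
          rw [Finset.card_univ, ← Nat.card_eq_fintype_card, hS₀card, ha3]; norm_num
        have h6 : Nat.card {s : S₀ // s.1 ≠ 1 ∧ s.1 ≠ -1} =
            ((Finset.univ : Finset S₀) \ {(⟨1, S₀.one_mem⟩ : S₀), (⟨-1, hT₂S hm1⟩ : S₀)}).card := by
          rw [Nat.card_eq_fintype_card, Fintype.card_subtype]
          congr 1
          ext x
          simp only [Finset.mem_filter, Finset.mem_univ, true_and, Finset.mem_sdiff, Finset.mem_insert,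
            Finset.mem_singleton, not_or]
          constructor
          · rintro ⟨h7, h8⟩
            exact ⟨fun h => h7 (by rw [h]), fun h => h8 (by rw [h])⟩
          · rintro ⟨h7, h8⟩
            exact ⟨fun h => h7 (Subtype.ext h), fun h => h8 (Subtype.ext h)⟩
        rw [h6, Finset.card_sdiff_of_subset (Finset.subset_univ _), h5, Finset.card_pair]
        intro h7
        exact hone (congrArg Subtype.val h7)
      rw [← h3]
      have hf : ∀ g : N, g.1 * t * g.1⁻¹ ≠ 1 ∧ g.1 * t * g.1⁻¹ ≠ -1 := by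
        intro g
        constructor
        · intro h4
          apply hns.1
          rw [mul_inv_eq_one] at h4
          exact mul_left_cancel (h4.trans (mul_one _).symm)
        · intro h4
          apply hns.2
          rw [mul_inv_eq_iff_eq_mul, neg_mul, one_mul] at h4
          have h5 : g.1 * t = g.1 * (-1) := by rw [h4, mul_neg, mul_one]
          exact mul_left_cancel h5
      let f : (N ⧸ Subgroup.centralizer ({t'} : Set N)) → {s : S₀ // s.1 ≠ 1 ∧ s.1 ≠ -1} := fun q =>
        ⟨⟨q.out.1 * t * q.out.1⁻¹, hNmem _ q.out.2 _ (hT₂S ht)⟩, hf q.out⟩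
      have hfinj : Function.Injective f := by
        intro p q hpq
        have h4 : p.out.1 * t * p.out.1⁻¹ = q.out.1 * t * q.out.1⁻¹ :=
          congrArg (fun z => z.1.1) hpq
        have h5 : p.out⁻¹ * q.out ∈ Subgroup.centralizer ({t'} : Set N) := by
          rw [Subgroup.mem_centralizer_singleton_iff]
          apply Subtype.ext
          change p.out.1⁻¹ * q.out.1 * t = t * (p.out.1⁻¹ * q.out.1)
          calc p.out.1⁻¹ * q.out.1 * t = p.out.1⁻¹ * (q.out.1 * t * q.out.1⁻¹) * q.out.1 := by group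
            _ = p.out.1⁻¹ * (p.out.1 * t * p.out.1⁻¹) * q.out.1 := by rw [h4]
            _ = t * (p.out.1⁻¹ * q.out.1) := by group
        rw [← QuotientGroup.eq, QuotientGroup.out_eq', QuotientGroup.out_eq'] at h5
        exact h5
      exact Nat.card_le_card_of_injective f hfinj
    -- the Sylow subgroup inside N
    obtain ⟨R, hR⟩ : ∃ R : Subgroup N, R = S₀.subgroupOf N := ⟨_, rfl⟩
    have hRcard : Nat.card R = 8 := by
      rw [hR, Nat.card_congr (Subgroup.subgroupOfEquivOfLe hSN).toEquiv, hS₀card, ha3]; norm_num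
    have hRmul := R.card_mul_index
    rw [hRcard] at hRmul
    have hRodd : ¬ 2 ∣ R.index := by
      intro h
      have h3 : R.index ∣ S₀.index := by
        rw [hR]
        exact Dvd.intro _ (Subgroup.relIndex_mul_index hSN)
      rw [← hS] at h3
      exact S.not_dvd_index (h.trans h3)
    have hRn : R.Normal := by
      refine ⟨fun x hx g => ?_⟩
      rw [hR, Subgroup.mem_subgroupOf] at hx ⊢
      exact hNmem g.1 g.2 x.1 hx
    have hRcases : R.index = 1 ∨ R.index = 3 := by omega
    rcases hRcases with h3 | h3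
    · -- a two-group
      have h4 : Nat.card N = 2 ^ 3 := by omega
      exact cnt_two_group (IsPGroup.of_card h4) hcent
    · have h4 : Nat.card N = 24 := by omega
      apply cnt_24 h4
      have hf3 : Fact (Nat.Prime 3) := ⟨Nat.prime_three⟩
      have h5 := H70.DLen.commutator_le_of_index_prime h3
      have h6 := H60.MaxClassTwo.index_centralizer_le t'
      have h7 : Nat.card (commutator N) ∣ 8 := by
        rw [← hRcard]; exact Subgroup.card_dvd_of_le h5
      have h8 : Nat.card (commutator N) = 8 := by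
        have h9 : Nat.card (commutator N) ≤ 8 := Nat.le_of_dvd (by norm_num) h7
        have h10 : 6 ≤ Nat.card (commutator N) := by omega
        interval_cases Nat.card (commutator N) <;> first | rfl | (exfalso; revert h7; decide)
      have h9 := (commutator N).card_mul_index
      rw [h8, h4] at h9
      omega
  · -- order at least 16
    have hNS : N = S₀ := by
      apply le_antisymm _ hSN
      intro g hg
      -- a generator
      have hcyc₂ : IsCyclic T₂ := by
        rw [hT₂def]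
        exact isCyclic_of_surjective _ ((Q : Subgroup T).equivMapOfInjective T.subtype T.subtype_injective).surjective
      obtain ⟨s, hs⟩ := IsCyclic.exists_ofOrder_eq_natCard (α := T₂)
      rw [hT₂card] at hs
      have hs' : orderOf (s : G₀) = 2 ^ a := by rw [Subgroup.orderOf_coe]; exact hs
      have hs4 : (s : G₀) ^ 4 ≠ 1 := by
        intro h
        have h3 := orderOf_dvd_of_pow_eq_one h
        rw [hs'] at h3
        have h4 := Nat.le_of_dvd (by norm_num) h3
        have h5 : 2 ^ 3 ≤ 2 ^ a := Nat.pow_le_pow_right (by norm_num) (by omega)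
        omega
      have hsns : NonScalar (s : G₀) := by
        constructor
        · intro h; apply hs4; rw [h, one_pow]
        · intro h; apply hs4; rw [h]
          have : (-1 : G₀) ^ 4 = ((-1) * (-1)) * ((-1) * (-1)) := pow4 _
          rw [this, neg_mul_neg, one_mul, one_mul]
      apply hkey s (hT₂T s.2) hsns g hg
      by_contra hcon
      have h3 := houts _ (hNmem g hg s (hT₂S s.2)) hcon
      apply hs4
      have h4 : (g * s * g⁻¹) ^ 4 = 1 := by
        have : (g * s * g⁻¹) ^ 4 = ((g * s * g⁻¹) * (g * s * g⁻¹)) * ((g * s * g⁻¹) * (g * s * g⁻¹)) := pow4 _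
        rw [this, h3, neg_mul_neg, one_mul]
      rw [conj_pow, mul_inv_eq_one] at h4
      exact mul_left_cancel (h4.trans (mul_one _).symm)
    rw [hNS]
    have hPG : IsPGroup 2 S₀ := IsPGroup.of_card hS₀card'
    apply cnt_two_group hPG (t := ⟨w, hwS⟩)
    -- the centralizer of w
    have hset : ((Subgroup.centralizer ({(⟨w, hwS⟩ : S₀)} : Set S₀) : Subgroup S₀) : Set S₀) =
        (({(⟨1, S₀.one_mem⟩ : S₀), (⟨-1, hT₂S hm1⟩ : S₀)} : Set S₀) ∪
          {(⟨w, hwS⟩ : S₀), (⟨w * (-1), S₀.mul_mem hwS (hT₂S hm1)⟩ : S₀)}) := by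
      have hA : ∀ x ∈ T₂, x * w = w * x → x = 1 ∨ x = -1 := by
        intro x hx h
        rw [← hT.sq_iff x (hT₂T hx)]
        have h3 := hw x (hT₂T hx)
        rw [← h] at h3
        have h4 : x * w * w⁻¹ = x := by group
        rw [h4] at h3
        calc x * x = x⁻¹ * x := by rw [← h3]
          _ = 1 := inv_mul_cancel x
      ext ⟨x, hx⟩
      rw [SetLike.mem_coe, Subgroup.mem_centralizer_singleton_iff]
      simp only [Set.mem_union, Set.mem_insert_iff, Set.mem_singleton_iff, Subtype.mk.injEq]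
      constructor
      · intro h
        have h3 : x * w = w * x := congrArg Subtype.val h
        rcases hSmem x hx with h4 | h4
        · left; exact hA x h4 h3
        · right
          rcases hA _ h4 (by rw [mul_assoc, h3, inv_mul_cancel_left, mul_inv_cancel_left]) with h5 | h5
          · left; rw [inv_mul_eq_one] at h5; exact h5.symm
          · right; rw [inv_mul_eq_iff_eq_mul] at h5; exact h5
      · rintro ((rfl | rfl) | (rfl | rfl))
        · apply Subtype.ext; change 1 * w = w * 1; rw [one_mul, mul_one]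
        · apply Subtype.ext; change (-1) * w = w * (-1); rw [neg_mul, mul_neg, one_mul, mul_one]
        · rfl
        · apply Subtype.ext; change w * (-1) * w = w * (w * (-1))
          rw [mul_neg, mul_one, neg_mul, mul_neg]
    have h3 : Nat.card (Subgroup.centralizer ({(⟨w, hwS⟩ : S₀)} : Set S₀)) =
        Set.ncard ((Subgroup.centralizer ({(⟨w, hwS⟩ : S₀)} : Set S₀) : Subgroup S₀) : Set S₀) := rfl
    have hww1 : w ≠ w * (-1) := by
      intro h
      apply hone
      exact mul_left_cancel ((mul_one w).trans h)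
    rw [h3, hset, Set.ncard_union_eq, Set.ncard_pair, Set.ncard_pair]
    · intro h; exact hww1 (congrArg Subtype.val h)
    · intro h; exact hone (congrArg Subtype.val h)
    · rw [Set.disjoint_left]
      rintro ⟨x, hx⟩ h4 h5
      simp only [Set.mem_insert_iff, Set.mem_singleton_iff, Subtype.mk.injEq] at h4 h5
      have h6 : x ∈ T := by
        rcases h4 with rfl | rfl
        · exact T.one_mem
        · exact hT.neg_one_mem
      rcases h5 with rfl | rfl
      · exact hwT h6
      · apply hwT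
        have h7 : w = w * (-1) * (-1) := by rw [mul_assoc, neg_mul_neg, one_mul, mul_one]
        rw [h7]; exact T.mul_mem h6 hT.neg_one_mem

end H45.McKC
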