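import Cfsg.Agent.Lib.H45.McKC

/-!
# McKay count for SL_2(q)
-/

set_option autoImplicit false
set_option linter.unusedSectionVars false
set_option linter.unusedVariables false
open Cfsg

namespace H45.McKD

open H45.McKA H45.SL2 H45.McKB H45.McKC

universe u
variable {F : Type u} [Field F]

theorem main [Fintype F] (hodd : Odd (Fintype.card F)) (ℓ : ℕ) [hℓp : Fact ℓ.Prime]
    (S : Sylow ℓ (Matrix.SpecialLinearGroup (Fin 2) F)) :
    cnt (Matrix.SpecialLinearGroup (Fin 2) F) (fun d => ¬ ℓ ∣ d) =
      cnt (Subgroup.normalizer ((S : Subgroup (Matrix.SpecialLinearGroup (Fin 2) F)) : Set (Matrix.SpecialLinearGroup (Fin 2) F)))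
        (fun d => ¬ ℓ ∣ d) := by
  have h2 : (2 : F) ≠ 0 := two_ne_zero_of_odd hodd
  have hq : 1 < Fintype.card F := Fintype.one_lt_card
  have hlp : ℓ.Prime := Fact.out
  have hG := card_SL2 (F := F)
  have hq0 : Fintype.card F ≠ 0 := by omega
  have hq1 : Fintype.card F - 1 ≠ 0 := by omega
  have hq2 : Fintype.card F + 1 ≠ 0 := by omega
  by_cases hdvd : ℓ ∣ Nat.card (Matrix.SpecialLinearGroup (Fin 2) F)
  swap
  · -- trivial Sylow subgroup
    have hS : (S : Subgroup (Matrix.SpecialLinearGroup (Fin 2) F)) = ⊥ := by
      apply Subgroup.eq_bot_of_card_eq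
      rw [S.card_eq_multiplicity, Nat.factorization_eq_zero_of_not_dvd hdvd, pow_zero]
    have hN : Subgroup.normalizer ((S : Subgroup (Matrix.SpecialLinearGroup (Fin 2) F)) : Set (Matrix.SpecialLinearGroup (Fin 2) F)) = ⊤ := by
      rw [hS, eq_top_iff]
      intro g _
      rw [Subgroup.mem_normalizer_iff]
      intro h
      rw [Subgroup.mem_bot, Subgroup.mem_bot]
      constructor
      · rintro rfl; group
      · intro h3
        rw [mul_inv_eq_one] at h3
        exact mul_left_cancel (h3.trans (mul_one _).symm)
    rw [hN]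
    exact (cnt_iso Subgroup.topEquiv _).symm
  · have hcnt := cnt_SL2 (F := F) hodd (fun d => ¬ ℓ ∣ d)
    rw [hcnt]
    have h1' : ¬ ℓ ∣ 1 := fun h => hlp.one_lt.ne' (Nat.dvd_one.1 h)
    have hcard1 : Nat.card (torus (F := F) (1 ^ 2)) = Fintype.card F - 1 := card_torus_split one_ne_zero h2
    have hT1 := torusLike_torus (F := F) (δ := 1 ^ 2) (by simp) h2
    obtain ⟨δ, hδ⟩ := exists_nonsquare (F := F) hodd
    have hδ0 : δ ≠ 0 := by rintro rfl; exact hδ ⟨0, by ring⟩
    have hT2 := torusLike_torus hδ0 h2
    have hcard2 := card_torus_nonsplit hδ h2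
    obtain ⟨k, hk⟩ := hodd
    by_cases hdq : ℓ ∣ Fintype.card F
    · -- the characteristic
      rw [borel_case ⟨k, hk⟩ ℓ hdq S]
      have e1 : ¬ ℓ ∣ Fintype.card F + 1 := fun h => h1' ((Nat.dvd_add_right hdq).1 h)
      have e2 : ¬ ℓ ∣ Fintype.card F - 1 := by
        intro h
        have h4 := Nat.dvd_sub hdq h
        have h5 : Fintype.card F - (Fintype.card F - 1) = 1 := by omega
        rw [h5] at h4
        exact h1' h4
      have e3 : ¬ ℓ ∣ (Fintype.card F + 1) / 2 := by
        intro h
        apply e1
        have : Fintype.card F + 1 = 2 * ((Fintype.card F + 1) / 2) := by omega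
        rw [this]; exact dvd_mul_of_dvd_right h 2
      have e4 : ¬ ℓ ∣ (Fintype.card F - 1) / 2 := by
        intro h
        apply e2
        have : Fintype.card F - 1 = 2 * ((Fintype.card F - 1) / 2) := by omega
        rw [this]; exact dvd_mul_of_dvd_right h 2
      rw [if_pos h1', if_neg (not_not.2 hdq), if_pos e1, if_pos e3, if_pos e2, if_pos e4]
      omega
    · by_cases hl2 : ℓ = 2
      · subst hl2
        have e1 : 2 ∣ Fintype.card F + 1 := by omega
        have e2 : 2 ∣ Fintype.card F - 1 := by omega
        rw [if_pos h1', if_pos hdq, if_neg (not_not.2 e1), if_neg (not_not.2 e2)]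
        have hrhs : cnt (Subgroup.normalizer ((S : Subgroup (Matrix.SpecialLinearGroup (Fin 2) F)) : Set (Matrix.SpecialLinearGroup (Fin 2) F)))
            (fun d => ¬ 2 ∣ d) = 4 := by
          have hfq : (Fintype.card F).factorization 2 = 0 := Nat.factorization_eq_zero_of_not_dvd hdq
          have hone : ∀ n : ℕ, n ≠ 0 → 2 ∣ n → ¬ 4 ∣ n → n.factorization 2 = 1 := by
            intro n hn h3 h4
            have h5 : 1 ≤ n.factorization 2 := (Nat.prime_two.dvd_iff_one_le_factorization hn).1 h3
            by_contra h6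
            apply h4
            exact (Nat.prime_two.pow_dvd_iff_le_factorization hn (k := 2)).2 (by omega)
          by_cases h4 : 4 ∣ Fintype.card F - 1
          · apply two_case hT1 h2 (isCyclic_torus (by simp) h2) hcard1 h4
            rw [hG, Nat.factorization_mul (mul_ne_zero hq0 hq1) hq2, Nat.factorization_mul hq0 hq1,
              Finsupp.add_apply, Finsupp.add_apply, hfq, hone _ hq2 e1 (by omega)]
            ring
          · have h5 : 4 ∣ Fintype.card F + 1 := by omega
            apply two_case hT2 h2 (isCyclic_torus hδ0 h2) hcard2 h5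
            rw [hG, Nat.factorization_mul (mul_ne_zero hq0 hq1) hq2, Nat.factorization_mul hq0 hq1,
              Finsupp.add_apply, Finsupp.add_apply, hfq, hone _ hq1 e2 (by omega)]
            ring
        rw [hrhs]
        by_cases hk2 : 2 ∣ k
        · have e3 : ¬ 2 ∣ (Fintype.card F + 1) / 2 := by omega
          have e4 : 2 ∣ (Fintype.card F - 1) / 2 := by omega
          rw [if_pos e3, if_neg (not_not.2 e4)]
        · have e3 : 2 ∣ (Fintype.card F + 1) / 2 := by omega
          have e4 : ¬ 2 ∣ (Fintype.card F - 1) / 2 := by omega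
          rw [if_neg (not_not.2 e3), if_pos e4]
      · -- odd primes
        have hcop : Nat.Coprime ℓ 2 := (Nat.coprime_primes hlp Nat.prime_two).2 hl2
        have hdiff : ¬ (ℓ ∣ Fintype.card F - 1 ∧ ℓ ∣ Fintype.card F + 1) := by
          rintro ⟨h3, h4⟩
          have h5 := Nat.dvd_sub h4 h3
          have h6 : Fintype.card F + 1 - (Fintype.card F - 1) = 2 := by omega
          rw [h6] at h5
          rcases (Nat.dvd_prime Nat.prime_two).1 h5 with h7 | h7
          · exact hlp.one_lt.ne' h7
          · exact hl2 h7
        have hhalf1 : ℓ ∣ (Fintype.card F + 1) / 2 ↔ ℓ ∣ Fintype.card F + 1 := by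
          have : Fintype.card F + 1 = ((Fintype.card F + 1) / 2) * 2 := by omega
          constructor
          · intro h; rw [this]; exact dvd_mul_of_dvd_left h 2
          · intro h; rw [this] at h; exact hcop.dvd_of_dvd_mul_right h
        have hhalf2 : ℓ ∣ (Fintype.card F - 1) / 2 ↔ ℓ ∣ Fintype.card F - 1 := by
          have : Fintype.card F - 1 = ((Fintype.card F - 1) / 2) * 2 := by omega
          constructor
          · intro h; rw [this]; exact dvd_mul_of_dvd_left h 2
          · intro h; rw [this] at h; exact hcop.dvd_of_dvd_mul_right h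
        have hfq : (Fintype.card F).factorization ℓ = 0 := Nat.factorization_eq_zero_of_not_dvd hdq
        by_cases h3 : ℓ ∣ Fintype.card F - 1
        · have h4 : ¬ ℓ ∣ Fintype.card F + 1 := fun h => hdiff ⟨h3, h⟩
          rw [odd_case hT1 h2 hcard1 ℓ hl2 h3 (by
            rw [hG, Nat.factorization_mul (mul_ne_zero hq0 hq1) hq2, Nat.factorization_mul hq0 hq1,
              Finsupp.add_apply, Finsupp.add_apply, hfq, Nat.factorization_eq_zero_of_not_dvd h4]
            ring) S]
          rw [if_pos h1', if_pos hdq, if_pos h4, if_pos (by rw [hhalf1]; exact h4), if_neg (not_not.2 h3),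
            if_neg (not_not.2 (hhalf2.2 h3))]
          omega
        · have h4 : ℓ ∣ Fintype.card F + 1 := by
            rw [hG] at hdvd
            rcases (hlp.dvd_mul).1 hdvd with h5 | h5
            · rcases (hlp.dvd_mul).1 h5 with h6 | h6
              · exact absurd h6 hdq
              · exact absurd h6 h3
            · exact h5
          rw [odd_case hT2 h2 hcard2 ℓ hl2 h4 (by
            rw [hG, Nat.factorization_mul (mul_ne_zero hq0 hq1) hq2, Nat.factorization_mul hq0 hq1,
              Finsupp.add_apply, Finsupp.add_apply, hfq, Nat.factorization_eq_zero_of_not_dvd h3]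
            ring) S]
          rw [if_pos h1', if_pos hdq, if_neg (not_not.2 h4), if_neg (not_not.2 (hhalf1.2 h4)), if_pos h3,
            if_pos (by rw [hhalf2]; exact h3)]
          omega

end H45.McKD
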