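import Mathlib
import Cfsg.Prelude.Def_LinearParabolics
import Cfsg.Agent.Lib.H45.Labels

/-!
# Orders of the standard parabolic subgroups of `GL_n(q)`
-/

set_option autoImplicit false

namespace H45.PCard

open Matrix Finset

variable {F : Type*} [Field F]

/-- `GL` over a field as matrices with nonzero determinant. -/
noncomputable def glEquiv (ι : Type*) [Fintype ι] [DecidableEq ι] (F : Type*) [Field F] :
    GL ι F ≃ {A : Matrix ι ι F // A.det ≠ 0} where
  toFun g := ⟨g.1, by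
    have := g.det_ne_zero
    exact this⟩
  invFun A := Matrix.GeneralLinearGroup.mkOfDetNeZero A.1 A.2
  left_inv g := by ext; rfl
  right_inv A := rfl

theorem card_GL (ι : Type*) [Fintype ι] [DecidableEq ι] [Fintype F] :
    Nat.card (GL ι F) = ∏ i : Fin (Fintype.card ι), (Fintype.card F ^ Fintype.card ι - Fintype.card F ^ i.val) := by
  rw [← Matrix.card_GL_field]
  apply Nat.card_congr
  exact (Units.mapEquiv (Matrix.reindexAlgEquiv F F (Fintype.equivFin ι)).toMulEquiv).toEquiv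

/-- Block triangular matrices as tuples of blocks and upper entries. -/
noncomputable def blockEquiv {n : ℕ} (ℓ : Fin n → ℕ) (hℓ : ∀ i, ℓ i < n) :
    {M : Matrix (Fin n) (Fin n) F // M.BlockTriangular ℓ ∧ ∀ b : Fin n, (M.toSquareBlock ℓ b.val).det ≠ 0} ≃
      (∀ b : Fin n, {A : Matrix {i // ℓ i = b.val} {i // ℓ i = b.val} F // A.det ≠ 0}) ×
        ({p : Fin n × Fin n // ℓ p.1 < ℓ p.2} → F) where
  toFun M := (fun b => ⟨M.1.toSquareBlock ℓ b.val, M.2.2 b⟩, fun p => M.1 p.1.1 p.1.2)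
  invFun D := ⟨Matrix.of fun i j => if h : ℓ i = ℓ j then (D.1 ⟨ℓ j, hℓ j⟩).1 ⟨i, h⟩ ⟨j, rfl⟩ else
      if h' : ℓ i < ℓ j then D.2 ⟨(i, j), h'⟩ else 0, by
    constructor
    · intro i j hij
      rw [Matrix.of_apply, dif_neg (by omega), dif_neg (by omega)]
    · intro b
      have : (Matrix.of fun i j => if h : ℓ i = ℓ j then (D.1 ⟨ℓ j, hℓ j⟩).1 ⟨i, h⟩ ⟨j, rfl⟩ else
          if h' : ℓ i < ℓ j then D.2 ⟨(i, j), h'⟩ else 0 : Matrix (Fin n) (Fin n) F).toSquareBlock ℓ b.val = (D.1 b).1 := by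
        ext ⟨i, hi⟩ ⟨j, hj⟩
        change (if h : ℓ i = ℓ j then (D.1 ⟨ℓ j, hℓ j⟩).1 ⟨i, h⟩ ⟨j, rfl⟩ else
          if h' : ℓ i < ℓ j then D.2 ⟨(i, j), h'⟩ else 0) = (D.1 b).1 ⟨i, hi⟩ ⟨j, hj⟩
        rw [dif_pos (hi.trans hj.symm)]
        obtain ⟨b, hb⟩ := b
        change ℓ j = b at hj
        subst hj
        rfl
      rw [this]
      exact (D.1 b).2⟩
  left_inv M := by
    apply Subtype.ext
    ext i j
    change (if h : ℓ i = ℓ j then M.1 i j else if h' : ℓ i < ℓ j then M.1 i j else 0) = M.1 i j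
    split_ifs with h h'
    · rfl
    · rfl
    · exact (M.2.1 (by omega)).symm
  right_inv D := by
    apply Prod.ext
    · funext b
      apply Subtype.ext
      ext ⟨i, hi⟩ ⟨j, hj⟩
      change (if h : ℓ i = ℓ j then (D.1 ⟨ℓ j, hℓ j⟩).1 ⟨i, h⟩ ⟨j, rfl⟩ else
        if h' : ℓ i < ℓ j then D.2 ⟨(i, j), h'⟩ else 0) = (D.1 b).1 ⟨i, hi⟩ ⟨j, hj⟩
      rw [dif_pos (hi.trans hj.symm)]
      obtain ⟨b, hb⟩ := b
      change ℓ j = b at hj
      subst hj
      rfl
    · funext ⟨⟨i, j⟩, hp⟩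
      change (if h : ℓ i = ℓ j then (D.1 ⟨ℓ j, hℓ j⟩).1 ⟨i, h⟩ ⟨j, rfl⟩ else
        if h' : ℓ i < ℓ j then D.2 ⟨(i, j), h'⟩ else 0) = D.2 ⟨(i, j), hp⟩
      rw [dif_neg (ne_of_lt hp), dif_pos hp]

theorem det_ne_zero_iff {n : ℕ} (ℓ : Fin n → ℕ) (hℓ : ∀ i, ℓ i < n) (M : Matrix (Fin n) (Fin n) F) (hM : M.BlockTriangular ℓ) :
    M.det ≠ 0 ↔ ∀ b : Fin n, (M.toSquareBlock ℓ b.val).det ≠ 0 := by
  rw [hM.det, Finset.prod_ne_zero_iff]
  constructor
  · intro h b
    by_cases hb : b.val ∈ univ.image ℓ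
    · exact h _ hb
    · have : IsEmpty {i // ℓ i = b.val} := ⟨fun i => hb (mem_image.2 ⟨i.1, mem_univ _, i.2⟩)⟩
      rw [Matrix.det_isEmpty]; exact one_ne_zero
  · intro h a ha
    obtain ⟨i, _, rfl⟩ := mem_image.1 ha
    exact h ⟨ℓ i, hℓ i⟩

noncomputable def parEquiv {n : ℕ} (μ : Fin n → ℕ) (hμ : ∑ i, μ i = n) :
    Cfsg.parabolicGL n F μ ≃ {M : Matrix (Fin n) (Fin n) F // M.BlockTriangular (Cfsg.compLabel μ) ∧
      ∀ b : Fin n, (M.toSquareBlock (Cfsg.compLabel μ) b.val).det ≠ 0} where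
  toFun g := ⟨g.1.1, g.2, (det_ne_zero_iff _ (Labels.compLabel_lt μ hμ) _ g.2).1 (glEquiv _ F g.1).2⟩
  invFun M := ⟨(glEquiv _ F).symm ⟨M.1, (det_ne_zero_iff _ (Labels.compLabel_lt μ hμ) _ M.2.1).2 M.2.2⟩, M.2.1⟩
  left_inv g := by
    apply Subtype.ext
    exact (glEquiv _ F).symm_apply_apply g.1
  right_inv M := rfl

/-- number of pairs of positions in increasing blocks -/
def npairs {n : ℕ} (ℓ : Fin n → ℕ) : ℕ := (univ.filter fun p : Fin n × Fin n => ℓ p.1 < ℓ p.2).card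

theorem card_parabolic [Fintype F] {n : ℕ} (μ : Fin n → ℕ) (hμ : ∑ i, μ i = n) :
    Nat.card (Cfsg.parabolicGL n F μ) =
      (∏ b : Fin n, ∏ i : Fin (μ b), (Fintype.card F ^ μ b - Fintype.card F ^ i.val)) * Fintype.card F ^ npairs (Cfsg.compLabel μ) := by
  classical
  rw [Nat.card_congr ((parEquiv (F := F) μ hμ).trans (blockEquiv _ (Labels.compLabel_lt μ hμ))), Nat.card_prod, Nat.card_pi]
  congr 1
  · apply Finset.prod_congr rfl
    intro b _
    rw [← Nat.card_congr (glEquiv _ F), card_GL]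
    have : Fintype.card {i // Cfsg.compLabel μ i = b.val} = μ b := by
      rw [Fintype.card_subtype, Labels.card_compLabel μ hμ]
    rw [this]
  · rw [Nat.card_eq_fintype_card, Fintype.card_fun, Fintype.card_subtype]
    rfl

theorem npairs_eq {n : ℕ} (μ : Fin n → ℕ) (hμ : ∑ i, μ i = n) :
    npairs (Cfsg.compLabel μ) + ∑ b : Fin n, ∑ i ∈ range (μ b), i = ∑ i ∈ range n, i := by
  set ℓ := Cfsg.compLabel μ with hℓ
  have h1 : (univ.filter fun p : Fin n × Fin n => ℓ p.1 < ℓ p.2).card = (univ.filter fun p : Fin n × Fin n => ℓ p.2 < ℓ p.1).card := by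
    apply Finset.card_bij (fun p _ => (p.2, p.1))
    · intro p hp; rw [mem_filter] at hp ⊢; exact ⟨mem_univ _, hp.2⟩
    · rintro ⟨a, b⟩ _ ⟨c, d⟩ _ h
      rw [Prod.mk.injEq] at h ⊢; exact ⟨h.2, h.1⟩
    · intro p hp; rw [mem_filter] at hp
      exact ⟨(p.2, p.1), by rw [mem_filter]; exact ⟨mem_univ _, hp.2⟩, rfl⟩
  have h2 : (univ.filter fun p : Fin n × Fin n => ℓ p.1 = ℓ p.2).card = ∑ b : Fin n, μ b * μ b := by
    rw [Finset.card_eq_sum_card_fiberwise (f := fun p : Fin n × Fin n => (⟨ℓ p.1, Labels.compLabel_lt μ hμ _⟩ : Fin n)) (t := univ) (fun _ _ => mem_univ _)]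
    apply Finset.sum_congr rfl
    intro b _
    rw [← Labels.card_compLabel μ hμ b, ← Finset.card_product]
    congr 1
    ext ⟨i, j⟩
    simp only [mem_filter, mem_univ, true_and, mem_product, Fin.ext_iff]
    constructor
    · rintro ⟨h1, h2⟩; exact ⟨h2, h1.symm.trans h2⟩
    · rintro ⟨h1, h2⟩; exact ⟨h1.trans h2.symm, h1⟩
  have h3 : (univ.filter fun p : Fin n × Fin n => ℓ p.1 < ℓ p.2).card + (univ.filter fun p : Fin n × Fin n => ℓ p.1 = ℓ p.2).card +
      (univ.filter fun p : Fin n × Fin n => ℓ p.2 < ℓ p.1).card = n * n := by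
    simp only [Finset.card_filter]
    rw [← Finset.sum_add_distrib, ← Finset.sum_add_distrib]
    rw [Finset.sum_congr rfl (g := fun _ => 1) (by
      intro p _
      split_ifs <;> omega)]
    simp
  have h4 : ∀ m : ℕ, (∑ i ∈ range m, i) * 2 + m = m * m := by
    intro m
    rw [Finset.sum_range_id_mul_two]
    cases m with
    | zero => rfl
    | succ m => simp only [Nat.add_sub_cancel]; ring
  have h5 : (∑ b : Fin n, ∑ i ∈ range (μ b), i) * 2 + n = ∑ b : Fin n, μ b * μ b := by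
    rw [Finset.sum_mul]
    have h6 : ∑ b : Fin n, ((∑ i ∈ range (μ b), i) * 2 + μ b) = ∑ b : Fin n, μ b * μ b := Finset.sum_congr rfl (fun b _ => h4 _)
    rw [Finset.sum_add_distrib, hμ] at h6
    exact h6
  have h6 := h4 n
  unfold npairs
  omega

/-- the q-factorial -/
def qfac (q m : ℕ) : ℕ := ∏ j ∈ range m, ∑ l ∈ range (j + 1), q ^ l

theorem prod_GL (q m : ℕ) (hq : 1 ≤ q) : ∏ i : Fin m, (q ^ m - q ^ i.val) = q ^ (∑ i ∈ range m, i) * (q - 1) ^ m * qfac q m := by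
  rw [Fin.prod_univ_eq_prod_range (fun i => q ^ m - q ^ i) m]
  have h1 : ∏ i ∈ range m, (q ^ m - q ^ i) = ∏ i ∈ range m, (q ^ i * (q ^ (m - i) - 1)) := by
    apply Finset.prod_congr rfl
    intro i hi
    rw [mem_range] at hi
    rw [Nat.mul_sub, ← pow_add, mul_one]
    congr 2
    omega
  rw [h1, Finset.prod_mul_distrib, Finset.prod_pow_eq_pow_sum, mul_assoc]
  congr 1
  have h2 : ∏ i ∈ range m, (q ^ (m - i) - 1) = ∏ i ∈ range m, (q ^ (i + 1) - 1) := by
    rw [← Finset.prod_range_reflect]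
    apply Finset.prod_congr rfl
    intro i hi
    rw [mem_range] at hi
    congr 2
    omega
  rw [h2, qfac]
  have h3 : ∀ i, q ^ (i + 1) - 1 = (q - 1) * ∑ l ∈ range (i + 1), q ^ l := by
    intro i
    obtain ⟨r, rfl⟩ : ∃ r, q = r + 1 := ⟨q - 1, by omega⟩
    rw [Nat.add_sub_cancel]
    have h4 := mul_geom_sum ((r : ℤ) + 1) (i + 1)
    rw [add_sub_cancel_right] at h4
    have h5 : 1 ≤ (r + 1) ^ (i + 1) := Nat.one_le_pow _ _ (by omega)
    zify [h5]
    rw [h4]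
  simp only [h3]
  rw [Finset.prod_mul_distrib, Finset.prod_const, card_range]

/-- The index of a parabolic subgroup. -/
theorem index_parabolic [Fintype F] {n : ℕ} (μ : Fin n → ℕ) (hμ : ∑ i, μ i = n) :
    Nat.card (GL (Fin n) F ⧸ Cfsg.parabolicGL n F μ) * ∏ b : Fin n, qfac (Fintype.card F) (μ b) = qfac (Fintype.card F) n := by
  have hq : 1 < Fintype.card F := Fintype.one_lt_card
  have h1 := (Cfsg.parabolicGL n F μ).card_mul_index
  rw [Subgroup.index_eq_card, card_parabolic μ hμ, card_GL] at h1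
  rw [Fintype.card_fin, prod_GL _ _ hq.le] at h1
  rw [Finset.prod_congr rfl (fun b _ => prod_GL (Fintype.card F) (μ b) hq.le)] at h1
  rw [Finset.prod_mul_distrib, Finset.prod_mul_distrib, Finset.prod_pow_eq_pow_sum, Finset.prod_pow_eq_pow_sum, hμ,
    ← npairs_eq μ hμ] at h1
  have hpos : 0 < Fintype.card F ^ (npairs (Cfsg.compLabel μ) + ∑ b : Fin n, ∑ i ∈ range (μ b), i) * (Fintype.card F - 1) ^ n := by
    have : 0 < Fintype.card F - 1 := by omega
    positivity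
  apply Nat.eq_of_mul_eq_mul_left hpos
  rw [← h1, pow_add]
  ring

end H45.PCard
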