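import Cfsg.Agent.Lib.H45.SL2Blk
import Cfsg.Agent.Lib.H45.SLDef
import Cfsg.Agent.Lib.H18.CharQuot

/-!
# The Steinberg character of a central quotient
-/

set_option autoImplicit false
set_option linter.unusedSectionVars false
set_option linter.unusedVariables false

namespace H45.QuoSt

open Cfsg H22.RGD H22.Coord H45.SysDef H47.WDist H47.SysWD H47.WeylComb H45.SL2Blk H45.SLSys H18.CharQuot

universe u

variable {G : Type u} [Group G] [Finite G] {Φ I : Type} [Fintype I] [DecidableEq I] [Finite Φ] {C : RootComb Φ I}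
variable (S : Sys G C) (Z : CoordSys C) (hΓ : S.Γ = ⊤)
  {p : ℕ} [hp : Fact p.Prime] (hU : IsPGroup p S.U) (hH : ¬ p ∣ Nat.card S.H)

theorem st_center {z : G} (hz : z ∈ Subgroup.center G) (hzH : z ∈ S.H) :
    (stI S hΓ : G → ℂ) z = (stI S hΓ : G → ℂ) 1 := by
  show st S hΓ (Subgroup.topEquiv.symm z) = st S hΓ (Subgroup.topEquiv.symm 1)
  unfold st WD.St
  refine Finset.sum_congr rfl fun J _ => ?_
  congr 1
  rw [map_one]
  apply fixed_center
  · rw [Subgroup.mem_center_iff]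
    intro g
    apply Subtype.ext
    exact Subgroup.mem_center_iff.1 hz g
  · apply WD.B_le_par
    show _ ∈ S.B.subgroupOf ⊤
    rw [Subgroup.mem_subgroupOf]
    exact S.H_le_B hzH

theorem stI_van (Z : CoordSys C) (hU : IsPGroup p S.U) (hH : ¬ p ∣ Nat.card S.H) {g : G} (hg : p ∣ orderOf g) :
    (stI S hΓ : G → ℂ) g = 0 := by
  show st S hΓ (Subgroup.topEquiv.symm g) = 0
  apply st_van S Z hΓ hU hH
  rwa [MulEquiv.orderOf_eq]

include Z hΓ hU hH in
theorem main (K : Subgroup G) [K.Normal] (hK : K ≤ Subgroup.center G) (hKH : K ≤ S.H) :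
    ∃ χ : G ⧸ K → ℂ, IsIrrCharacter (G ⧸ K) χ ∧ ∀ P : Sylow p (G ⧸ K), χ 1 = Nat.card P ∧
      ∀ x ∈ P, x ≠ 1 → χ x = 0 := by
  have hker : ∀ n ∈ K, (stI S hΓ : G → ℂ) n = (stI S hΓ : G → ℂ) 1 := fun n hn =>
    st_center S hΓ (hK hn) (hKH hn)
  have hirr := (stI S hΓ).2
  refine ⟨deflate K (stI S hΓ), isIrrCharacter_deflate K hirr hker, fun P => ⟨?_, ?_⟩⟩
  · have h1 : deflate K (stI S hΓ) (1 : G ⧸ K) = (stI S hΓ : G → ℂ) 1 :=
      deflate_mk K (H18.CharBasic.isCharacter_of_isIrr hirr) hker 1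
    rw [h1, stI_one S Z hΓ]
    congr 1
    rw [P.card_eq_multiplicity, ← card_syl S hΓ hU hH]
    congr 1
    have hKp : ¬ p ∣ Nat.card K := fun h => hH (h.trans (Subgroup.card_dvd_of_le hKH))
    have h2 := K.card_mul_index
    rw [← h2, Nat.factorization_mul Nat.card_pos.ne' Subgroup.index_ne_zero_of_finite,
      Finsupp.add_apply, Nat.factorization_eq_zero_of_not_dvd hKp, zero_add]
    rfl
  · intro x hx hx1
    induction x using QuotientGroup.induction_on with
    | H g =>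
      have h1 : deflate K (stI S hΓ) ((g : G) : G ⧸ K) = (stI S hΓ : G → ℂ) g :=
        deflate_mk K (H18.CharBasic.isCharacter_of_isIrr hirr) hker g
      rw [h1]
      apply stI_van S hΓ Z hU hH
      obtain ⟨k, hk⟩ := (IsPGroup.iff_orderOf.1 P.isPGroup') ⟨(g : G ⧸ K), hx⟩
      have h2 : orderOf ((g : G) : G ⧸ K) = p ^ k := by
        rw [← hk]
        exact (Subgroup.orderOf_mk _ _).symm
      have hk0 : k ≠ 0 := by
        rintro rfl
        rw [pow_zero, orderOf_eq_one_iff] at h2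
        exact hx1 h2
      have h3 : orderOf ((g : G) : G ⧸ K) ∣ orderOf g := orderOf_map_dvd (QuotientGroup.mk' K) g
      rw [h2] at h3
      exact (dvd_pow_self p hk0).trans h3

theorem s2544 {F : Type u} [Field F] [Fintype F] (p : ℕ) [Fact p.Prime] [CharP F p] (n : ℕ) (hn : 2 ≤ n) :
    ∃ χ : Matrix.ProjectiveSpecialLinearGroup (Fin n) F → ℂ,
      Cfsg.IsIrrCharacter (Matrix.ProjectiveSpecialLinearGroup (Fin n) F) χ ∧
      ∀ P : Sylow p (Matrix.ProjectiveSpecialLinearGroup (Fin n) F), χ 1 = Nat.card P ∧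
        ∀ x : Matrix.ProjectiveSpecialLinearGroup (Fin n) F, x ∈ P → x ≠ 1 → χ x = 0 := by
  obtain ⟨m, rfl⟩ : ∃ m, n = m + 1 := ⟨n - 1, by omega⟩
  have hm : 1 ≤ m := by omega
  haveI : Finite (SLm m F) := inferInstance
  refine main (p := p) (sys m F) (cs m) (sys_Γ hm) (H45.SLDef.isPGroup_U) (H45.SLDef.not_dvd_card_H)
    (Subgroup.center (SLm m F)) le_rfl ?_
  intro z hz
  apply isMon_of_diag
  intro i j hij
  obtain ⟨r, hr, hr2⟩ := Matrix.SpecialLinearGroup.mem_center_iff.1 hz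
  rw [← hr2]
  simp [hij]

end H45.QuoSt
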