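import Mathlib
import Cfsg.Agent.Lib.H45.SLDef
import Cfsg.Agent.Lib.H19.Ito1
import Cfsg.Agent.Lib.H18.CharInd

/-!
# The blocks of `SL_2(q)`, `q` odd, in defining characteristic (helper45)
-/

set_option autoImplicit false
set_option linter.unusedVariables false
set_option linter.unusedSectionVars false
set_option linter.unusedSimpArgs false

namespace H45.SL2Blk

open H22.RGD H22.Coord H45.SLSys Cfsg H45.DefBlk H45.SysDef H47.WDist H47.SysWD H20.Defect H20.DefZero H20.DefGrp H20.Blk H20.Loc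
open scoped ComplexConjugate

universe u

variable {F : Type u} [Field F] {p : ℕ} [hp : Fact p.Prime] [CharP F p]

theorem card_U : Nat.card (sys 1 F).U = Nat.card F := by
  have hU : (sys 1 F).U = X F ((rc 1).simple 0) := by
    apply le_antisymm
    · refine (sys 1 F).U_le ?_
      intro r hr
      have hr' : r.1.1 < r.1.2 := hr
      have e : r = (rc 1).simple 0 := by
        apply Subtype.ext
        apply Prod.ext
        · apply Fin.ext
          show r.1.1.val = 0
          have := r.1.2.2; have h2 : r.1.1.val < r.1.2.val := hr'; omega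
        · apply Fin.ext
          show r.1.2.val = 1
          have := r.1.2.2; have h2 : r.1.1.val < r.1.2.val := hr'; omega
      rw [e]
      exact le_rfl
    · exact (sys 1 F).X_le_U ((rc 1).simple_pos 0)
  rw [hU]
  symm
  refine Nat.card_congr (Equiv.ofBijective (fun t => (⟨tv ((rc 1).simple 0) t, tv_mem _ _⟩ : X F ((rc 1).simple 0))) ⟨?_, ?_⟩)
  · intro s t h
    have h1 : tv ((rc 1).simple 0) s = tv ((rc 1).simple 0) t := congrArg Subtype.val h
    rw [← tv_apply ((rc 1).simple 0) s, h1, tv_apply]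
  · rintro ⟨_, t, rfl⟩
    exact ⟨t, rfl⟩

variable [Finite F]

theorem fixed_center {G : Type u} [Group G] (H : Subgroup G) {z : G} (hz : z ∈ Subgroup.center G) (hzH : z ∈ H) :
    fixedPointCharacter H z = fixedPointCharacter H 1 := by
  unfold fixedPointCharacter
  congr 2
  have h1 : MulAction.fixedBy (G ⧸ H) z = Set.univ := by
    ext x
    simp only [Set.mem_univ, iff_true, MulAction.mem_fixedBy]
    induction x using QuotientGroup.induction_on with
    | H g =>
      show ((z * g : G) : G ⧸ H) = g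
      rw [eq_comm, QuotientGroup.eq, ← Subgroup.mem_center_iff.1 hz g]
      rw [inv_mul_cancel_left]
      exact hzH
  have h2 : MulAction.fixedBy (G ⧸ H) (1 : G) = Set.univ := by
    ext x; simp [MulAction.mem_fixedBy]
  rw [h1, h2]

/-- the Steinberg character as a character of `SL_2` -/
noncomputable abbrev st2 (F : Type u) [Field F] [Finite F] : IrrCharacter (SLm 1 F) := stI (sys 1 F) (sys_Γ (m := 1) le_rfl)

theorem st2_one : (st2 F : SLm 1 F → ℂ) 1 = Nat.card F := by
  rw [stI_one (sys 1 F) (cs 1) (sys_Γ le_rfl), card_U]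

theorem st2_center {z : SLm 1 F} (hz : z ∈ Subgroup.center (SLm 1 F)) :
    (st2 F : SLm 1 F → ℂ) z = (st2 F : SLm 1 F → ℂ) 1 := by
  show st (sys 1 F) (sys_Γ le_rfl) (Subgroup.topEquiv.symm z) = st (sys 1 F) (sys_Γ le_rfl) (Subgroup.topEquiv.symm 1)
  unfold st WD.St
  refine Finset.sum_congr rfl fun J _ => ?_
  congr 1
  rw [map_one]
  apply fixed_center
  · rw [Subgroup.mem_center_iff]
    intro g
    apply Subtype.ext
    exact Subgroup.mem_center_iff.1 hz g
  · apply WD.B_le_par
    show _ ∈ (sys 1 F).B.subgroupOf ⊤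
    rw [Subgroup.mem_subgroupOf]
    show z ∈ (sys 1 F).B
    apply (sys 1 F).H_le_B
    apply isMon_of_diag
    intro i j hij
    obtain ⟨r, hr, hr2⟩ := Matrix.SpecialLinearGroup.mem_center_iff.1 hz
    rw [← hr2]
    simp [hij]

abbrev SL2 (F : Type u) [Field F] := Matrix.SpecialLinearGroup (Fin 2) F

/-- the Steinberg character -/
noncomputable abbrev st2' (F : Type u) [Field F] [Finite F] : IrrCharacter (SL2 F) := st2 F

theorem neg_one_center : (-1 : SL2 F) ∈ Subgroup.center (SL2 F) := by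
  rw [Subgroup.mem_center_iff]
  intro g
  rw [mul_neg, neg_mul, mul_one, one_mul]

include p in
omit [Finite F] in
theorem neg_one_ne (hp2 : p ≠ 2) : (-1 : SL2 F) ≠ 1 := by
  intro h
  have h1 := congrFun (congrFun (congrArg Subtype.val h) 0) 0
  have h2 : (-1 : F) = 1 := by simpa using h1
  have h3 : (2 : F) = 0 := by linear_combination -h2
  have h4 : p ∣ 2 := (CharP.cast_eq_zero_iff F p 2).1 (by exact_mod_cast h3)
  rcases (Nat.dvd_prime Nat.prime_two).1 h4 with h5 | h5
  · exact hp.out.one_lt.ne' h5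
  · exact hp2 h5

theorem sign_dichotomy (χ : IrrCharacter (SL2 F)) :
    (χ : SL2 F → ℂ) (-1) = (χ : SL2 F → ℂ) 1 ∨ (χ : SL2 F → ℂ) (-1) = -(χ : SL2 F → ℂ) 1 := by
  obtain ⟨ω, hω1, hω⟩ := H19.Ito.central_scalar χ.2 (neg_one_center (F := F))
  have h1 := hω 1
  have h2 := hω (-1)
  rw [mul_one] at h1
  have e : (-1 : SL2 F) * -1 = 1 := by rw [neg_mul_neg, one_mul]
  rw [e, h1] at h2
  have h0 : (χ : SL2 F → ℂ) 1 ≠ 0 := H18.CharBasic.irr_one_ne_zero χ.2
  have h3 : (ω - 1) * (ω + 1) = 0 := by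
    have : (χ : SL2 F → ℂ) 1 * ((ω - 1) * (ω + 1)) = 0 := by
      linear_combination -h2
    rcases mul_eq_zero.1 this with h | h
    · exact absurd h h0
    · exact h
  rcases mul_eq_zero.1 h3 with h | h
  · left; rw [h1, sub_eq_zero.1 h, one_mul]
  · right; rw [h1, eq_neg_of_add_eq_zero_left h]; ring

theorem exists_neg (hp2 : p ≠ 2) : ∃ χ : IrrCharacter (SL2 F), (χ : SL2 F → ℂ) (-1) = -(χ : SL2 F → ℂ) 1 := by
  classical
  by_contra hcon
  push Not at hcon
  have h1 : ∀ χ : IrrCharacter (SL2 F), (χ : SL2 F → ℂ) (-1) = (χ : SL2 F → ℂ) 1 := fun χ =>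
    (sign_dichotomy χ).resolve_right (hcon χ)
  have := Fintype.ofFinite (IrrCharacter (SL2 F))
  have h2 := H18.CharInd.column_orthogonality (-1 : SL2 F) 1
  have h3 := H18.CharInd.column_orthogonality (1 : SL2 F) 1
  have hnc : ¬ IsConj (-1 : SL2 F) 1 := by
    intro h
    rw [isConj_one_left] at h
    exact neg_one_ne hp2 h
  rw [if_neg hnc] at h2
  rw [if_pos (IsConj.refl _)] at h3
  rw [Finset.sum_congr rfl fun χ _ => by rw [h1 χ], h3] at h2
  have h4 : (Nat.card (Subgroup.centralizer ({(1 : SL2 F)} : Set (SL2 F))) : ℂ) ≠ 0 := by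
    exact_mod_cast (Nat.card_pos).ne'
  exact h4 h2

theorem centralChar_center {G : Type u} [Group G] {χ : G → ℂ} {z : G} (hz : z ∈ Subgroup.center G) :
    centralChar χ z = χ z / χ 1 := by
  unfold centralChar
  have : Subgroup.centralizer ({z} : Set G) = ⊤ := by
    rw [eq_top_iff]
    intro g _
    rw [Subgroup.mem_centralizer_iff]
    rintro _ rfl
    exact (Subgroup.mem_center_iff.1 hz g).symm
  rw [this, Subgroup.index_top, Nat.cast_one, one_mul]

/-- characters in the same block have the same sign -/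
theorem same_sign (hp2 : p ≠ 2) {M : Ideal AlgInt} (hM : IsPModular p M) {χ ψ : IrrCharacter (SL2 F)}
    (h : SameBlock M (χ : SL2 F → ℂ) (ψ : SL2 F → ℂ))
    (h1 : (χ : SL2 F → ℂ) (-1) = (χ : SL2 F → ℂ) 1) (h2 : (ψ : SL2 F → ℂ) (-1) = -(ψ : SL2 F → ℂ) 1) : False := by
  have := pm_isPrime hM
  have h3 := h (-1)
  rw [centralChar_center neg_one_center, centralChar_center neg_one_center, h1, h2,
    div_self (H18.CharBasic.irr_one_ne_zero χ.2), neg_div, div_self (H18.CharBasic.irr_one_ne_zero ψ.2)] at h3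
  have h4 : MemLocalIdeal M ((2 : ℕ) : ℂ) := by
    convert h3 using 1
    norm_num
  rw [locI_natCast_iff hM] at h4
  rcases (Nat.dvd_prime Nat.prime_two).1 h4 with h5 | h5
  · exact hp.out.one_lt.ne' h5
  · exact hp2 h5

/-- the trivial character -/
theorem exists_triv : ∃ χ : IrrCharacter (SL2 F), (χ : SL2 F → ℂ) = fun _ => 1 := ⟨⟨_, H18.CharBasic.isIrrCharacter_one⟩, rfl⟩

theorem card_gcd (hp2 : p ≠ 2) : Nat.card (Subgroup.center (SL2 F)) = 2 := by
  rw [H45.SLDef.card_center 2 le_rfl]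
  have := Fintype.ofFinite F
  obtain ⟨k, hk, hc⟩ := FiniteField.card F p
  have hodd : Odd p := hp.out.odd_of_ne_two hp2
  have h1 : Odd (Nat.card F) := by
    rw [Nat.card_eq_fintype_card, hc]
    exact hodd.pow
  apply Nat.gcd_eq_left
  obtain ⟨j, hj⟩ := h1
  rw [hj]
  exact ⟨j, by omega⟩

include p in
theorem eq_st2 {χ : IrrCharacter (SL2 F)} : (χ : SL2 F → ℂ) 1 = (Nat.card F : ℂ) ↔ χ = st2' F := by
  constructor
  · intro h
    have h2 : charDegree (χ : SL2 F → ℂ) = charDegree (st2 F : SLm 1 F → ℂ) := by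
      show ⌊((χ : SL2 F → ℂ) 1).re⌋₊ = ⌊((st2 F : SLm 1 F → ℂ) 1).re⌋₊
      rw [h, st2_one]
    exact eq_stI (sys 1 F) (cs 1) (p := p) (sys_Γ le_rfl) hcj H45.SLDef.isPGroup_U H45.SLDef.not_dvd_card_H (H45.SLDef.gen_p le_rfl)
      (χ := χ) (by
        rw [← fact_stI (sys 1 F) (cs 1) (p := p) (sys_Γ le_rfl) H45.SLDef.isPGroup_U H45.SLDef.not_dvd_card_H]
        exact congrArg (fun k : ℕ => k.factorization p) h2)
  · rintro rfl
    exact st2_one

theorem fact_iff {χ : IrrCharacter (SL2 F)} :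
    (charDegree (χ : SL2 F → ℂ)).factorization p = (Nat.card (SL2 F)).factorization p ↔ χ = st2' F := by
  constructor
  · intro h
    exact eq_stI (sys 1 F) (cs 1) (p := p) (sys_Γ le_rfl) hcj H45.SLDef.isPGroup_U H45.SLDef.not_dvd_card_H (H45.SLDef.gen_p le_rfl)
      (χ := χ) h
  · rintro rfl
    exact fact_stI (sys 1 F) (cs 1) (p := p) (sys_Γ le_rfl) H45.SLDef.isPGroup_U H45.SLDef.not_dvd_card_H

theorem blockOf_st2 {M : Ideal AlgInt} (hM : IsPModular p M) : blockOf M ((st2' F) : SL2 F → ℂ) = {st2' F} :=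
  blockOf_eq_singleton hM (fact_iff.2 rfl)

theorem full_of_ne {M : Ideal AlgInt} (hM : IsPModular p M) {χ : IrrCharacter (SL2 F)} (h : χ ≠ st2' F) :
    blockDefect p (blockOf M (χ : SL2 F → ℂ)) = (Nat.card (SL2 F)).factorization p := by
  have := pm_isPrime hM
  refine (zero_or_full hM H45.FlagBT.bt (isPBlock_blockOf χ)).resolve_left ?_
  rw [blockDefect_eq_zero_iff hM (isPBlock_blockOf _) (mem_blockOf_self _), fact_iff]
  exact h

theorem main (hp2 : p ≠ 2) {M : Ideal AlgInt} (hM : IsPModular p M) :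
    ∃ Bp Bm : Set (IrrCharacter (SL2 F)), IsPBlock M Bp ∧ IsPBlock M Bm ∧
      Bp = {χ : IrrCharacter (SL2 F) | (χ : SL2 F → ℂ) (-1) = (χ : SL2 F → ℂ) 1 ∧ (χ : SL2 F → ℂ) 1 ≠ (Nat.card F : ℂ)} ∧
      Bm = {χ : IrrCharacter (SL2 F) | (χ : SL2 F → ℂ) (-1) = -(χ : SL2 F → ℂ) 1} ∧
      blockDefect p Bp = (Nat.card (SL2 F)).factorization p ∧ blockDefect p Bm = (Nat.card (SL2 F)).factorization p ∧
      ∀ B, IsPBlock M B → B = {st2' F} ∨ B = Bp ∨ B = Bm := by
  classical
  have hMp := pm_isPrime hM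
  obtain ⟨χp, hχp⟩ := exists_triv (F := F)
  obtain ⟨χm, hχm⟩ := exists_neg (F := F) hp2
  have hq : 1 < Nat.card F := Finite.one_lt_card
  have hpne : χp ≠ st2' F := by
    intro h
    rw [← eq_st2 (p := p), hχp] at h
    have h' : (1 : ℂ) = (Nat.card F : ℂ) := h
    have h2 : (1 : ℕ) = Nat.card F := by exact_mod_cast h'
    omega
  have hst1 : ((st2' F) : SL2 F → ℂ) (-1) = ((st2' F) : SL2 F → ℂ) 1 := st2_center neg_one_center
  have hmne : χm ≠ st2' F := by
    rintro rfl
    rw [hst1] at hχm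
    have h0 : ((st2' F) : SL2 F → ℂ) 1 ≠ 0 := H18.CharBasic.irr_one_ne_zero (st2' F).2
    apply h0
    linear_combination (1 / 2) * hχm
  have hBp := isPBlock_blockOf (M := M) χp
  have hBm := isPBlock_blockOf (M := M) χm
  have hfp := full_of_ne hM hpne
  have hfm := full_of_ne hM hmne
  set Bp := blockOf M (χp : SL2 F → ℂ) with hBpdef
  set Bm := blockOf M (χm : SL2 F → ℂ) with hBmdef
  have hχp1 : (χp : SL2 F → ℂ) (-1) = (χp : SL2 F → ℂ) 1 := by rw [hχp]
  have hBne : Bp ≠ Bm := by
    intro h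
    have h1 : χm ∈ Bp := by rw [h]; exact mem_blockOf_self _
    exact same_sign hp2 hM (mem_blockOf.1 h1) hχp1 hχm
  -- the number of full blocks is two
  obtain ⟨P, hP⟩ := H45.SLDef.exists_hC (F := F) (p := p) (m := 1) le_rfl
  have hcard := card_full hM P hP (H45.SLDef.center_regular le_rfl)
  have hcard2 : Nat.card {B : Set (IrrCharacter (SL2 F)) // IsPBlock M B ∧
      blockDefect p B = (Nat.card (SL2 F)).factorization p} = 2 := hcard.trans (card_gcd (F := F) (p := p) hp2)
  have hfull : ∀ B, IsPBlock M B → blockDefect p B = (Nat.card (SL2 F)).factorization p → B = Bp ∨ B = Bm := by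
    intro B hB hd
    by_contra hcon
    push Not at hcon
    have hinj : Function.Injective (fun i : Fin 3 => (if i = 0 then (⟨Bp, hBp, hfp⟩ : {B : Set (IrrCharacter (SL2 F)) // IsPBlock M B ∧
      blockDefect p B = (Nat.card (SL2 F)).factorization p}) else if i = 1 then ⟨Bm, hBm, hfm⟩ else ⟨B, hB, hd⟩)) := by
      intro i j hij
      fin_cases i <;> fin_cases j <;> simp at hij ⊢ <;> first | exact hBne hij | exact hBne hij.symm | exact hcon.1 hij | exact hcon.1 hij.symm | exact hcon.2 hij | exact hcon.2 hij.symm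
    have : Finite {B : Set (IrrCharacter (SL2 F)) // IsPBlock M B ∧
      blockDefect p B = (Nat.card (SL2 F)).factorization p} := Subtype.finite
    have h3 := Nat.card_le_card_of_injective _ hinj
    rw [hcard2, Nat.card_fin] at h3
    omega
  have hst : blockOf M ((st2' F) : SL2 F → ℂ) = {st2' F} := blockOf_st2 hM
  have hstp : st2' F ∉ Bp := by
    intro h
    have h1 : Bp = blockOf M ((st2' F) : SL2 F → ℂ) := isPBlock_eq hBp h
    have h2 : χp ∈ Bp := mem_blockOf_self _
    rw [h1, hst] at h2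
    exact hpne h2
  have hmem : ∀ χ : IrrCharacter (SL2 F), χ ≠ st2' F → χ ∈ Bp ∨ χ ∈ Bm := by
    intro χ hχ
    rcases hfull _ (isPBlock_blockOf χ) (full_of_ne hM hχ) with h | h
    · left; rw [← h]; exact mem_blockOf_self _
    · right; rw [← h]; exact mem_blockOf_self _
  refine ⟨Bp, Bm, hBp, hBm, ?_, ?_, hfp, hfm, ?_⟩
  · ext χ
    constructor
    · intro h
      constructor
      · rcases sign_dichotomy χ with h1 | h1
        · exact h1
        · exact absurd (same_sign hp2 hM (mem_blockOf.1 h) hχp1 h1) id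
      · intro h1
        rw [eq_st2 (p := p)] at h1
        rw [h1] at h
        exact hstp h
    · rintro ⟨h1, h2⟩
      rw [Ne, eq_st2 (p := p)] at h2
      refine (hmem χ h2).resolve_right ?_
      intro h3
      have h4 : SameBlock M (χ : SL2 F → ℂ) (χm : SL2 F → ℂ) := sameBlock_symm (mem_blockOf.1 h3)
      exact same_sign hp2 hM h4 h1 hχm
  · ext χ
    constructor
    · intro h
      rcases sign_dichotomy χ with h1 | h1
      · exact absurd (same_sign hp2 hM (sameBlock_symm (mem_blockOf.1 h)) h1 hχm) id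
      · exact h1
    · intro h1
      have h2 : χ ≠ st2' F := by
        rintro rfl
        have h1' : ((st2' F) : SL2 F → ℂ) (-1) = -((st2' F) : SL2 F → ℂ) 1 := h1
        rw [hst1] at h1'
        have h0 : ((st2' F) : SL2 F → ℂ) 1 ≠ 0 := H18.CharBasic.irr_one_ne_zero (st2' F).2
        apply h0
        linear_combination (1 / 2) * h1'
      refine (hmem χ h2).resolve_left ?_
      intro h3
      exact same_sign hp2 hM (mem_blockOf.1 h3) hχp1 h1
  · intro B hB
    obtain ⟨χ, rfl⟩ := hB
    by_cases h : χ = st2' F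
    · left; rw [h]; exact hst
    · right; exact hfull _ (isPBlock_blockOf χ) (full_of_ne hM h)

/-- Sylow subgroups are defect groups of blocks of full defect -/
theorem sylow_defect {G : Type u} [Group G] [Finite G] {M : Ideal AlgInt} (hM : IsPModular p M) {B : Set (IrrCharacter G)}
    (hB : IsPBlock M B) (h : blockDefect p B = (Nat.card G).factorization p) (P : Sylow p G) :
    IsDefectGroup p M B (P : Subgroup G) := by
  obtain ⟨D, hD⟩ := exists_isDefectGroup hM hB
  have h1 := card_defectGroup hM hB hD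
  rw [h] at h1
  set Q : Sylow p G := Sylow.ofCard D h1 with hQ
  obtain ⟨g, hg⟩ := MulAction.exists_smul_eq G Q P
  have h2 := isDefectGroup_map_conj hD g
  have h3 : D.map (MulAut.conj g).toMonoidHom = (P : Subgroup G) := by
    rw [← hg, Sylow.coe_subgroup_smul]
    rfl
  rwa [h3] at h2

end H45.SL2Blk
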