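import Mathlib

/-!
# The alternating sum over Hessenberg permutations of ordered products (helper45)
-/

set_option autoImplicit false
set_option linter.unusedSectionVars false

namespace H45.StA

open Finset Equiv

variable {α : Type*} [Fintype α] (A : ℕ → α → α → ℂ) (e : α → ℂ)

/-- ordered products applied to a vector -/
noncomputable def P : (k : ℕ) → (Fin k → ℕ) → α → ℂ
  | 0, _ => e
  | k + 1, μ => fun X => ∑ Y, A (μ 0) X Y * P k (fun i => μ i.succ) Y

theorem P_zero (μ : Fin 0 → ℕ) (X : α) : P A e 0 μ X = e X := rfl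

theorem P_succ (k : ℕ) (μ : Fin (k + 1) → ℕ) (X : α) :
    P A e (k + 1) μ X = ∑ Y, A (μ 0) X Y * P A e k (fun i => μ i.succ) Y := rfl

/-- the composition -/
def mu {n : ℕ} (κ : Perm (Fin n)) (s : ℕ) : Fin n → ℕ := fun i =>
  1 + i.val - (κ i).val + (if (κ i).val = 0 then s else 0)

/-- the alternating sum -/
noncomputable def T (n s : ℕ) (X : α) : ℂ :=
  ∑ κ : Perm (Fin n), if ∀ i : Fin n, (κ i).val ≤ 1 + i.val then
    ((Equiv.Perm.sign κ : ℤ) : ℂ) * P A e n (mu κ s) X else 0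

theorem T_zero (s : ℕ) (X : α) : T A e 0 s X = e X := by
  unfold T
  rw [Fintype.sum_subsingleton _ 1, if_pos (fun i => i.elim0), Equiv.Perm.sign_one, P_zero]
  simp

variable (hA0 : ∀ X (f : α → ℂ), ∑ Y, A 0 X Y * f Y = f X)

theorem term_zero {n : ℕ} (s : ℕ) (X : α) (κ' : Perm (Fin n)) :
    (if ∀ i : Fin (n + 1), (Equiv.Perm.decomposeFin.symm (0, κ') i).val ≤ 1 + i.val then
      ((Equiv.Perm.sign (Equiv.Perm.decomposeFin.symm (0, κ')) : ℤ) : ℂ) *
        P A e (n + 1) (mu (Equiv.Perm.decomposeFin.symm (0, κ')) s) X else 0) =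
    ∑ Y, A (1 + s) X Y * (if ∀ i : Fin n, (κ' i).val ≤ 1 + i.val then
      ((Equiv.Perm.sign κ' : ℤ) : ℂ) * P A e n (mu κ' 0) Y else 0) := by
  have h0 : (Equiv.Perm.decomposeFin.symm ((0 : Fin (n + 1)), κ')) 0 = 0 := Equiv.Perm.decomposeFin_symm_apply_zero _ _
  have hs : ∀ i : Fin n, (Equiv.Perm.decomposeFin.symm ((0 : Fin (n + 1)), κ')) i.succ = (κ' i).succ := by
    intro i
    rw [Equiv.Perm.decomposeFin_symm_apply_succ, Equiv.swap_self]; rfl
  have hcond : (∀ i : Fin (n + 1), (Equiv.Perm.decomposeFin.symm ((0 : Fin (n + 1)), κ') i).val ≤ 1 + i.val) ↔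
      ∀ i : Fin n, (κ' i).val ≤ 1 + i.val := by
    rw [Fin.forall_fin_succ]
    rw [h0]
    constructor
    · rintro ⟨_, h⟩ i
      have := h i
      rw [hs, Fin.val_succ, Fin.val_succ] at this
      omega
    · intro h
      refine ⟨by simp, fun i => ?_⟩
      rw [hs, Fin.val_succ, Fin.val_succ]
      have := h i
      omega
  have hmu0 : mu (Equiv.Perm.decomposeFin.symm ((0 : Fin (n + 1)), κ')) s 0 = 1 + s := by
    unfold mu; rw [h0]; simp
  have hmus : (fun i : Fin n => mu (Equiv.Perm.decomposeFin.symm ((0 : Fin (n + 1)), κ')) s i.succ) = mu κ' 0 := by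
    funext i
    unfold mu; rw [hs, Fin.val_succ, Fin.val_succ, if_neg (by omega)]
    split_ifs <;> omega
  by_cases hc : ∀ i : Fin n, (κ' i).val ≤ 1 + i.val
  · rw [if_pos (hcond.2 hc), P_succ, hmu0, hmus, mul_sum]
    refine Finset.sum_congr rfl fun Y _ => ?_
    rw [if_pos hc, Equiv.Perm.decomposeFin.symm_sign, if_pos rfl]
    push_cast
    ring
  · rw [if_neg (fun h => hc (hcond.1 h))]
    symm
    refine Finset.sum_eq_zero fun Y _ => ?_
    rw [if_neg hc, mul_zero]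

include hA0 in
theorem term_one {n : ℕ} (s : ℕ) (X : α) (κ' : Perm (Fin (n + 1))) :
    (if ∀ i : Fin (n + 2), (Equiv.Perm.decomposeFin.symm (1, κ') i).val ≤ 1 + i.val then
      ((Equiv.Perm.sign (Equiv.Perm.decomposeFin.symm (1, κ')) : ℤ) : ℂ) *
        P A e (n + 2) (mu (Equiv.Perm.decomposeFin.symm (1, κ')) s) X else 0) =
    - (if ∀ i : Fin (n + 1), (κ' i).val ≤ 1 + i.val then
      ((Equiv.Perm.sign κ' : ℤ) : ℂ) * P A e (n + 1) (mu κ' (s + 1)) X else 0) := by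
  have h0 : (Equiv.Perm.decomposeFin.symm ((1 : Fin (n + 2)), κ')) 0 = 1 := Equiv.Perm.decomposeFin_symm_apply_zero _ _
  have hs : ∀ i : Fin (n + 1), ((Equiv.Perm.decomposeFin.symm ((1 : Fin (n + 2)), κ')) i.succ).val =
      if (κ' i).val = 0 then 0 else (κ' i).val + 1 := by
    intro i
    rw [Equiv.Perm.decomposeFin_symm_apply_succ]
    by_cases h : (κ' i).val = 0
    · rw [if_pos h]
      have h2 : (κ' i).succ = 1 := by
        apply Fin.ext; rw [Fin.val_succ, h]; rfl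
      rw [h2, Equiv.swap_apply_right]; rfl
    · rw [if_neg h, Equiv.swap_apply_of_ne_of_ne]
      · rw [Fin.val_succ]
      · exact Fin.succ_ne_zero _
      · intro h2
        apply h
        have := congrArg Fin.val h2
        rw [Fin.val_succ] at this
        have h3 : ((1 : Fin (n + 2)) : ℕ) = 1 := rfl
        omega
  have hcond : (∀ i : Fin (n + 2), (Equiv.Perm.decomposeFin.symm ((1 : Fin (n + 2)), κ') i).val ≤ 1 + i.val) ↔
      ∀ i : Fin (n + 1), (κ' i).val ≤ 1 + i.val := by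
    rw [Fin.forall_fin_succ]
    rw [h0]
    constructor
    · rintro ⟨_, h⟩ i
      have := h i
      rw [hs, Fin.val_succ] at this
      split_ifs at this <;> omega
    · intro h
      refine ⟨by simp, fun i => ?_⟩
      rw [hs, Fin.val_succ]
      have := h i
      split_ifs <;> omega
  have hmu0 : mu (Equiv.Perm.decomposeFin.symm ((1 : Fin (n + 2)), κ')) s 0 = 0 := by
    unfold mu; rw [h0]; simp
  have hmus : (fun i : Fin (n + 1) => mu (Equiv.Perm.decomposeFin.symm ((1 : Fin (n + 2)), κ')) s i.succ) = mu κ' (s + 1) := by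
    funext i
    unfold mu; rw [hs, Fin.val_succ]
    by_cases h : (κ' i).val = 0
    · rw [if_pos h, if_pos rfl, if_pos h]; omega
    · rw [if_neg h, if_neg (by omega), if_neg h]; omega
  by_cases hc : ∀ i : Fin (n + 1), (κ' i).val ≤ 1 + i.val
  · rw [if_pos (hcond.2 hc), P_succ, hmu0, hmus, hA0, if_pos hc, Equiv.Perm.decomposeFin.symm_sign,
      if_neg (by simp)]
    push_cast
    ring
  · rw [if_neg (fun h => hc (hcond.1 h)), if_neg hc, neg_zero]

theorem term_big {n : ℕ} (s : ℕ) (X : α) (p : Fin (n + 1)) (hp : 2 ≤ p.val) (κ' : Perm (Fin n)) :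
    (if ∀ i : Fin (n + 1), (Equiv.Perm.decomposeFin.symm (p, κ') i).val ≤ 1 + i.val then
      ((Equiv.Perm.sign (Equiv.Perm.decomposeFin.symm (p, κ')) : ℤ) : ℂ) *
        P A e (n + 1) (mu (Equiv.Perm.decomposeFin.symm (p, κ')) s) X else 0) = 0 := by
  rw [if_neg]
  intro h
  have h1 := h 0
  rw [Equiv.Perm.decomposeFin_symm_apply_zero, Fin.val_zero] at h1
  omega

theorem T_one (s : ℕ) (X : α) : T A e 1 s X = ∑ Y, A (1 + s) X Y * T A e 0 0 Y := by
  unfold T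
  rw [← Equiv.sum_comp (Equiv.Perm.decomposeFin (n := 0)).symm, Fintype.sum_prod_type, Fin.sum_univ_one]
  simp only [term_zero]
  rw [Finset.sum_comm]
  refine Finset.sum_congr rfl fun Y _ => ?_
  rw [mul_sum]

include hA0 in
theorem T_succ (n s : ℕ) (X : α) :
    T A e (n + 2) s X = ∑ Y, A (1 + s) X Y * T A e (n + 1) 0 Y - T A e (n + 1) (s + 1) X := by
  unfold T
  rw [← Equiv.sum_comp (Equiv.Perm.decomposeFin (n := n + 1)).symm, Fintype.sum_prod_type, Fin.sum_univ_succ,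
    Fin.sum_univ_succ]
  have h3 : ∑ i : Fin n, ∑ y : Perm (Fin (n + 1)),
      (if ∀ i_1 : Fin (n + 2), (Equiv.Perm.decomposeFin.symm (i.succ.succ, y) i_1).val ≤ 1 + i_1.val then
        ((Equiv.Perm.sign (Equiv.Perm.decomposeFin.symm (i.succ.succ, y)) : ℤ) : ℂ) *
        P A e (n + 2) (mu (Equiv.Perm.decomposeFin.symm (i.succ.succ, y)) s) X else 0) = 0 := by
    refine Finset.sum_eq_zero fun i _ => Finset.sum_eq_zero fun y _ => ?_
    apply term_big
    rw [Fin.val_succ, Fin.val_succ]; omega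
  rw [h3, add_zero]
  simp only [term_zero]
  have h4 : (Fin.succ (0 : Fin (n + 1))) = 1 := rfl
  rw [h4]
  have h5 : ∑ y : Perm (Fin (n + 1)), (if ∀ i : Fin (n + 2), (Equiv.Perm.decomposeFin.symm (1, y) i).val ≤ 1 + i.val then
      ((Equiv.Perm.sign (Equiv.Perm.decomposeFin.symm (1, y)) : ℤ) : ℂ) *
        P A e (n + 2) (mu (Equiv.Perm.decomposeFin.symm (1, y)) s) X else 0) =
      ∑ y : Perm (Fin (n + 1)), - (if ∀ i : Fin (n + 1), (y i).val ≤ 1 + i.val then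
      ((Equiv.Perm.sign y : ℤ) : ℂ) * P A e (n + 1) (mu y (s + 1)) X else 0) :=
    Finset.sum_congr rfl fun y _ => term_one A e hA0 s X y
  rw [h5, Finset.sum_neg_distrib, Finset.sum_comm, ← sub_eq_add_neg]
  congr 1
  refine Finset.sum_congr rfl fun Y _ => ?_
  rw [mul_sum]

include hA0 in
/-- the unrolled recursion -/
theorem T_unroll (n : ℕ) : ∀ (s : ℕ) (X : α), T A e (n + 1) s X =
    ∑ j ∈ range (n + 1), (-1) ^ j * ∑ Y, A (1 + s + j) X Y * T A e (n - j) 0 Y := by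
  induction n with
  | zero =>
    intro s X
    rw [T_one, Finset.sum_range_one]
    simp
  | succ n ih =>
    intro s X
    rw [T_succ A e hA0, ih, Finset.sum_range_succ' _ (n + 1)]
    simp only [pow_zero, one_mul, add_zero, Nat.sub_zero]
    have h7 : ∑ j ∈ range (n + 1), (-1 : ℂ) ^ j * ∑ Y, A (1 + (s + 1) + j) X Y * T A e (n - j) 0 Y =
        - ∑ j ∈ range (n + 1), (-1 : ℂ) ^ (j + 1) * ∑ Y, A (1 + s + (j + 1)) X Y * T A e (n + 1 - (j + 1)) 0 Y := by
      rw [← Finset.sum_neg_distrib]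
      refine Finset.sum_congr rfl fun j _ => ?_
      rw [pow_succ, show n + 1 - (j + 1) = n - j by omega, show 1 + (s + 1) + j = 1 + s + (j + 1) by ring]
      ring
    rw [h7]
    ring

/-- the Möbius recursion -/
theorem mob [PartialOrder α] [OrderTop α] (ρ : α → ℕ) (hρ : ∀ X Y : α, X < Y → ρ X < ρ Y)
    (hA : ∀ a X Y, (X ≤ Y ∧ ρ Y = ρ X + a → A a X Y = 1) ∧ (¬ (X ≤ Y ∧ ρ Y = ρ X + a) → A a X Y = 0))
    (X : α) (hX : X ≠ ⊤) :
    ∑ Y, (open Classical in if X ≤ Y then (-1 : ℂ) ^ (ρ ⊤ - ρ Y) * T A e (ρ ⊤ - ρ Y) 0 Y else 0) = 0 := by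
  classical
  have hA0 : ∀ X (f : α → ℂ), ∑ Y, A 0 X Y * f Y = f X := by
    intro X f
    rw [Finset.sum_eq_single X]
    · rw [(hA 0 X X).1 ⟨le_rfl, rfl⟩, one_mul]
    · intro Y _ hY
      rw [(hA 0 X Y).2, zero_mul]
      rintro ⟨h1, h2⟩
      have := hρ X Y (lt_of_le_of_ne h1 (Ne.symm hY))
      omega
    · intro h; exact absurd (Finset.mem_univ X) h
  have hlt := hρ X ⊤ (lt_top_iff_ne_top.2 hX)
  obtain ⟨k, hk⟩ : ∃ k, ρ ⊤ - ρ X = k + 1 := ⟨ρ ⊤ - ρ X - 1, by omega⟩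
  have hmono : ∀ X Y : α, X ≤ Y → ρ X ≤ ρ Y := by
    intro X Y h
    rcases h.lt_or_eq with h | h
    · exact (hρ X Y h).le
    · rw [h]
  have hT : T A e (ρ ⊤ - ρ X) 0 X =
      ∑ j ∈ range (k + 1), (-1) ^ j * ∑ Y, A (1 + 0 + j) X Y * T A e (k - j) 0 Y := by
    rw [hk]; exact T_unroll A e hA0 k 0 X
  -- split off the term X
  have hsplit : ∑ Y, (if X ≤ Y then (-1 : ℂ) ^ (ρ ⊤ - ρ Y) * T A e (ρ ⊤ - ρ Y) 0 Y else 0) =
      (-1 : ℂ) ^ (ρ ⊤ - ρ X) * T A e (ρ ⊤ - ρ X) 0 X +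
      ∑ Y, (if X < Y then (-1 : ℂ) ^ (ρ ⊤ - ρ Y) * T A e (ρ ⊤ - ρ Y) 0 Y else 0) := by
    have h7 : ∀ Y, (if X ≤ Y then (-1 : ℂ) ^ (ρ ⊤ - ρ Y) * T A e (ρ ⊤ - ρ Y) 0 Y else 0) =
        (if X = Y then (-1 : ℂ) ^ (ρ ⊤ - ρ Y) * T A e (ρ ⊤ - ρ Y) 0 Y else 0) +
        (if X < Y then (-1 : ℂ) ^ (ρ ⊤ - ρ Y) * T A e (ρ ⊤ - ρ Y) 0 Y else 0) := by
      intro Y
      by_cases h : X = Y
      · subst h; rw [if_pos le_rfl, if_pos rfl, if_neg (lt_irrefl X), add_zero]
      · rw [if_neg h, zero_add]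
        by_cases h8 : X ≤ Y
        · rw [if_pos h8, if_pos (lt_of_le_of_ne h8 h)]
        · rw [if_neg h8, if_neg (fun h' => h8 h'.le)]
    rw [Finset.sum_congr rfl (fun Y _ => h7 Y), Finset.sum_add_distrib, Finset.sum_ite_eq, if_pos (Finset.mem_univ X)]
  rw [hsplit, hT]
  -- the inner sums
  have hin : ∑ j ∈ range (k + 1), (-1 : ℂ) ^ j * ∑ Y, A (1 + 0 + j) X Y * T A e (k - j) 0 Y =
      ∑ Y, (if X < Y then (-1 : ℂ) ^ (ρ Y - ρ X - 1) * T A e (ρ ⊤ - ρ Y) 0 Y else 0) := by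
    simp only [Finset.mul_sum]
    rw [Finset.sum_comm]
    refine Finset.sum_congr rfl fun Y _ => ?_
    by_cases h : X < Y
    · rw [if_pos h]
      have h1 := hρ X Y h
      have h2 := hmono Y ⊤ le_top
      rw [Finset.sum_eq_single (ρ Y - ρ X - 1)]
      · rw [(hA _ X Y).1 ⟨h.le, by omega⟩, one_mul, show k - (ρ Y - ρ X - 1) = ρ ⊤ - ρ Y by omega]
      · intro j _ hj
        rw [(hA _ X Y).2, zero_mul, mul_zero]
        rintro ⟨_, h3⟩
        omega
      · intro h3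
        exfalso; apply h3
        rw [Finset.mem_range]; omega
    · rw [if_neg h]
      refine Finset.sum_eq_zero fun j _ => ?_
      rw [(hA _ X Y).2, zero_mul, mul_zero]
      rintro ⟨h3, h4⟩
      rcases h3.lt_or_eq with h5 | h5
      · exact h h5
      · rw [h5] at h4; omega
  rw [hin, Finset.mul_sum, ← Finset.sum_add_distrib]
  refine Finset.sum_eq_zero fun Y _ => ?_
  by_cases h : X < Y
  · rw [if_pos h, if_pos h]
    have h1 := hρ X Y h
    have h2 := hmono Y ⊤ le_top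
    have h3 : (-1 : ℂ) ^ (ρ ⊤ - ρ X) * (-1) ^ (ρ Y - ρ X - 1) = - (-1) ^ (ρ ⊤ - ρ Y) := by
      obtain ⟨a, ha⟩ : ∃ a, ρ Y - ρ X - 1 = a := ⟨_, rfl⟩
      have h4 : ρ ⊤ - ρ X = (ρ ⊤ - ρ Y) + a + 1 := by omega
      rw [ha, h4, pow_add, pow_add, pow_one]
      have h5 : ((-1 : ℂ) ^ a) * (-1) ^ a = 1 := by rw [← mul_pow]; simp
      linear_combination (-(-1 : ℂ) ^ (ρ ⊤ - ρ Y)) * h5
    linear_combination (T A e (ρ ⊤ - ρ Y) 0 Y) * h3
  · rw [if_neg h, if_neg h]; ring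

end H45.StA
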