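import Mathlib
import Cfsg.Agent.Lib.H45.StA
import Cfsg.Agent.Lib.H45.FlagOrbits

/-!
# Permutation characters on parabolic cosets and stable flags (helper45)
-/

set_option autoImplicit false
set_option linter.unusedSectionVars false
set_option linter.unusedVariables false

namespace H45.StB

open Matrix H45.Labels H45.FlagOrbits Module

universe u

section adapted

variable {F : Type u} [Field F] {V : Type u} [AddCommGroup V] [Module F V]

/-- adapted sets for an increasing sequence of subspaces -/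
theorem adapted (W : ℕ → Submodule F V) (hmono : ∀ i, W i ≤ W (i + 1)) :
    ∃ B : ℕ → Set V, (∀ i, B i ⊆ B (i + 1)) ∧ ∀ i, LinearIndepOn F id (B i) ∧ Submodule.span F (B i) = W i := by
  classical
  have h0 : ∃ B : Set V, LinearIndepOn F id B ∧ Submodule.span F B = W 0 := by
    obtain ⟨b, hb1, _, hb2, hb3⟩ := exists_linearIndepOn_id_extension (K := F) (s := ∅) (t := (W 0 : Set V))
      (by exact linearIndependent_empty F V) (Set.empty_subset _)
    exact ⟨b, hb3, le_antisymm (Submodule.span_le.2 hb1) hb2⟩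
  have hstep : ∀ i, ∀ B : Set V, LinearIndepOn F id B ∧ Submodule.span F B = W i →
      ∃ B' : Set V, B ⊆ B' ∧ LinearIndepOn F id B' ∧ Submodule.span F B' = W (i + 1) := by
    rintro i B ⟨hB1, hB2⟩
    obtain ⟨b, hb1, hb4, hb2, hb3⟩ := exists_linearIndepOn_id_extension (K := F) (s := B) (t := (W (i + 1) : Set V))
      hB1 (by
        refine (Submodule.subset_span (R := F)).trans ?_
        rw [hB2]; exact hmono i)
    exact ⟨b, hb4, hb3, le_antisymm (Submodule.span_le.2 hb1) hb2⟩
  let C : (i : ℕ) → {B : Set V // LinearIndepOn F id B ∧ Submodule.span F B = W i} := fun i =>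
    Nat.rec ⟨h0.choose, h0.choose_spec⟩ (fun i B => ⟨(hstep i B.1 B.2).choose, (hstep i B.1 B.2).choose_spec.2⟩) i
  refine ⟨fun i => (C i).1, fun i => ?_, fun i => (C i).2⟩
  exact (hstep i (C i).1 (C i).2).choose_spec.1

end adapted

variable {F : Type u} [Field F] {n : ℕ}

/-- the standard flag -/
def sf (F : Type u) [Field F] {n : ℕ} (μ : Fin n → ℕ) (i : ℕ) : Submodule F (Fin n → F) where
  carrier := cset F (Cfsg.compLabel μ) i
  add_mem' := by
    intro a b ha hb r hr
    rw [Pi.add_apply, ha r hr, hb r hr, add_zero]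
  zero_mem' := fun r _ => rfl
  smul_mem' := by
    intro c a ha r hr
    rw [Pi.smul_apply, ha r hr, smul_zero]

theorem mem_sf {μ : Fin n → ℕ} {i : ℕ} {v : Fin n → F} : v ∈ sf F μ i ↔ ∀ r, i ≤ Cfsg.compLabel μ r → v r = 0 := Iff.rfl

theorem mem_par_iff (μ : Fin n → ℕ) (hμ : ∑ i, μ i = n) (h : GL (Fin n) F) :
    h ∈ Cfsg.parabolicGL n F μ ↔ ∀ i : Fin (n + 1), ∀ v ∈ sf F μ i.val, (h : Matrix (Fin n) (Fin n) F).mulVec v ∈ sf F μ i.val := by
  constructor
  · intro hh i v hv
    exact mulVec_mem_cset μ hh hv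
  · intro H
    change (h : Matrix (Fin n) (Fin n) F).BlockTriangular (Cfsg.compLabel μ)
    intro r c hrc
    have hlt := compLabel_lt μ hμ c
    have h1 := H ⟨Cfsg.compLabel μ c + 1, by omega⟩ (Pi.single c 1) (by
      intro r' hr'
      rw [Pi.single_apply, if_neg]
      rintro rfl
      change Cfsg.compLabel μ r' + 1 ≤ Cfsg.compLabel μ r' at hr'
      omega) r (by change Cfsg.compLabel μ c + 1 ≤ _; omega)
    rw [Matrix.mulVec_single_one] at h1
    exact h1

/-- the translated flag -/
def fl (μ : Fin n → ℕ) (g : GL (Fin n) F) (i : ℕ) : Submodule F (Fin n → F) :=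
  (sf F μ i).comap (Matrix.mulVecLin ((g⁻¹ : GL (Fin n) F) : Matrix (Fin n) (Fin n) F))

theorem mem_fl {μ : Fin n → ℕ} {g : GL (Fin n) F} {i : ℕ} {v : Fin n → F} :
    v ∈ fl μ g i ↔ ((g⁻¹ : GL (Fin n) F) : Matrix (Fin n) (Fin n) F).mulVec v ∈ sf F μ i := Iff.rfl

theorem mv_mul (g h : GL (Fin n) F) (v : Fin n → F) :
    ((g * h : GL (Fin n) F) : Matrix (Fin n) (Fin n) F).mulVec v = (g : Matrix (Fin n) (Fin n) F).mulVec ((h : Matrix (Fin n) (Fin n) F).mulVec v) := by
  rw [Matrix.mulVec_mulVec, ← Units.val_mul]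

theorem mv_one (v : Fin n → F) : ((1 : GL (Fin n) F) : Matrix (Fin n) (Fin n) F).mulVec v = v := by
  rw [Units.val_one, Matrix.one_mulVec]

/-- linear equivalence of a group element -/
noncomputable def le (g : GL (Fin n) F) : (Fin n → F) ≃ₗ[F] (Fin n → F) where
  toFun v := (g : Matrix (Fin n) (Fin n) F).mulVec v
  map_add' v w := Matrix.mulVec_add _ _ _
  map_smul' c v := Matrix.mulVec_smul _ _ _
  invFun v := ((g⁻¹ : GL (Fin n) F) : Matrix (Fin n) (Fin n) F).mulVec v
  left_inv v := by
    change ((g⁻¹ : GL (Fin n) F) : Matrix (Fin n) (Fin n) F).mulVec ((g : Matrix (Fin n) (Fin n) F).mulVec v) = v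
    rw [← mv_mul, inv_mul_cancel, mv_one]
  right_inv v := by
    change (g : Matrix (Fin n) (Fin n) F).mulVec (((g⁻¹ : GL (Fin n) F) : Matrix (Fin n) (Fin n) F).mulVec v) = v
    rw [← mv_mul, mul_inv_cancel, mv_one]

theorem finrank_sf (μ : Fin n → ℕ) (i : ℕ) : finrank F (sf F μ i) = Fintype.card {r : Fin n // Cfsg.compLabel μ r < i} := by
  have e : sf F μ i ≃ₗ[F] ({r : Fin n // Cfsg.compLabel μ r < i} → F) :=
    { toFun := fun v r => v.1 r.1
      map_add' := fun v w => rfl
      map_smul' := fun c v => rfl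
      invFun := fun w => ⟨fun r => if h : Cfsg.compLabel μ r < i then w ⟨r, h⟩ else 0, by
        intro r hr
        change (if h : Cfsg.compLabel μ r < i then w ⟨r, h⟩ else 0) = 0
        rw [dif_neg (by omega)]⟩
      left_inv := by
        rintro ⟨v, hv⟩
        apply Subtype.ext
        funext r
        change (if h : Cfsg.compLabel μ r < i then v r else 0) = v r
        by_cases h : Cfsg.compLabel μ r < i
        · rw [dif_pos h]
        · rw [dif_neg h, hv r (by omega)]
      right_inv := by
        intro w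
        funext r
        change (if h : Cfsg.compLabel μ r.1 < i then w ⟨r.1, h⟩ else 0) = w r
        rw [dif_pos r.2] }
  rw [e.finrank_eq, Module.finrank_fintype_fun_eq_card]

theorem finrank_fl (μ : Fin n → ℕ) (g : GL (Fin n) F) (i : ℕ) :
    finrank F (fl μ g i) = Fintype.card {r : Fin n // Cfsg.compLabel μ r < i} := by
  rw [← finrank_sf (F := F) μ i]
  have : fl μ g i = (sf F μ i).comap ((le g).symm : (Fin n → F) →ₗ[F] (Fin n → F)) := rfl
  rw [this, Submodule.comap_equiv_eq_map_symm]
  exact LinearEquiv.finrank_map_eq _ _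

theorem card_succ (μ : Fin n → ℕ) (hμ : ∑ i, μ i = n) (i : Fin n) :
    Fintype.card {r : Fin n // Cfsg.compLabel μ r < i.val + 1} = Fintype.card {r : Fin n // Cfsg.compLabel μ r < i.val} + μ i := by
  rw [← card_compLabel μ hμ i, Fintype.card_subtype, Fintype.card_subtype, ← Finset.card_union_of_disjoint]
  · congr 1
    ext r
    simp only [Finset.mem_filter, Finset.mem_univ, true_and, Finset.mem_union]
    omega
  · rw [Finset.disjoint_filter]
    intro r _ h1 h2
    omega

/-- flags of type `μ` -/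
def IsFlag (μ : Fin n → ℕ) (W : Fin (n + 1) → Submodule F (Fin n → F)) : Prop :=
  W 0 = ⊥ ∧ (∀ i : Fin n, W i.castSucc ≤ W i.succ ∧ finrank F (W i.succ) = finrank F (W i.castSucc) + μ i) ∧
    W (Fin.last n) = ⊤

theorem isFlag_fl (μ : Fin n → ℕ) (hμ : ∑ i, μ i = n) (g : GL (Fin n) F) :
    IsFlag μ (fun i : Fin (n + 1) => fl μ g i.val) := by
  refine ⟨?_, fun i => ⟨?_, ?_⟩, ?_⟩
  · change fl μ g 0 = ⊥
    rw [eq_bot_iff]
    intro v hv
    have h1 : ((g⁻¹ : GL (Fin n) F) : Matrix (Fin n) (Fin n) F).mulVec v = 0 := by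
      funext r; exact hv r (Nat.zero_le _)
    rw [Submodule.mem_bot]
    exact (LinearEquiv.map_eq_zero_iff (le g⁻¹)).1 h1
  · intro v hv r hr
    apply hv r
    change i.val + 1 ≤ _ at hr
    change i.val ≤ _
    omega
  · change finrank F (fl μ g (i.val + 1)) = finrank F (fl μ g i.val) + μ i
    rw [finrank_fl, finrank_fl, card_succ μ hμ]
  · change fl μ g n = ⊤
    rw [eq_top_iff]
    intro v _ r hr
    have := compLabel_lt μ hμ r
    omega

theorem fl_eq_iff (μ : Fin n → ℕ) (hμ : ∑ i, μ i = n) (g g' : GL (Fin n) F) :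
    (∀ i : Fin (n + 1), fl μ g i.val = fl μ g' i.val) ↔ g⁻¹ * g' ∈ Cfsg.parabolicGL n F μ := by
  constructor
  · intro h
    rw [mem_par_iff μ hμ]
    intro i v hv
    have h1 : (g' : Matrix (Fin n) (Fin n) F).mulVec v ∈ fl μ g' i.val := by
      rw [mem_fl, ← mv_mul, inv_mul_cancel, mv_one]; exact hv
    rw [← h i, mem_fl, ← mv_mul] at h1
    exact h1
  · intro h i
    ext v
    have h2 : v = (g' : Matrix (Fin n) (Fin n) F).mulVec (((g'⁻¹ : GL (Fin n) F) : Matrix (Fin n) (Fin n) F).mulVec v) := by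
      rw [← mv_mul, mul_inv_cancel, mv_one]
    rw [mem_fl, mem_fl]
    constructor
    · intro h3
      rw [h2, ← mv_mul] at h3
      exact (mulVec_mem_cset_iff μ h).1 h3
    · intro h3
      rw [h2, ← mv_mul]
      exact (mulVec_mem_cset_iff μ h).2 h3

theorem stable_iff (μ : Fin n → ℕ) (hμ : ∑ i, μ i = n) (x g : GL (Fin n) F) :
    (∀ i : Fin (n + 1), ∀ v ∈ fl μ g i.val, (x : Matrix (Fin n) (Fin n) F).mulVec v ∈ fl μ g i.val) ↔
      g⁻¹ * x * g ∈ Cfsg.parabolicGL n F μ := by
  rw [mem_par_iff μ hμ]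
  constructor
  · intro h i v hv
    have h1 : (g : Matrix (Fin n) (Fin n) F).mulVec v ∈ fl μ g i.val := by
      rw [mem_fl, ← mv_mul, inv_mul_cancel, mv_one]; exact hv
    have h2 := h i _ h1
    rw [mem_fl, ← mv_mul, ← mv_mul] at h2
    exact h2
  · intro h i v hv
    have h1 := h i _ (mem_fl.1 hv)
    rw [← mv_mul, mul_assoc, mul_assoc, mul_inv_cancel, mul_one, mv_mul] at h1
    rw [mem_fl]; exact h1

/-- every flag is a translate of the standard one -/
theorem exists_fl (μ : Fin n → ℕ) (hμ : ∑ i, μ i = n) (W : Fin (n + 1) → Submodule F (Fin n → F)) (hW : IsFlag μ W) :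
    ∃ g : GL (Fin n) F, ∀ i : Fin (n + 1), fl μ g i.val = W i := by
  classical
  obtain ⟨h0, hstep, htop⟩ := hW
  obtain ⟨W', hW'⟩ : ∃ W' : ℕ → Submodule F (Fin n → F), ∀ k, W' k = if h : k < n + 1 then W ⟨k, h⟩ else ⊤ := ⟨_, fun _ => rfl⟩
  have hWi : ∀ i : Fin (n + 1), W' i.val = W i := fun i => by rw [hW', dif_pos i.isLt]
  have hmono : ∀ i, W' i ≤ W' (i + 1) := by
    intro i
    by_cases hi : i < n
    · have h1 := (hstep ⟨i, hi⟩).1
      rw [hW' i, hW' (i + 1), dif_pos (by omega), dif_pos (by omega)]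
      exact h1
    · rw [hW' (i + 1), dif_neg (by omega)]; exact le_top
  obtain ⟨B, hB1, hB2⟩ := adapted W' hmono
  have hBmono : ∀ i j, i ≤ j → B i ⊆ B j := fun i j h => monotone_nat_of_le_succ hB1 h
  have hB0 : B 0 = ∅ := by
    have h1 := (hB2 0).2
    have h2 := hWi 0
    have h2' : W' 0 = ⊥ := by rw [← h0]; exact h2
    rw [h2', Submodule.span_eq_bot] at h1
    ext b
    simp only [Set.mem_empty_iff_false, iff_false]
    intro hb
    exact (hB2 0).1.ne_zero hb (h1 b hb)
  have hBn : Submodule.span F (B n) = ⊤ := by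
    rw [(hB2 n).2, ← htop]; exact hWi (Fin.last n)
  -- cards
  have hcard : ∀ i, Nat.card (B i) = finrank F (W' i) := by
    intro i
    have hli : LinearIndependent F (fun x : B i => (x : Fin n → F)) := (hB2 i).1
    have hfin : Finite (B i) := hli.finite
    have := Fintype.ofFinite (B i)
    rw [← (hB2 i).2, finrank_span_set_eq_card (s := B i) hli, Nat.card_eq_fintype_card, Set.toFinset_card]
  have hli : LinearIndependent F (fun x : B n => (x : Fin n → F)) := (hB2 n).1
  have hfin : Finite (B n) := hli.finite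
  have hftB := Fintype.ofFinite (B n)
  have hcn : Fintype.card (B n) = n := by
    rw [← Nat.card_eq_fintype_card, hcard, ← (hB2 n).2, hBn, finrank_top, Module.finrank_fin_fun]
  obtain ⟨e0⟩ : Nonempty (Fin n ≃ B n) := ⟨(Fintype.equivFinOfCardEq hcn).symm⟩
  -- the label
  have hex : ∀ b : B n, ∃ i, (b : Fin n → F) ∈ B i := fun b => ⟨n, b.2⟩
  let lb : B n → ℕ := fun b => Nat.find (hex b) - 1
  have hlb : ∀ (b : B n) (i : ℕ), lb b < i ↔ (b : Fin n → F) ∈ B i := by
    intro b i
    have h1 : 0 < Nat.find (hex b) := by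
      rw [Nat.pos_iff_ne_zero]
      intro h
      have := Nat.find_spec (hex b)
      rw [h, hB0] at this
      exact this
    constructor
    · intro h
      have h2 : Nat.find (hex b) ≤ i := by change Nat.find (hex b) - 1 < i at h; omega
      exact hBmono _ _ h2 (Nat.find_spec (hex b))
    · intro h
      have h2 := Nat.find_min' (hex b) h
      change Nat.find (hex b) - 1 < i
      omega
  -- fibres
  have hfib : ∀ y, (Finset.univ.filter fun r => (fun r => lb (e0 r)) r = y).card =
      (Finset.univ.filter fun r => Cfsg.compLabel μ r = y).card := by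
    have hle : ∀ i, i ≤ n → (Finset.univ.filter fun r : Fin n => lb (e0 r) < i).card = finrank F (W' i) := by
      intro i hi
      rw [← hcard i]
      have h1 : (Finset.univ.filter fun r : Fin n => lb (e0 r) < i).card = Nat.card {b : B n // (b : Fin n → F) ∈ B i} := by
        rw [← Fintype.card_subtype, ← Nat.card_eq_fintype_card]
        apply Nat.card_congr
        apply Equiv.subtypeEquiv e0
        intro r
        exact hlb (e0 r) i
      rw [h1]
      apply Nat.card_congr
      exact
        { toFun := fun b => ⟨b.1.1, b.2⟩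
          invFun := fun b => ⟨⟨b.1, hBmono i n hi b.2⟩, b.2⟩
          left_inv := fun b => rfl
          right_inv := fun b => rfl }
    intro y
    by_cases hy : y < n
    · rw [card_compLabel μ hμ ⟨y, hy⟩]
      have h1 := hle y hy.le
      have h2 := hle (y + 1) hy
      have h3 := (hstep ⟨y, hy⟩).2
      have h4 : W' y = W (Fin.castSucc ⟨y, hy⟩) := hWi (Fin.castSucc ⟨y, hy⟩)
      have h5 : W' (y + 1) = W (Fin.succ ⟨y, hy⟩) := hWi (Fin.succ ⟨y, hy⟩)
      rw [h4] at h1
      rw [h5, h3] at h2
      have h6 : (Finset.univ.filter fun r : Fin n => lb (e0 r) < y + 1).card =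
          (Finset.univ.filter fun r : Fin n => lb (e0 r) < y).card + (Finset.univ.filter fun r : Fin n => lb (e0 r) = y).card := by
        rw [← Finset.card_union_of_disjoint]
        · congr 1
          ext r
          simp only [Finset.mem_filter, Finset.mem_univ, true_and, Finset.mem_union]
          omega
        · rw [Finset.disjoint_filter]
          intro r _ h1 h2
          omega
      change (Finset.univ.filter fun r : Fin n => lb (e0 r) = y).card = _
      omega
    · have h1 : (Finset.univ.filter fun r => Cfsg.compLabel μ r = y) = ∅ := by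
        ext r
        simp only [Finset.mem_filter, Finset.mem_univ, true_and, Finset.notMem_empty, iff_false]
        have := compLabel_lt μ hμ r
        omega
      have h2 : (Finset.univ.filter fun r => (fun r => lb (e0 r)) r = y) = ∅ := by
        ext r
        simp only [Finset.mem_filter, Finset.mem_univ, true_and, Finset.notMem_empty, iff_false]
        have := (hlb (e0 r) n).2 (e0 r).2
        omega
      rw [h1, h2]
  obtain ⟨σ, hσ⟩ := exists_perm_of_card_fiber (fun r => lb (e0 r)) (Cfsg.compLabel μ) hfib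
  -- the basis
  let b0 : Basis (B n) F (Fin n → F) := Basis.mk hli (by
    rw [Subtype.range_coe_subtype]
    change ⊤ ≤ Submodule.span F (B n)
    rw [hBn])
  let b : Basis (Fin n) F (Fin n → F) := b0.reindex (σ.trans e0).symm
  have hb : ∀ r, b r = (e0 (σ r) : Fin n → F) := by
    intro r
    rw [Basis.reindex_apply, Equiv.symm_symm]
    change b0 (e0 (σ r)) = _
    rw [Basis.mk_apply]
  have hspan : ∀ i, i ≤ n → W' i = Submodule.span F (b '' {r | Cfsg.compLabel μ r < i}) := by
    intro i hi
    rw [← (hB2 i).2]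
    congr 1
    ext v
    constructor
    · intro hv
      refine ⟨σ.symm (e0.symm ⟨v, hBmono i n hi hv⟩), ?_, ?_⟩
      · change Cfsg.compLabel μ _ < i
        rw [← hσ, Equiv.apply_symm_apply, Equiv.apply_symm_apply]
        exact (hlb _ i).2 hv
      · rw [hb, Equiv.apply_symm_apply, Equiv.apply_symm_apply]
    · rintro ⟨r, hr, rfl⟩
      rw [hb]
      have hr' : Cfsg.compLabel μ r < i := hr
      rw [← hσ] at hr'
      exact (hlb _ i).1 hr'
  -- the group element
  let ψ : (Fin n → F) ≃ₗ[F] (Fin n → F) := b.equivFun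
  let g : GL (Fin n) F :=
    { val := LinearMap.toMatrix' (ψ.symm : (Fin n → F) →ₗ[F] (Fin n → F))
      inv := LinearMap.toMatrix' (ψ : (Fin n → F) →ₗ[F] (Fin n → F))
      val_inv := by
        rw [← LinearMap.toMatrix'_comp]
        simp
      inv_val := by
        rw [← LinearMap.toMatrix'_comp]
        simp }
  refine ⟨g, fun i => ?_⟩
  rw [← hWi i, hspan i.val (Nat.lt_succ_iff.1 i.isLt)]
  ext v
  rw [mem_fl, Basis.mem_span_image]
  have h1 : ((g⁻¹ : GL (Fin n) F) : Matrix (Fin n) (Fin n) F).mulVec v = ψ v := by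
    change (LinearMap.toMatrix' (ψ : (Fin n → F) →ₗ[F] (Fin n → F))).mulVec v = ψ v
    rw [LinearMap.toMatrix'_mulVec]; rfl
  rw [h1, mem_sf]
  have h2 : ∀ r, ψ v r = b.repr v r := fun r => by rw [Basis.equivFun_apply]
  constructor
  · intro h r hr
    rw [Finset.mem_coe, Finsupp.mem_support_iff] at hr
    by_contra hcon
    apply hr
    rw [← h2]
    exact h r (not_lt.1 hcon)
  · intro h r hr
    rw [h2]
    by_contra hcon
    have h3 := h (Finset.mem_coe.2 (Finsupp.mem_support_iff.2 hcon))
    have h4 : Cfsg.compLabel μ r < i.val := h3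
    omega

end H45.StB
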