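import Mathlib

/-!
# The Möbius function of the submodule lattice of a finite semisimple module over F[X] (helper45)
-/

set_option autoImplicit false
set_option linter.unusedSectionVars false
set_option linter.unusedVariables false

namespace H45.StC

open Polynomial

section weisner

open Classical in
/-- Möbius function (to the top) -/
structure IsMob {α : Type*} [PartialOrder α] [OrderTop α] [Fintype α] (M : α → ℂ) : Prop where
  top : M ⊤ = 1
  sum : ∀ X, X ≠ ⊤ → ∑ Y, (if X ≤ Y then M Y else 0) = 0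

open Classical in
theorem weisner {α : Type*} [Lattice α] [OrderTop α] [Fintype α] {M : α → ℂ} (h : IsMob M) {A : α} (hA : A ≠ ⊤) :
    ∀ X ≤ A, ∑ Y, (if Y ⊓ A = X then M Y else 0) = 0 := by
  intro X
  induction X using WellFoundedGT.induction with
  | _ X ih =>
  intro hX
  have hXt : X ≠ ⊤ := fun h' => hA (top_le_iff.1 (h' ▸ hX))
  have h1 := h.sum X hXt
  have h2 : ∑ Y, (if X ≤ Y then M Y else 0) = ∑ Z, (if X ≤ Z ∧ Z ≤ A then ∑ Y, (if Y ⊓ A = Z then M Y else 0) else 0) := by
    have h3 : ∀ Z, (if X ≤ Z ∧ Z ≤ A then ∑ Y, (if Y ⊓ A = Z then M Y else 0) else 0) =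
        ∑ Y, (if Y ⊓ A = Z then (if X ≤ Y then M Y else 0) else 0) := by
      intro Z
      by_cases hZ : X ≤ Z ∧ Z ≤ A
      · rw [if_pos hZ]
        refine Finset.sum_congr rfl fun Y _ => ?_
        by_cases hY : Y ⊓ A = Z
        · rw [if_pos hY, if_pos hY, if_pos]
          exact hZ.1.trans (hY ▸ inf_le_left)
        · rw [if_neg hY, if_neg hY]
      · rw [if_neg hZ]
        symm
        refine Finset.sum_eq_zero fun Y _ => ?_
        by_cases hY : Y ⊓ A = Z
        · rw [if_pos hY, if_neg]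
          intro hXY
          apply hZ
          rw [← hY]
          exact ⟨le_inf hXY hX, inf_le_right⟩
        · rw [if_neg hY]
    rw [Finset.sum_congr rfl (fun Z _ => h3 Z), Finset.sum_comm]
    refine Finset.sum_congr rfl fun Y _ => ?_
    rw [Finset.sum_ite_eq, if_pos (Finset.mem_univ _)]
  rw [h2] at h1
  rw [← Finset.add_sum_erase _ _ (Finset.mem_univ X), if_pos ⟨le_rfl, hX⟩] at h1
  have h5 : ∑ x ∈ Finset.univ.erase X, (if X ≤ x ∧ x ≤ A then ∑ Y, (if Y ⊓ A = x then M Y else 0) else 0) = 0 := ?_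
  · rw [h5, add_zero] at h1; exact h1
  refine Finset.sum_eq_zero fun Z hZ => ?_
  have hne := Finset.ne_of_mem_erase hZ
  by_cases hc : X ≤ Z ∧ Z ≤ A
  · rw [if_pos hc]
    exact ih Z (lt_of_le_of_ne hc.1 (Ne.symm hne)) hc.2
  · rw [if_neg hc]

end weisner

universe u v
variable {F : Type u} [Field F] [Finite F]

noncomputable local instance instFS (Q : Type v) [AddCommGroup Q] [Module F[X] Q] [Finite Q] :
    Fintype (Submodule F[X] Q) := Fintype.ofFinite _

/-- transport to a quotient -/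
theorem isMob_quot {Q : Type v} [AddCommGroup Q] [Module F[X] Q] [Finite Q] {M : Submodule F[X] Q → ℂ}
    (hM : IsMob M) (Y : Submodule F[X] Q) [Finite (Q ⧸ Y)] :
    IsMob (fun Z : Submodule F[X] (Q ⧸ Y) => M (Z.comap Y.mkQ)) := by
  classical
  constructor
  · rw [Submodule.comap_top]; exact hM.top
  · intro X hX
    have hinj : Function.Injective (fun Z : Submodule F[X] (Q ⧸ Y) => Z.comap Y.mkQ) :=
      Submodule.comap_injective_of_surjective (Submodule.mkQ_surjective Y)
    have h1 := hM.sum (X.comap Y.mkQ) (by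
      intro h
      apply hX
      apply hinj
      change X.comap Y.mkQ = Submodule.comap Y.mkQ ⊤
      rw [h, Submodule.comap_top])
    refine Eq.trans ?_ h1
    apply Fintype.sum_of_injective (fun Z : Submodule F[X] (Q ⧸ Y) => Z.comap Y.mkQ) hinj
    · intro W hW
      rw [if_neg]
      intro hle
      apply hW
      refine ⟨W.map Y.mkQ, ?_⟩
      change (W.map Y.mkQ).comap Y.mkQ = W
      rw [Submodule.comap_map_mkQ]
      apply sup_eq_right.2
      refine le_trans ?_ hle
      intro y hy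
      rw [Submodule.mem_comap, Submodule.mkQ_apply, (Submodule.Quotient.mk_eq_zero Y).2 hy]
      exact X.zero_mem
    · intro Z
      have : (X.comap Y.mkQ ≤ Z.comap Y.mkQ) ↔ X ≤ Z := by
        constructor
        · intro h x hx
          obtain ⟨y, rfl⟩ := Submodule.mkQ_surjective Y x
          exact h hx
        · intro h; exact Submodule.comap_mono h
      simp only [this]

section simple

variable {Q : Type v} [AddCommGroup Q] [Module F[X] Q]

theorem exists_equiv {f : F[X]} (hf : Irreducible f) {v : Q} (hv : v ≠ 0) (hfv : f • v = 0) :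
    Nonempty ((F[X] ⧸ Ideal.span {f}) ≃ₗ[F[X]] Submodule.span F[X] {v}) := by
  have hmax : (Ideal.span {f}).IsMaximal := PrincipalIdealRing.isMaximal_of_irreducible hf
  have hker : Ideal.span {f} = LinearMap.ker (LinearMap.toSpanSingleton F[X] Q v) := by
    apply hmax.eq_of_le
    · intro h
      have h1 : (1 : F[X]) ∈ (LinearMap.ker (LinearMap.toSpanSingleton F[X] Q v)) := by rw [h]; trivial
      rw [LinearMap.mem_ker, LinearMap.toSpanSingleton_apply, one_smul] at h1
      exact hv h1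
    · rw [Ideal.span_singleton_le_iff_mem, LinearMap.mem_ker, LinearMap.toSpanSingleton_apply]
      exact hfv
  have e1 := Submodule.quotEquivOfEq _ _ hker
  have e2 := (LinearMap.toSpanSingleton F[X] Q v).quotKerEquivRange
  have e3 := LinearEquiv.ofEq _ _ (LinearMap.range_toSpanSingleton (R := F[X]) (x := v))
  exact ⟨e1.trans (e2.trans e3)⟩

theorem isAtom_span {f : F[X]} (hf : Irreducible f) {v : Q} (hv : v ≠ 0) (hfv : f • v = 0) :
    IsAtom (Submodule.span F[X] {v}) := by
  obtain ⟨e⟩ := exists_equiv hf hv hfv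
  have hmax : (Ideal.span {f}).IsMaximal := PrincipalIdealRing.isMaximal_of_irreducible hf
  have : IsSimpleModule F[X] (F[X] ⧸ Ideal.span {f}) := isSimpleModule_iff_isCoatom.2 (Ideal.isMaximal_def.1 hmax)
  have h2 : IsSimpleModule F[X] (Submodule.span F[X] {v}) := e.isSimpleModule_iff.1 this
  exact isSimpleModule_iff_isAtom.1 h2

theorem card_quot {f : F[X]} (hf : Irreducible f) : Nat.card (F[X] ⧸ Ideal.span {f}) = Nat.card F ^ f.natDegree := by
  have h1 : Module.finrank F (F[X] ⧸ Ideal.span {f}) = f.natDegree := finrank_quotient_span_eq_natDegree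
  have : Module.Finite F (F[X] ⧸ Ideal.span {f}) := by
    apply Module.finite_of_finrank_pos
    rw [h1]; exact hf.natDegree_pos
  rw [Module.natCard_eq_pow_finrank (K := F), h1]

theorem card_span {f : F[X]} (hf : Irreducible f) {v : Q} (hv : v ≠ 0) (hfv : f • v = 0) :
    Nat.card (Submodule.span F[X] {v}) = Nat.card F ^ f.natDegree := by
  obtain ⟨e⟩ := exists_equiv hf hv hfv
  rw [← card_quot hf, Nat.card_congr e.toEquiv]

/-- number of elements killed -/
noncomputable def kc (Q : Type v) [AddCommGroup Q] [Module F[X] Q] (f : F[X]) : ℕ := Nat.card {v : Q // f • v = 0}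

theorem kc_congr {Q' : Type v} [AddCommGroup Q'] [Module F[X] Q'] (e : Q ≃ₗ[F[X]] Q') (f : F[X]) : kc Q f = kc Q' f := by
  apply Nat.card_congr
  apply Equiv.subtypeEquiv e.toEquiv
  intro v
  constructor
  · intro h
    change f • e v = 0
    rw [← map_smul, h, map_zero]
  · intro h
    have h1 : f • e v = 0 := h
    rw [← map_smul] at h1
    exact (LinearEquiv.map_eq_zero_iff e).1 h1

theorem kc_prod (Q' : Type v) [AddCommGroup Q'] [Module F[X] Q'] (f : F[X]) : kc (Q × Q') f = kc Q f * kc Q' f := by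
  unfold kc
  rw [← Nat.card_prod]
  apply Nat.card_congr
  exact
    { toFun := fun v => (⟨v.1.1, congrArg Prod.fst v.2⟩, ⟨v.1.2, congrArg Prod.snd v.2⟩)
      invFun := fun v => ⟨(v.1.1, v.2.1), Prod.ext v.1.2 v.2.2⟩
      left_inv := fun v => rfl
      right_inv := fun v => rfl }

theorem kc_compl {Y A : Submodule F[X] Q} (h : IsCompl Y A) (f : F[X]) : kc Q f = kc Y f * kc A f := by
  rw [← kc_congr (Submodule.prodEquivOfIsCompl Y A h) f, kc_prod]

end simple

/-- the value -/
noncomputable def val (q : ℂ) (s : Finset F[X]) (m : F[X] → ℕ) : ℂ :=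
  ∏ f ∈ s, ((-1) ^ m f * q ^ (f.natDegree * (m f * (m f - 1) / 2)))

theorem val_step (q : ℂ) (s : Finset F[X]) (m : F[X] → ℕ) {f₀ : F[X]} (hf₀ : f₀ ∈ s) (hm : 0 < m f₀) [DecidableEq F[X]] :
    val q s m = - q ^ (f₀.natDegree * (m f₀ - 1)) * val q s (Function.update m f₀ (m f₀ - 1)) := by
  unfold val
  rw [← Finset.mul_prod_erase s _ hf₀, ← Finset.mul_prod_erase s (fun f => _) hf₀, Function.update_self]
  have h1 : ∏ f ∈ s.erase f₀, ((-1 : ℂ) ^ (Function.update m f₀ (m f₀ - 1)) f *
      q ^ (f.natDegree * ((Function.update m f₀ (m f₀ - 1)) f * ((Function.update m f₀ (m f₀ - 1)) f - 1) / 2))) =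
      ∏ f ∈ s.erase f₀, ((-1) ^ m f * q ^ (f.natDegree * (m f * (m f - 1) / 2))) := by
    refine Finset.prod_congr rfl fun f hf => ?_
    rw [Function.update_of_ne (Finset.ne_of_mem_erase hf)]
  rw [h1]
  obtain ⟨k, hk⟩ : ∃ k, m f₀ = k + 1 := ⟨m f₀ - 1, by omega⟩
  rw [hk, Nat.add_sub_cancel]
  have h2 : (k + 1) * k / 2 = k + k * (k - 1) / 2 := by
    rcases Nat.eq_zero_or_pos k with h | h
    · subst h; rfl
    · obtain ⟨j, rfl⟩ : ∃ j, k = j + 1 := ⟨k - 1, by omega⟩
      rw [Nat.add_sub_cancel]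
      have h3 : (j + 1 + 1) * (j + 1) = (j + 1) * 2 + (j + 1) * j := by ring
      rw [h3, Nat.mul_comm (j + 1) 2, Nat.mul_add_div (by norm_num)]
  rw [h2, mul_add, pow_add, pow_succ]
  ring

theorem main (s : Finset F[X]) (hs : ∀ f ∈ s, Irreducible f) (hcop : ∀ f ∈ s, ∀ g ∈ s, f ≠ g → IsCoprime f g) :
    ∀ (N : ℕ) (Q : Type v) [AddCommGroup Q] [Module F[X] Q] [Finite Q] [IsSemisimpleModule F[X] Q] (m : F[X] → ℕ),
      (∑ f ∈ s, m f = N) → (∀ v : Q, (∏ f ∈ s, f) • v = 0) →
      (∀ f ∈ s, kc Q f = Nat.card F ^ (f.natDegree * m f)) →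
      ∀ M : Submodule F[X] Q → ℂ, IsMob M → M ⊥ = val (Nat.card F : ℂ) s m := by
  classical
  intro N
  induction N with
  | zero =>
    intro Q _ _ _ _ m hm hkill hk M hM
    have hm0 : ∀ f ∈ s, m f = 0 := fun f hf => Finset.sum_eq_zero_iff.1 hm f hf
    have hinj : ∀ f ∈ s, ∀ v : Q, f • v = 0 → v = 0 := by
      intro f hf v hv
      have h1 := hk f hf
      rw [hm0 f hf, mul_zero, pow_zero] at h1
      have h2 : (⟨v, hv⟩ : {v : Q // f • v = 0}) = ⟨0, smul_zero f⟩ := by
        have : Subsingleton {v : Q // f • v = 0} := (Nat.card_eq_one_iff_unique.1 h1).1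
        exact Subsingleton.elim _ _
      exact congrArg Subtype.val h2
    have hz : ∀ v : Q, v = 0 := by
      intro v
      have h1 : ∀ t : Finset F[X], t ⊆ s → (∏ f ∈ t, f) • v = 0 → v = 0 := by
        intro t
        induction t using Finset.induction_on with
        | empty => intro _ h; rwa [Finset.prod_empty, one_smul] at h
        | insert a t ha ih =>
          intro hsub h
          rw [Finset.prod_insert ha, mul_smul] at h
          exact ih (fun x hx => hsub (Finset.mem_insert_of_mem hx)) (hinj a (hsub (Finset.mem_insert_self a t)) _ h)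
      exact h1 s (Finset.Subset.refl s) (hkill v)
    have hbt : (⊥ : Submodule F[X] Q) = ⊤ := by
      ext v; rw [hz v]; simp
    rw [hbt, hM.top, val]
    symm
    apply Finset.prod_eq_one
    intro f hf
    rw [hm0 f hf]; simp
  | succ N ih =>
    intro Q _ _ _ _ m hm hkill hk M hM
    obtain ⟨f₀, hf₀, hmf⟩ : ∃ f ∈ s, 0 < m f := by
      by_contra hcon
      push Not at hcon
      have : ∑ f ∈ s, m f = 0 := Finset.sum_eq_zero (fun f hf => Nat.le_zero.1 (hcon f hf))
      omega
    have hirr := hs f₀ hf₀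
    have hdpos : 0 < f₀.natDegree := hirr.natDegree_pos
    have hq1 : 1 < Nat.card F := Finite.one_lt_card
    have hqd : 1 < Nat.card F ^ f₀.natDegree := Nat.one_lt_pow hdpos.ne' hq1
    obtain ⟨v₀, hv₀, hfv₀⟩ : ∃ v₀ : Q, v₀ ≠ 0 ∧ f₀ • v₀ = 0 := by
      by_contra hcon
      push Not at hcon
      have h1 : kc Q f₀ = 1 := by
        unfold kc
        rw [Nat.card_eq_one_iff_unique]
        refine ⟨⟨fun a b => ?_⟩, ⟨⟨0, smul_zero _⟩⟩⟩
        apply Subtype.ext
        have ha : ∀ a : {v : Q // f₀ • v = 0}, a.1 = 0 := fun a => by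
          by_contra h; exact hcon a.1 h a.2
        rw [ha a, ha b]
      rw [hk f₀ hf₀] at h1
      exact absurd h1 (Nat.one_lt_pow (Nat.mul_pos hdpos hmf).ne' hq1).ne'
    have hS := isAtom_span hirr hv₀ hfv₀
    obtain ⟨A, hA⟩ := exists_isCompl (Submodule.span F[X] {v₀})
    have hAco : IsCoatom A := hA.isAtom_iff_isCoatom.1 hS
    have hcompl : ∀ Y : Submodule F[X] Q, Y ⊓ A = ⊥ → Y ≠ ⊥ → IsCompl Y A := by
      intro Y h1 h2
      refine ⟨disjoint_iff.2 h1, codisjoint_iff.2 ?_⟩
      apply hAco.2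
      refine lt_of_le_of_ne le_sup_right ?_
      intro h3
      apply h2
      have h4 : Y ≤ A := by rw [h3]; exact le_sup_left
      rw [← h1]; exact (inf_eq_left.2 h4).symm
    have hiso : ∀ Y : Submodule F[X] Q, IsCompl Y A → Nonempty (Y ≃ₗ[F[X]] Submodule.span F[X] {v₀}) := by
      intro Y hY
      exact ⟨(Submodule.quotientEquivOfIsCompl A Y hY.symm).symm.trans (Submodule.quotientEquivOfIsCompl A _ hA.symm)⟩
    have hkillS : ∀ w : Submodule.span F[X] {v₀}, f₀ • w = 0 := by
      rintro ⟨w, hw⟩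
      obtain ⟨a, rfl⟩ := Submodule.mem_span_singleton.1 hw
      apply Subtype.ext
      change f₀ • a • v₀ = 0
      rw [smul_comm, hfv₀, smul_zero]
    have hkS0 : kc (Submodule.span F[X] {v₀}) f₀ = Nat.card F ^ f₀.natDegree := by
      rw [← card_span hirr hv₀ hfv₀]
      exact Nat.card_congr (Equiv.subtypeUnivEquiv hkillS)
    have hkS : ∀ f ∈ s, f ≠ f₀ → kc (Submodule.span F[X] {v₀}) f = 1 := by
      intro f hf hne
      unfold kc
      rw [Nat.card_eq_one_iff_unique]
      have h1 : ∀ a : {v : Submodule.span F[X] {v₀} // f • v = 0}, a.1 = 0 := by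
        intro a
        obtain ⟨x, y, hxy⟩ := hcop f hf f₀ hf₀ hne
        have : (1 : F[X]) • a.1 = 0 := by
          rw [← hxy, add_smul, mul_smul, mul_smul, a.2, hkillS, smul_zero, smul_zero, add_zero]
        rwa [one_smul] at this
      refine ⟨⟨fun a b => ?_⟩, ⟨⟨0, smul_zero _⟩⟩⟩
      apply Subtype.ext
      rw [h1 a, h1 b]
    have hkA0 : kc A f₀ = Nat.card F ^ (f₀.natDegree * (m f₀ - 1)) := by
      have h1 := kc_compl hA f₀
      rw [hkS0, hk f₀ hf₀] at h1
      have h2 : f₀.natDegree * m f₀ = f₀.natDegree + f₀.natDegree * (m f₀ - 1) := by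
        obtain ⟨k, hk⟩ : ∃ k, m f₀ = k + 1 := ⟨m f₀ - 1, by omega⟩
        rw [hk, Nat.add_sub_cancel]; ring
      rw [h2, pow_add] at h1
      exact (Nat.eq_of_mul_eq_mul_left (by omega) h1).symm
    have hkA : ∀ f ∈ s, f ≠ f₀ → kc A f = Nat.card F ^ (f.natDegree * m f) := by
      intro f hf hne
      have h1 := kc_compl hA f
      rw [hkS f hf hne, one_mul, hk f hf] at h1
      exact h1.symm
    have hval : ∀ Y : Submodule F[X] Q, Y ⊓ A = ⊥ → Y ≠ ⊥ → M Y = val (Nat.card F : ℂ) s (Function.update m f₀ (m f₀ - 1)) := by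
      intro Y h1 h2
      have hY := hcompl Y h1 h2
      have hfin : Finite (Q ⧸ Y) := Finite.of_surjective _ (Submodule.mkQ_surjective Y)
      have h3 := ih (Q ⧸ Y) (Function.update m f₀ (m f₀ - 1)) ?_ ?_ ?_ _ (isMob_quot hM Y)
      · rw [← h3]
        congr 1
        exact (Submodule.ker_mkQ Y).symm
      · have h5 : m f₀ + ∑ f ∈ s.erase f₀, m f = N + 1 := by
          rw [Finset.add_sum_erase s m hf₀]; exact hm
        rw [← Finset.add_sum_erase s _ hf₀, Function.update_self, Finset.sum_congr rfl (g := fun f => m f)]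
        · omega
        · intro f hf
          rw [Function.update_of_ne (Finset.ne_of_mem_erase hf)]
      · intro v
        obtain ⟨w, rfl⟩ := Submodule.mkQ_surjective Y v
        rw [← map_smul, hkill, map_zero]
      · intro f hf
        rw [kc_congr (Submodule.quotientEquivOfIsCompl Y A hY) f]
        by_cases hne : f = f₀
        · rw [hne, Function.update_self, hkA0]
        · rw [Function.update_of_ne hne, hkA f hf hne]
    -- counting the complements
    have hcount : Nat.card {Y : Submodule F[X] Q // Y ⊓ A = ⊥ ∧ Y ≠ ⊥} = Nat.card F ^ (f₀.natDegree * (m f₀ - 1)) := by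
      have hkY : ∀ Y : Submodule F[X] Q, Y ⊓ A = ⊥ → Y ≠ ⊥ → ∀ y ∈ Y, f₀ • y = 0 := by
        intro Y h1 h2 y hy
        obtain ⟨e⟩ := hiso Y (hcompl Y h1 h2)
        have h3 : f₀ • (⟨y, hy⟩ : Y) = 0 := by
          apply e.injective
          rw [map_smul, hkillS, map_zero]
        exact congrArg Subtype.val h3
      have hspan : ∀ Y : Submodule F[X] Q, Y ⊓ A = ⊥ → Y ≠ ⊥ → ∀ y ∈ Y, y ≠ 0 → Y = Submodule.span F[X] {y} := by
        intro Y h1 h2 y hy hy0
        have hat : IsAtom Y := (hcompl Y h1 h2).isAtom_iff_isCoatom.2 hAco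
        have h3 : Submodule.span F[X] {y} ≤ Y := by
          rw [Submodule.span_singleton_le_iff_mem]; exact hy
        rcases hat.le_iff.1 h3 with h4 | h4
        · exact absurd (Submodule.span_singleton_eq_bot.1 h4) hy0
        · exact h4.symm
      have hnotA : ∀ Y : Submodule F[X] Q, Y ⊓ A = ⊥ → ∀ y ∈ Y, y ≠ 0 → y ∉ A := by
        intro Y h1 y hy hy0 hyA
        apply hy0
        have : y ∈ Y ⊓ A := ⟨hy, hyA⟩
        rw [h1] at this
        exact (Submodule.mem_bot _).1 this
      have hE : Nat.card (Σ Y : {Y : Submodule F[X] Q // Y ⊓ A = ⊥ ∧ Y ≠ ⊥}, {y : Y.1 // y ≠ 0}) =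
          Nat.card {v : Q // f₀ • v = 0 ∧ v ∉ A} := by
        apply Nat.card_congr
        refine Equiv.ofBijective (fun p => ⟨p.2.1.1, hkY p.1.1 p.1.2.1 p.1.2.2 _ p.2.1.2,
          hnotA p.1.1 p.1.2.1 _ p.2.1.2 (fun h => p.2.2 (Subtype.ext h))⟩) ⟨?_, ?_⟩
        · rintro ⟨⟨Y, hY⟩, ⟨⟨y, hy⟩, hy0⟩⟩ ⟨⟨Y', hY'⟩, ⟨⟨y', hy'⟩, hy0'⟩⟩ h
          have h1 : y = y' := congrArg Subtype.val h
          subst h1
          have h2 : Y = Y' := by
            rw [hspan Y hY.1 hY.2 y hy (fun h => hy0 (Subtype.ext h)),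
              hspan Y' hY'.1 hY'.2 y hy' (fun h => hy0' (Subtype.ext h))]
          subst h2
          rfl
        · rintro ⟨v, hv1, hv2⟩
          have hv0 : v ≠ 0 := fun h => hv2 (h ▸ A.zero_mem)
          have hat := isAtom_span hirr hv0 hv1
          have h1 : Submodule.span F[X] {v} ⊓ A = ⊥ := by
            rcases hat.le_iff.1 (inf_le_left : Submodule.span F[X] {v} ⊓ A ≤ _) with h4 | h4
            · exact h4
            · exfalso
              apply hv2
              have h5 : Submodule.span F[X] {v} ≤ A := inf_eq_left.1 h4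
              exact h5 (Submodule.mem_span_singleton_self v)
          exact ⟨⟨⟨Submodule.span F[X] {v}, h1, hat.1⟩, ⟨⟨v, Submodule.mem_span_singleton_self v⟩,
            fun h => hv0 (congrArg Subtype.val h)⟩⟩, rfl⟩
      have hfibre : ∀ Y : {Y : Submodule F[X] Q // Y ⊓ A = ⊥ ∧ Y ≠ ⊥}, Nat.card {y : Y.1 // y ≠ 0} = Nat.card F ^ f₀.natDegree - 1 := by
        intro Y
        obtain ⟨e⟩ := hiso Y.1 (hcompl Y.1 Y.2.1 Y.2.2)
        have h1 : Nat.card Y.1 = Nat.card F ^ f₀.natDegree := by
          rw [← card_span hirr hv₀ hfv₀]; exact Nat.card_congr e.toEquiv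
        have := Fintype.ofFinite Y.1
        rw [← h1, Nat.card_eq_fintype_card, Nat.card_eq_fintype_card, Fintype.card_subtype_compl, Fintype.card_subtype_eq]
      rw [Nat.card_sigma, Finset.sum_congr rfl (fun Y _ => hfibre Y), Finset.sum_const, smul_eq_mul, Finset.card_univ,
        ← Nat.card_eq_fintype_card] at hE
      have hsplit : kc Q f₀ = Nat.card {v : Q // f₀ • v = 0 ∧ v ∉ A} + kc A f₀ := by
        have := Fintype.ofFinite Q
        have h1 : kc A f₀ = Nat.card {v : Q // f₀ • v = 0 ∧ v ∈ A} := by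
          apply Nat.card_congr
          exact
            { toFun := fun a => ⟨a.1.1, congrArg Subtype.val a.2, a.1.2⟩
              invFun := fun a => ⟨⟨a.1, a.2.2⟩, Subtype.ext a.2.1⟩
              left_inv := fun a => rfl
              right_inv := fun a => rfl }
        rw [h1, kc, Nat.card_eq_fintype_card, Nat.card_eq_fintype_card, Nat.card_eq_fintype_card,
          Fintype.card_subtype, Fintype.card_subtype, Fintype.card_subtype, ← Finset.card_filter_add_card_filter_not
            (s := Finset.univ.filter (fun v : Q => f₀ • v = 0)) (p := fun v => v ∉ A), Finset.filter_filter, Finset.filter_filter]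
        simp only [not_not]
      rw [← hE, hk f₀ hf₀, hkA0] at hsplit
      have h2 : f₀.natDegree * m f₀ = f₀.natDegree + f₀.natDegree * (m f₀ - 1) := by
        obtain ⟨k, hk⟩ : ∃ k, m f₀ = k + 1 := ⟨m f₀ - 1, by omega⟩
        rw [hk, Nat.add_sub_cancel]; ring
      rw [h2, pow_add] at hsplit
      obtain ⟨a, ha⟩ : ∃ a, Nat.card F ^ f₀.natDegree = a + 1 := ⟨Nat.card F ^ f₀.natDegree - 1, by omega⟩
      rw [ha, Nat.add_sub_cancel] at hsplit
      have ha0 : 0 < a := by omega
      have h3 : a * (Nat.card F ^ (f₀.natDegree * (m f₀ - 1))) = a * Nat.card {Y : Submodule F[X] Q // Y ⊓ A = ⊥ ∧ Y ≠ ⊥} := by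
        have h4 : (a + 1) * Nat.card F ^ (f₀.natDegree * (m f₀ - 1)) = a * Nat.card F ^ (f₀.natDegree * (m f₀ - 1)) +
          Nat.card F ^ (f₀.natDegree * (m f₀ - 1)) := by ring
        rw [h4] at hsplit
        rw [Nat.add_right_cancel hsplit]; ring
      exact (Nat.eq_of_mul_eq_mul_left ha0 h3).symm
    -- conclusion
    have hw := weisner hM hAco.1 ⊥ bot_le
    rw [← Finset.add_sum_erase _ _ (Finset.mem_univ (⊥ : Submodule F[X] Q)), if_pos (bot_inf_eq A)] at hw
    have hsum : ∑ Y ∈ Finset.univ.erase (⊥ : Submodule F[X] Q), (if Y ⊓ A = ⊥ then M Y else 0) =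
        (Nat.card F : ℂ) ^ (f₀.natDegree * (m f₀ - 1)) * val (Nat.card F : ℂ) s (Function.update m f₀ (m f₀ - 1)) := by
      have h1 : ∀ Y ∈ Finset.univ.erase (⊥ : Submodule F[X] Q), (if Y ⊓ A = ⊥ then M Y else 0) =
          (if Y ⊓ A = ⊥ then val (Nat.card F : ℂ) s (Function.update m f₀ (m f₀ - 1)) else 0) := by
        intro Y hY
        by_cases h2 : Y ⊓ A = ⊥
        · rw [if_pos h2, if_pos h2, hval Y h2 (Finset.ne_of_mem_erase hY)]
        · rw [if_neg h2, if_neg h2]
      rw [Finset.sum_congr rfl h1, ← Finset.sum_filter, Finset.sum_const, nsmul_eq_mul]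
      congr 1
      have h3 : ((Finset.univ.erase (⊥ : Submodule F[X] Q)).filter (fun Y => Y ⊓ A = ⊥)).card =
          Nat.card {Y : Submodule F[X] Q // Y ⊓ A = ⊥ ∧ Y ≠ ⊥} := by
        rw [Nat.card_eq_fintype_card, Fintype.card_subtype]
        congr 1
        ext Y
        simp only [Finset.mem_filter, Finset.mem_erase, Finset.mem_univ, and_true, true_and]
        tauto
      rw [h3, hcount]
      push_cast
      rfl
    have hw2 : M ⊥ + (Nat.card F : ℂ) ^ (f₀.natDegree * (m f₀ - 1)) *
        val (Nat.card F : ℂ) s (Function.update m f₀ (m f₀ - 1)) = 0 := by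
      rw [← hsum]; convert hw
    rw [val_step _ s m hf₀ hmf]
    linear_combination hw2

end H45.StC
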