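import Mathlib
import Cfsg.Agent.Lib.H45.JCyc

/-!
# Kernels of irreducible polynomials in a semisimple endomorphism (helper45)
-/

set_option autoImplicit false
set_option linter.unusedSectionVars false
set_option linter.unusedVariables false

namespace H45.StD

open H45.InvRec H45.TrFn H45.JNorm H45.JCyc Module Polynomial UniqueFactorizationMonoid

universe u
variable {F : Type u} [Field F]

theorem cyc_restrict {V : Type u} [AddCommGroup V] [Module F V] [Finite V] (g : V →ₗ[F] V) (v : V) :
    cyc (g.restrict (cyc_inv g v) : cyc g v →ₗ[F] cyc g v) ⟨v, mem_cyc g v⟩ = ⊤ := by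
  rw [eq_top_iff]
  rintro ⟨w, hw⟩ _
  obtain ⟨p, rfl⟩ := mem_cyc_iff.1 hw
  rw [mem_cyc_iff]
  refine ⟨p, Subtype.ext ?_⟩
  rw [aeval_restrict_coe]

theorem cyc_ne_bot {V : Type u} [AddCommGroup V] [Module F V] [Finite V] (g : V →ₗ[F] V) {v : V} (hv : v ≠ 0) :
    cyc g v ≠ ⊥ := by
  intro h
  apply hv
  have := mem_cyc g v
  rw [h] at this
  exact (Submodule.mem_bot F).1 this

theorem finrank_quot_lt {V : Type u} [AddCommGroup V] [Module F V] [Finite V] {C : Submodule F V} (hC : C ≠ ⊥) :
    finrank F (V ⧸ C) < finrank F V := by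
  have : Module.Finite F V := Module.Finite.of_finite
  have h1 := Submodule.finrank_quotient_add_finrank C
  have h2 : 0 < finrank F C := by
    have := Submodule.nontrivial_iff_ne_bot.2 hC
    exact Module.finrank_pos
  omega

theorem charpoly_of_finrank_zero {V : Type u} [AddCommGroup V] [Module F V] [Finite V] (g : V →ₗ[F] V)
    (h : finrank F V = 0) : g.charpoly = 1 := by
  apply Polynomial.eq_one_of_monic_natDegree_zero (LinearMap.charpoly_monic g)
  rw [LinearMap.charpoly_natDegree, h]

theorem exists_ker {f : F[X]} (hf : Irreducible f) : ∀ (N : ℕ) (V : Type u) [AddCommGroup V] [Module F V] [Finite V],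
    finrank F V ≤ N → ∀ g : V →ₗ[F] V, f ∣ g.charpoly → ∃ v : V, v ≠ 0 ∧ aeval g f v = 0 := by
  intro N
  induction N with
  | zero =>
    intro V _ _ _ hN g hdvd
    rw [charpoly_of_finrank_zero g (by omega)] at hdvd
    exact absurd (isUnit_of_dvd_one hdvd) hf.not_isUnit
  | succ N ih =>
    intro V _ _ _ hN g hdvd
    by_cases h0 : finrank F V = 0
    · rw [charpoly_of_finrank_zero g h0] at hdvd
      exact absurd (isUnit_of_dvd_one hdvd) hf.not_isUnit
    have : Nontrivial V := Module.nontrivial_of_finrank_pos (R := F) (by omega)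
    obtain ⟨v, hv⟩ := exists_ne (0 : V)
    rw [charpoly_eq_mul g (cyc g v) (cyc_inv g v)] at hdvd
    have hmin := minpoly_eq_charpoly (cyc_restrict g v)
    by_cases h1 : f ∣ (g.restrict (cyc_inv g v) : cyc g v →ₗ[F] cyc g v).charpoly
    · rw [← hmin] at h1
      obtain ⟨h, hh⟩ := h1
      have hne : aeval (g.restrict (cyc_inv g v) : cyc g v →ₗ[F] cyc g v) h ≠ 0 := by
        intro h2
        have h3 := minpoly.dvd F _ h2
        have hmon : (minpoly F (g.restrict (cyc_inv g v) : cyc g v →ₗ[F] cyc g v)).Monic := minpoly.monic (LinearMap.isIntegral _)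
        have hh0 : h ≠ 0 := by rintro rfl; rw [mul_zero] at hh; exact hmon.ne_zero hh
        have h4 := natDegree_le_of_dvd h3 hh0
        rw [hh, natDegree_mul hf.ne_zero hh0] at h4
        have := hf.natDegree_pos
        omega
      obtain ⟨c, hc⟩ : ∃ c, aeval (g.restrict (cyc_inv g v) : cyc g v →ₗ[F] cyc g v) h c ≠ 0 := by
        by_contra hcon
        push Not at hcon
        exact hne (LinearMap.ext hcon)
      refine ⟨(aeval (g.restrict (cyc_inv g v) : cyc g v →ₗ[F] cyc g v) h c : V), fun h2 => hc (Subtype.ext h2), ?_⟩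
      rw [← aeval_restrict_coe (cyc_inv g v)]
      have h3 : aeval (g.restrict (cyc_inv g v) : cyc g v →ₗ[F] cyc g v) f (aeval (g.restrict (cyc_inv g v) : cyc g v →ₗ[F] cyc g v) h c) = 0 := by
        have := minpoly.aeval F (g.restrict (cyc_inv g v) : cyc g v →ₗ[F] cyc g v)
        rw [hh, map_mul] at this
        exact LinearMap.congr_fun this c
      rw [h3]; rfl
    · have h2 := (hf.prime.dvd_or_dvd hdvd).resolve_left h1
      have hlt := finrank_quot_lt (cyc_ne_bot g hv)
      obtain ⟨w', hw', hfw'⟩ := ih (V ⧸ cyc g v) (by omega) _ h2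
      obtain ⟨w, rfl⟩ := Submodule.mkQ_surjective _ w'
      rw [aeval_mapQ, Submodule.mkQ_apply, Submodule.Quotient.mk_eq_zero] at hfw'
      have hwC : w ∉ cyc g v := by
        intro h; apply hw'
        rw [Submodule.mkQ_apply, Submodule.Quotient.mk_eq_zero]; exact h
      obtain ⟨a, b, hab⟩ := (hf.coprime_iff_not_dvd).2 h1
      have hc := aeval_restrict_coe (cyc_inv g v) (b * (g.restrict (cyc_inv g v) : cyc g v →ₗ[F] cyc g v).charpoly) ⟨_, hfw'⟩
      rw [map_mul, LinearMap.aeval_self_charpoly, mul_zero] at hc
      have hc' : aeval g (b * (g.restrict (cyc_inv g v) : cyc g v →ₗ[F] cyc g v).charpoly) (aeval g f w) = 0 := hc.symm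
      refine ⟨w - aeval g a (aeval g f w), ?_, ?_⟩
      · intro h
        apply hwC
        rw [sub_eq_zero] at h
        rw [h]
        exact aeval_mem (cyc_inv g v) a hfw'
      · rw [map_sub, sub_eq_zero]
        have h3 : aeval g (a * f + b * (g.restrict (cyc_inv g v) : cyc g v →ₗ[F] cyc g v).charpoly) (aeval g f w) = aeval g f w := by
          rw [hab, map_one]; rfl
        rw [map_add, LinearMap.add_apply, hc', add_zero, mul_comm a f, map_mul] at h3
        exact h3.symm

theorem sq_ker {V : Type u} [AddCommGroup V] [Module F V] {f P : F[X]} (hf : Irreducible f) (hP : Squarefree P)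
    {g : V →ₗ[F] V} (hg : aeval g P = 0) {w : V} (hw : aeval g f (aeval g f w) = 0) : aeval g f w = 0 := by
  have key : ∀ a b : F[X], a * (f * f) + b * P = f ∨ a * (f * f) + b * P = 1 → aeval g f w = 0 := by
    intro a b hab
    have h1 : aeval g (a * (f * f) + b * P) w = 0 := by
      rw [map_add, map_mul, map_mul, map_mul, hg, mul_zero, add_zero]
      change aeval g a (aeval g f (aeval g f w)) = 0
      rw [hw, map_zero]
    rcases hab with hab | hab
    · rw [hab] at h1; exact h1
    · rw [hab, map_one] at h1
      have h2 : w = 0 := h1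
      rw [h2, map_zero]
  by_cases hfP : f ∣ P
  · obtain ⟨h, rfl⟩ := hfP
    have hfh : ¬ f ∣ h := by
      rintro ⟨k, rfl⟩
      apply hf.not_isUnit
      exact hP f ⟨k, by ring⟩
    obtain ⟨a, b, hab⟩ := (hf.coprime_iff_not_dvd).2 hfh
    exact key a b (Or.inl (by linear_combination f * hab))
  · have h1 : IsCoprime (f * f) P := IsCoprime.mul_left ((hf.coprime_iff_not_dvd).2 hfP) ((hf.coprime_iff_not_dvd).2 hfP)
    obtain ⟨a, b, hab⟩ := h1
    exact key a b (Or.inr hab)

theorem kcount [DecidableEq F] {f P : F[X]} (hf : Irreducible f) (hfm : f.Monic) (hP : Squarefree P) :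
    ∀ (N : ℕ) (V : Type u) [AddCommGroup V] [Module F V] [Finite V],
    finrank F V ≤ N → ∀ g : V →ₗ[F] V, aeval g P = 0 →
      Nat.card {v : V // aeval g f v = 0} = Nat.card F ^ (f.natDegree * (normalizedFactors g.charpoly).count f) := by
  intro N
  induction N with
  | zero =>
    intro V _ _ _ hN g hg
    rw [charpoly_of_finrank_zero g (by omega), normalizedFactors_one, Multiset.count_zero, mul_zero, pow_zero]
    have : Module.Finite F V := Module.Finite.of_finite
    have hsub : Subsingleton V := Module.finrank_zero_iff.1 (show finrank F V = 0 by omega)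
    rw [Nat.card_eq_one_iff_unique]
    exact ⟨⟨fun a b => Subtype.ext (Subsingleton.elim _ _)⟩, ⟨⟨0, map_zero _⟩⟩⟩
  | succ N ih =>
    intro V _ _ _ hN g hg
    by_cases hker : ∃ v : V, v ≠ 0 ∧ aeval g f v = 0
    · obtain ⟨v, hv, hfv⟩ := hker
      have hlt := finrank_quot_lt (cyc_ne_bot g hv)
      have hfC : aeval (g.restrict (cyc_inv g v) : cyc g v →ₗ[F] cyc g v) f = 0 := by
        apply LinearMap.ext
        rintro ⟨c, hc⟩
        obtain ⟨p, rfl⟩ := mem_cyc_iff.1 hc
        apply Subtype.ext
        rw [aeval_restrict_coe]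
        change aeval g f (aeval g p v) = 0
        have h1 : aeval g (f * p) v = aeval g (p * f) v := by rw [mul_comm]
        rw [map_mul, map_mul] at h1
        have h2 : aeval g f (aeval g p v) = aeval g p (aeval g f v) := h1
        rw [h2, hfv, map_zero]
      have hnt : Nontrivial (cyc g v) := Submodule.nontrivial_iff_ne_bot.2 (cyc_ne_bot g hv)
      have hchar : (g.restrict (cyc_inv g v) : cyc g v →ₗ[F] cyc g v).charpoly = f := by
        rw [← minpoly_eq_charpoly (cyc_restrict g v)]
        exact (minpoly.eq_of_irreducible_of_monic hf hfC hfm).symm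
      have hcardC : Nat.card (cyc g v) = Nat.card F ^ f.natDegree := by
        have : Module.Finite F (cyc g v) := Module.Finite.of_finite
        rw [Module.natCard_eq_pow_finrank (K := F), ← LinearMap.charpoly_natDegree (g.restrict (cyc_inv g v) : cyc g v →ₗ[F] cyc g v), hchar]
      have hg2 : aeval ((cyc g v).mapQ (cyc g v) g (cyc_inv g v)) P = 0 := by
        apply LinearMap.ext
        intro w
        obtain ⟨w, rfl⟩ := Submodule.mkQ_surjective _ w
        rw [aeval_mapQ, hg]
        simp
      have hih := ih (V ⧸ cyc g v) (by omega) _ hg2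
      -- the cards
      have hcard : Nat.card {w : V // aeval g f w = 0} = Nat.card (cyc g v) *
          Nat.card {w : V ⧸ cyc g v // aeval ((cyc g v).mapQ (cyc g v) g (cyc_inv g v)) f w = 0} := by
        have hCK : ∀ w ∈ cyc g v, aeval g f w = 0 := by
          intro w hw
          have := LinearMap.congr_fun hfC ⟨w, hw⟩
          have h2 := congrArg Subtype.val this
          rw [aeval_restrict_coe] at h2
          exact h2
        have hsur : ∀ w : V, aeval ((cyc g v).mapQ (cyc g v) g (cyc_inv g v)) f ((cyc g v).mkQ w) = 0 → aeval g f w = 0 := by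
          intro w hw
          rw [aeval_mapQ, Submodule.mkQ_apply, Submodule.Quotient.mk_eq_zero] at hw
          exact sq_ker hf hP hg (hCK _ hw)
        let φ : LinearMap.ker (aeval g f) →ₗ[F] LinearMap.ker (aeval ((cyc g v).mapQ (cyc g v) g (cyc_inv g v)) f) :=
          LinearMap.codRestrict _ ((cyc g v).mkQ.comp (LinearMap.ker (aeval g f)).subtype) (by
            rintro ⟨w, hw⟩
            rw [LinearMap.mem_ker] at hw ⊢
            change aeval ((cyc g v).mapQ (cyc g v) g (cyc_inv g v)) f ((cyc g v).mkQ w) = 0
            rw [aeval_mapQ, hw, map_zero])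
        have hφs : Function.Surjective φ := by
          rintro ⟨w, hw⟩
          obtain ⟨w, rfl⟩ := Submodule.mkQ_surjective _ w
          exact ⟨⟨w, hsur w hw⟩, rfl⟩
        have hφk : Nat.card (LinearMap.ker φ) = Nat.card (cyc g v) := by
          apply Nat.card_congr
          exact
            { toFun := fun x => ⟨x.1.1, by
                have h1 : φ x.1 = 0 := x.2
                have h2 : (cyc g v).mkQ x.1.1 = 0 := congrArg Subtype.val h1
                rw [Submodule.mkQ_apply, Submodule.Quotient.mk_eq_zero] at h2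
                exact h2⟩
              invFun := fun x => ⟨⟨x.1, hCK x.1 x.2⟩, by
                rw [LinearMap.mem_ker]
                apply Subtype.ext
                change (cyc g v).mkQ x.1 = 0
                rw [Submodule.mkQ_apply, Submodule.Quotient.mk_eq_zero]
                exact x.2⟩
              left_inv := fun x => rfl
              right_inv := fun x => rfl }
        have h1 := Submodule.card_eq_card_quotient_mul_card (LinearMap.ker φ)
        rw [Nat.card_congr (φ.quotKerEquivOfSurjective hφs).toEquiv, hφk] at h1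
        exact h1
      rw [hcard, hcardC, hih, charpoly_eq_mul g (cyc g v) (cyc_inv g v), hchar,
        normalizedFactors_mul hf.ne_zero (LinearMap.charpoly_monic _).ne_zero, normalizedFactors_irreducible hf,
        hfm.normalize_eq_self, Multiset.count_add, Multiset.count_singleton_self, ← pow_add]
      congr 1
      ring
    · have hnd : ¬ f ∣ g.charpoly := fun h => hker (exists_ker hf _ V le_rfl g h)
      have hcount : (normalizedFactors g.charpoly).count f = 0 := by
        rw [Multiset.count_eq_zero]
        intro h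
        exact hnd (dvd_of_mem_normalizedFactors h)
      rw [hcount, mul_zero, pow_zero, Nat.card_eq_one_iff_unique]
      push Not at hker
      have h1 : ∀ a : {v : V // aeval g f v = 0}, a.1 = 0 := fun a => by
        by_contra h; exact hker a.1 h a.2
      refine ⟨⟨fun a b => Subtype.ext ?_⟩, ⟨⟨0, map_zero _⟩⟩⟩
      rw [h1 a, h1 b]

end H45.StD
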