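import Mathlib
import Cfsg.Prelude.Def_LinearParabolics
import Cfsg.Prelude.Def_Characters
import Cfsg.Agent.Lib.H45.ParabolicCard
import Cfsg.Agent.Lib.H45.FlagOrbits
import Cfsg.Agent.Lib.H45.JacobiTrudi
import Cfsg.Agent.Lib.H18.CharPerm

/-!
# The unipotent characters of `GL_n(q)`: degrees, inner products
-/

set_option autoImplicit false

namespace H45.Unip

open Finset H45.PCard

/-- q-integers -/
def qn (q m : ℕ) : ℕ := ∑ l ∈ range m, q ^ l

theorem qn_succ (q m : ℕ) : qn q (m + 1) = qn q m + q ^ m := by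
  unfold qn; rw [Finset.sum_range_succ]

theorem qn_add (q m k : ℕ) : qn q (k + m) = qn q k + q ^ k * qn q m := by
  unfold qn
  rw [Finset.sum_range_add, Finset.mul_sum]
  congr 1
  apply Finset.sum_congr rfl
  intro i _
  rw [pow_add]

theorem qfac_succ (q m : ℕ) : qfac q (m + 1) = qfac q m * qn q (m + 1) := by
  unfold qfac qn
  rw [Finset.prod_range_succ]

theorem qfac_pos {q : ℕ} (m : ℕ) (hq : 0 < q) : 0 < qfac q m := by
  unfold qfac
  apply Finset.prod_pos
  intro j _
  apply Finset.sum_pos (fun _ _ => by positivity) ⟨0, by simp⟩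

theorem qn_strictMono {q : ℕ} (hq : 0 < q) : StrictMono (qn q) := by
  apply strictMono_nat_of_lt_succ
  intro m
  rw [qn_succ]
  have : 0 < q ^ m := by positivity
  omega

theorem falling_le (q : ℕ) (l k : ℕ) (h : k ≤ l) : (q : ℂ) ^ (∑ s ∈ range k, s) * (qfac q l : ℂ) =
    (qfac q (l - k) : ℂ) * ∏ s ∈ range k, ((qn q l : ℂ) - (qn q s : ℂ)) := by
  induction k with
  | zero => simp
  | succ k ih =>
    have ih := ih (by omega)
    rw [Finset.sum_range_succ, Finset.prod_range_succ, pow_add]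
    have h1 : l - k = (l - (k + 1)) + 1 := by omega
    rw [h1, qfac_succ] at ih
    have h2 := qn_add q (l - (k + 1) + 1) k
    have h3 : k + (l - (k + 1) + 1) = l := by omega
    rw [h3] at h2
    have h4 : (qn q l : ℂ) - (qn q k : ℂ) = (q : ℂ) ^ k * (qn q (l - (k + 1) + 1) : ℂ) := by
      rw [h2]; push_cast; ring
    rw [h4]
    push_cast at ih
    calc (q : ℂ) ^ (∑ s ∈ range k, s) * (q : ℂ) ^ k * (qfac q l : ℂ) = (q : ℂ) ^ k * ((q : ℂ) ^ (∑ s ∈ range k, s) * (qfac q l : ℂ)) := by ring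
      _ = _ := by rw [ih]; ring

theorem falling_gt (q : ℕ) (l k : ℕ) (h : l < k) : ∏ s ∈ range k, ((qn q l : ℂ) - (qn q s : ℂ)) = 0 :=
  Finset.prod_eq_zero (mem_range.2 h) (sub_self _)

theorem sum_sub_perm {n : ℕ} (ν : Fin n → ℕ) (hsum : ∑ i, ν i = n) (κ : Equiv.Perm (Fin n)) (hκ : ∀ i : Fin n, (κ i).val ≤ ν i + i.val) :
    ∑ i : Fin n, (ν i + i.val - (κ i).val) = n := by
  have h1 : ∑ i : Fin n, (ν i + i.val - (κ i).val) + ∑ i : Fin n, (κ i).val = ∑ i : Fin n, (ν i + i.val) := by
    rw [← Finset.sum_add_distrib]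
    apply Finset.sum_congr rfl
    intro i _
    have := hκ i
    omega
  have h2 : ∑ i : Fin n, (κ i).val = ∑ i : Fin n, i.val := Equiv.sum_comp κ (fun i : Fin n => i.val)
  rw [Finset.sum_add_distrib, h2, hsum] at h1
  omega

theorem fixed_one {G : Type*} [Group G] (H : Subgroup G) : Cfsg.fixedPointCharacter H 1 = (Nat.card (G ⧸ H) : ℂ) := by
  unfold Cfsg.fixedPointCharacter
  congr 1
  apply Nat.card_congr
  exact Equiv.subtypeUnivEquiv (fun x => one_smul _ x)

theorem sum_sum_range (n : ℕ) : ∑ j : Fin n, ∑ s ∈ range j.val, s = n * (n - 1) * (n - 2) / 6 := by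
  rw [Fin.sum_univ_eq_sum_range (fun j => ∑ s ∈ range j, s) n]
  have h1 : (∑ j ∈ range n, ∑ s ∈ range j, s) * 6 = n * (n - 1) * (n - 2) := by
    induction n with
    | zero => rfl
    | succ n ih =>
      rw [Finset.sum_range_succ, add_mul, ih]
      have h2 := Finset.sum_range_id_mul_two n
      have h3 : (∑ s ∈ range n, s) * 6 = n * (n - 1) * 3 := by omega
      rw [h3]
      rcases n with _ | _ | n
      · rfl
      · rfl
      · simp only [Nat.add_sub_cancel]
        have e1 : n + 1 + 1 - 1 = n + 1 := rfl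
        have e2 : n + 1 + 1 - 2 = n := rfl
        have e3 : n + 1 + 1 + 1 - 2 = n + 1 := rfl
        rw [e2, e3]
        ring
  omega

/-- The degree formula. -/
theorem degree {F : Type*} [Field F] [Fintype F] {n : ℕ} (ν : Fin n → ℕ) (hsum : ∑ i, ν i = n) :
    Cfsg.unipotentCharacterGL n F ν 1 * (Fintype.card F : ℂ) ^ (∑ j : Fin n, ∑ s ∈ range j.val, s) *
        ∏ i : Fin n, (qfac (Fintype.card F) (ν i + i.val) : ℂ) =
      (qfac (Fintype.card F) n : ℂ) *
        ∏ i : Fin n, ∏ j ∈ Ioi i, ((qn (Fintype.card F) (ν j + j.val) : ℂ) - (qn (Fintype.card F) (ν i + i.val) : ℂ)) := by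
  set q := Fintype.card F with hq
  have hq1 : 1 < q := Fintype.one_lt_card
  have hdet : ∏ i : Fin n, ∏ j ∈ Ioi i, ((qn q (ν j + j.val) : ℂ) - (qn q (ν i + i.val) : ℂ)) =
      ∑ κ : Equiv.Perm (Fin n), ((Equiv.Perm.sign κ : ℤ) : ℂ) * ∏ i : Fin n, ∏ s ∈ range (κ i).val, ((qn q (ν i + i.val) : ℂ) - (qn q s : ℂ)) := by
    rw [← Matrix.det_vandermonde (fun i : Fin n => (qn q (ν i + i.val) : ℂ))]
    rw [Matrix.det_eval_matrixOfPolynomials_eq_det_vandermonde (fun i : Fin n => (qn q (ν i + i.val) : ℂ))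
      (fun j : Fin n => ∏ s ∈ range j.val, (Polynomial.X - Polynomial.C (qn q s : ℂ)))
      (fun j => by rw [Polynomial.natDegree_finsetProd_X_sub_C_eq_card, card_range])
      (fun j => Polynomial.monic_prod_of_monic _ _ (fun s _ => Polynomial.monic_X_sub_C _))]
    rw [← Matrix.det_transpose, Matrix.det_apply']
    apply Finset.sum_congr rfl
    intro κ _
    congr 1
    apply Finset.prod_congr rfl
    intro i _
    rw [Matrix.transpose_apply, Matrix.of_apply, Polynomial.eval_prod]
    simp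
  rw [hdet]
  unfold Cfsg.unipotentCharacterGL
  rw [Finset.sum_mul, Finset.sum_mul, Finset.mul_sum]
  apply Finset.sum_congr rfl
  intro κ _
  have hperm : ∑ j : Fin n, ∑ s ∈ range j.val, s = ∑ j : Fin n, ∑ s ∈ range (κ j).val, s :=
    (Equiv.sum_comp κ (fun j : Fin n => ∑ s ∈ range j.val, s)).symm
  rw [hperm, ← Finset.prod_pow_eq_pow_sum, mul_assoc, ← Finset.prod_mul_distrib]
  split_ifs with hκ
  · have h1 := index_parabolic (F := F) (fun i => ν i + i.val - (κ i).val) (sum_sub_perm ν hsum κ hκ)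
    rw [Finset.prod_congr rfl (fun i _ => falling_le q (ν i + i.val) (κ i).val (hκ i)), Finset.prod_mul_distrib,
      fixed_one]
    rw [← hq] at h1
    rw [← h1]
    push_cast
    ring
  · push Not at hκ
    obtain ⟨i, hi⟩ := hκ
    rw [zero_mul, Finset.prod_eq_zero (mem_univ i) (falling_gt q _ _ hi)]
    ring

theorem degree_re_pos {F : Type*} [Field F] [Fintype F] {n : ℕ} (ν : Fin n → ℕ) (hmono : Monotone ν) (hsum : ∑ i, ν i = n) :
    0 < (Cfsg.unipotentCharacterGL n F ν 1).re := by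
  have h := degree (F := F) ν hsum
  set q := Fintype.card F with hq
  have hq1 : 1 < q := Fintype.one_lt_card
  -- everything is a positive real
  have h1 : ∃ a : ℝ, 0 < a ∧ (q : ℂ) ^ (∑ j : Fin n, ∑ s ∈ range j.val, s) * ∏ i : Fin n, (qfac q (ν i + i.val) : ℂ) = (a : ℂ) := by
    refine ⟨((q ^ (∑ j : Fin n, ∑ s ∈ range j.val, s) * ∏ i : Fin n, qfac q (ν i + i.val) : ℕ) : ℝ), ?_, by push_cast; rfl⟩
    have : 0 < ∏ i : Fin n, qfac q (ν i + i.val) := Finset.prod_pos fun i _ => qfac_pos _ (by omega)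
    have h2 : 0 < q ^ (∑ j : Fin n, ∑ s ∈ range j.val, s) := pow_pos (by omega) _
    exact_mod_cast Nat.mul_pos h2 this
  have h2 : ∃ b : ℝ, 0 < b ∧ (qfac q n : ℂ) *
        ∏ i : Fin n, ∏ j ∈ Ioi i, ((qn q (ν j + j.val) : ℂ) - (qn q (ν i + i.val) : ℂ)) = (b : ℂ) := by
    refine ⟨(qfac q n : ℝ) * ∏ i : Fin n, ∏ j ∈ Ioi i, ((qn q (ν j + j.val) : ℝ) - (qn q (ν i + i.val) : ℝ)), ?_, by push_cast; rfl⟩
    apply mul_pos
    · exact_mod_cast qfac_pos n (by omega)
    · apply Finset.prod_pos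
      intro i _
      apply Finset.prod_pos
      intro j hj
      rw [mem_Ioi] at hj
      rw [sub_pos]
      have h3 : ν i + i.val < ν j + j.val := by
        have := hmono hj.le
        have : i.val < j.val := hj
        omega
      exact_mod_cast qn_strictMono (by omega) h3
  obtain ⟨a, ha, ha'⟩ := h1
  obtain ⟨b, hb, hb'⟩ := h2
  rw [mul_assoc, ha', hb'] at h
  have h3 : Cfsg.unipotentCharacterGL n F ν 1 = ((b / a : ℝ) : ℂ) := by
    rw [Complex.ofReal_div, eq_div_iff]
    · exact h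
    · exact_mod_cast ha.ne'
  rw [h3, Complex.ofReal_re]
  positivity

open Cfsg in
theorem isGen_fixed {G : Type*} [Group G] [Finite G] (H : Subgroup G) : IsGeneralizedCharacter G (fixedPointCharacter H) := by
  have := Fintype.ofFinite G
  have h1 : fixedPointCharacter H = H18.CharPerm.permChar (G := G) (G ⧸ H) := rfl
  rw [h1, H18.CharPerm.permChar_quotient]
  exact H18.CharInd.isGen_ind H (H18.CharOrtho.isGen_one)

open Cfsg in
theorem isGen_unip {F : Type*} [Field F] [Fintype F] {n : ℕ} (ν : Fin n → ℕ) :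
    IsGeneralizedCharacter (GL (Fin n) F) (unipotentCharacterGL n F ν) := by
  classical
  have h1 : unipotentCharacterGL n F ν = ∑ κ : Equiv.Perm (Fin n), (if ∀ i : Fin n, (κ i).val ≤ ν i + i.val then
      (Equiv.Perm.sign κ : ℤ) • fixedPointCharacter (parabolicGL n F fun i => ν i + i.val - (κ i).val) else 0) := by
    funext g
    rw [Finset.sum_apply]
    unfold unipotentCharacterGL
    apply Finset.sum_congr rfl
    intro κ _
    split_ifs with h
    · rw [Pi.smul_apply, zsmul_eq_mul]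
    · rfl
  rw [h1]
  apply H18.CharOrtho.isGen_sum
  intro κ _
  split_ifs with h
  · exact H18.CharOrtho.isGen_zsmul _ (isGen_fixed _)
  · exact H18.CharOrtho.isGen_zero

open Cfsg in
theorem inner_unip {F : Type*} [Field F] [Fintype F] [DecidableEq F] {n : ℕ} (ν ν' : Fin n → ℕ) (hmono : Monotone ν)
    (hsum : ∑ i, ν i = n) (hmono' : Monotone ν') (hsum' : ∑ i, ν' i = n) :
    (Nat.card (GL (Fin n) F) : ℂ)⁻¹ * ∑ g : GL (Fin n) F, unipotentCharacterGL n F ν g * unipotentCharacterGL n F ν' g =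
      if ν = ν' then 1 else 0 := by
  have hl : StrictMono (fun i : Fin n => ν i + i.val) := fun i j hij => by
    have := hmono hij.le
    have : i.val < j.val := hij
    show ν i + i.val < ν j + j.val
    omega
  have hl' : StrictMono (fun i : Fin n => ν' i + i.val) := fun i j hij => by
    have := hmono' hij.le
    have : i.val < j.val := hij
    show ν' i + i.val < ν' j + j.val
    omega
  have hkey := H45.JT.key n _ _ hl hl'
  have heq : ((fun i : Fin n => ν i + i.val) = (fun i : Fin n => ν' i + i.val)) ↔ ν = ν' := by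
    constructor
    · intro h; funext i; have := congrFun h i; simpa using this
    · rintro rfl; rfl
  rw [if_congr heq rfl rfl] at hkey
  have hkey2 : (((if ν = ν' then 1 else 0 : ℤ) : ℤ) : ℂ) = if ν = ν' then 1 else 0 := by
    split_ifs <;> simp
  rw [← hkey2, ← hkey]
  unfold unipotentCharacterGL
  push_cast
  have e1 : ∑ g : GL (Fin n) F, (∑ κ : Equiv.Perm (Fin n), if ∀ i : Fin n, (κ i).val ≤ ν i + i.val then
      ((Equiv.Perm.sign κ : ℤ) : ℂ) * fixedPointCharacter (parabolicGL n F fun i => ν i + i.val - (κ i).val) g else 0) *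
      (∑ κ : Equiv.Perm (Fin n), if ∀ i : Fin n, (κ i).val ≤ ν' i + i.val then
      ((Equiv.Perm.sign κ : ℤ) : ℂ) * fixedPointCharacter (parabolicGL n F fun i => ν' i + i.val - (κ i).val) g else 0) =
      ∑ κ : Equiv.Perm (Fin n), ∑ κ' : Equiv.Perm (Fin n), ∑ g : GL (Fin n) F,
      (if ∀ i : Fin n, (κ i).val ≤ ν i + i.val then
      ((Equiv.Perm.sign κ : ℤ) : ℂ) * fixedPointCharacter (parabolicGL n F fun i => ν i + i.val - (κ i).val) g else 0) *
      (if ∀ i : Fin n, (κ' i).val ≤ ν' i + i.val then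
      ((Equiv.Perm.sign κ' : ℤ) : ℂ) * fixedPointCharacter (parabolicGL n F fun i => ν' i + i.val - (κ' i).val) g else 0) := by
    simp only [Finset.sum_mul_sum]
    rw [Finset.sum_comm]
    apply Finset.sum_congr rfl
    intro κ _
    rw [Finset.sum_comm]
  rw [e1, Finset.mul_sum]
  apply Finset.sum_congr rfl
  intro κ _
  by_cases hκ : ∀ i : Fin n, (κ i).val ≤ ν i + i.val
  · simp only [if_pos hκ]
    rw [Finset.mul_sum, Finset.mul_sum]
    apply Finset.sum_congr rfl
    intro κ' _
    by_cases hκ' : ∀ i : Fin n, (κ' i).val ≤ ν' i + i.val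
    · simp only [if_pos hκ']
      have h1 := H45.FlagOrbits.inner_parabolic (F := F) (fun i => ν i + i.val - (κ i).val) (fun i => ν' i + i.val - (κ' i).val)
        (sum_sub_perm ν hsum κ hκ) (sum_sub_perm ν' hsum' κ' hκ')
      rw [H45.FlagOrbits.range_tab _ _ (sum_sub_perm ν hsum κ hκ) (sum_sub_perm ν' hsum' κ' hκ')] at h1
      have h2 : (Nat.card (H45.JT.Tab n (fun i => ν i + i.val - (κ i).val) (fun i => ν' i + i.val - (κ' i).val)) : ℂ) =
        (Nat.card (GL (Fin n) F) : ℂ)⁻¹ * ∑ g : GL (Fin n) F,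
        Cfsg.fixedPointCharacter (Cfsg.parabolicGL n F (fun i => ν i + i.val - (κ i).val)) g *
          Cfsg.fixedPointCharacter (Cfsg.parabolicGL n F (fun i => ν' i + i.val - (κ' i).val)) g := h1.symm
      rw [h2, Finset.mul_sum, Finset.mul_sum, Finset.mul_sum, Finset.mul_sum]
      apply Finset.sum_congr rfl
      intro g _
      ring
    · simp only [if_neg hκ']
      simp
  · simp only [if_neg hκ]
    simp

open Cfsg in
theorem classInner_unip {F : Type*} [Field F] [Fintype F] {n : ℕ} [Fintype (GL (Fin n) F)] (ν ν' : Fin n → ℕ) (hmono : Monotone ν)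
    (hsum : ∑ i, ν i = n) (hmono' : Monotone ν') (hsum' : ∑ i, ν' i = n) :
    classInner (unipotentCharacterGL n F ν) (unipotentCharacterGL n F ν') = if ν = ν' then 1 else 0 := by
  classical
  rw [← inner_unip (F := F) ν ν' hmono hsum hmono' hsum',
    H18.CharOrtho.inner_fintype _ (instFintypeUnitsOfDecidableEq : Fintype (GL (Fin n) F)) (unipotentCharacterGL n F ν) (unipotentCharacterGL n F ν')]
  unfold classInner
  congr 1
  apply Finset.sum_congr rfl
  intro g _
  congr 1
  unfold unipotentCharacterGL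
  rw [map_sum]
  apply Finset.sum_congr rfl
  intro κ _
  split_ifs with h
  · rw [map_mul]
    unfold fixedPointCharacter
    rw [map_natCast, map_intCast]
  · rw [map_zero]

end H45.Unip
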