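import Mathlib
import Cfsg.Prelude.Def_LinearParabolics
import Cfsg.Agent.Lib.H45.StA
import Cfsg.Agent.Lib.H45.StB
import Cfsg.Agent.Lib.H45.StC
import Cfsg.Agent.Lib.H45.StD
import Cfsg.Agent.Lib.H45.UnipChar

/-!
# The Steinberg character of GL_n(q) on semisimple elements (helper45)
-/

set_option autoImplicit false
set_option linter.unusedSectionVars false
set_option linter.unusedVariables false

namespace H45.StE

open Matrix Module Polynomial H45.StA H45.StB

section chains

variable {α : Type*} [Fintype α] [PartialOrder α] [OrderTop α] (ρ : α → ℕ)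

/-- chains -/
def Ch (k : ℕ) (μ : Fin k → ℕ) (X : α) : Type _ :=
  {W : Fin (k + 1) → α // W 0 = X ∧ (∀ i : Fin k, W i.castSucc ≤ W i.succ ∧ ρ (W i.succ) = ρ (W i.castSucc) + μ i) ∧
    W (Fin.last k) = ⊤}

open Classical in
/-- the transition matrix -/
noncomputable def A (a : ℕ) (X Y : α) : ℂ := if X ≤ Y ∧ ρ Y = ρ X + a then 1 else 0

open Classical in
/-- the end vector -/
noncomputable def e (Y : α) : ℂ := if Y = ⊤ then 1 else 0

theorem P_eq (k : ℕ) : ∀ (μ : Fin k → ℕ) (X : α), P (A ρ) e k μ X = Nat.card (Ch ρ k μ X) := by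
  classical
  induction k with
  | zero =>
    intro μ X
    rw [P_zero, e]
    by_cases h : X = ⊤
    · rw [if_pos h]
      have h1 : Nat.card (Ch ρ 0 μ X) = 1 := by
        rw [Nat.card_eq_one_iff_unique]
        refine ⟨⟨fun a b => ?_⟩, ⟨⟨fun _ => X, rfl, fun i => i.elim0, h⟩⟩⟩
        apply Subtype.ext
        funext i
        have hi : i = 0 := Fin.ext (by omega)
        rw [hi, a.2.1, b.2.1]
      rw [h1, Nat.cast_one]
    · rw [if_neg h]
      have h1 : IsEmpty (Ch ρ 0 μ X) := ⟨fun a => h (a.2.1 ▸ a.2.2.2)⟩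
      rw [Nat.card_of_isEmpty, Nat.cast_zero]
  | succ k ih =>
    intro μ X
    have hfin : ∀ Y, Finite (Ch ρ k (fun i => μ i.succ) Y) := fun Y => by unfold Ch; infer_instance
    rw [P_succ]
    have h1 : Nat.card (Ch ρ (k + 1) μ X) =
        Nat.card (Σ Y : {Y : α // X ≤ Y ∧ ρ Y = ρ X + μ 0}, Ch ρ k (fun i => μ i.succ) Y.1) := by
      symm
      apply Nat.card_congr
      refine Equiv.ofBijective (fun p => ⟨Fin.cons X p.2.1, rfl, ?_, ?_⟩) ⟨?_, ?_⟩
      · intro i
        refine Fin.cases ?_ ?_ i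
        · have h2 : (Fin.cons X p.2.1 : Fin (k + 2) → α) (Fin.castSucc 0) = X := rfl
          have h3 : (Fin.cons X p.2.1 : Fin (k + 2) → α) (Fin.succ 0) = p.1.1 := by
            rw [Fin.cons_succ]; exact p.2.2.1
          rw [h2, h3]; exact p.1.2
        · intro j
          have h2 : (Fin.cons X p.2.1 : Fin (k + 2) → α) (Fin.castSucc j.succ) = p.2.1 j.castSucc := by
            rw [Fin.castSucc_succ, Fin.cons_succ]
          have h3 : (Fin.cons X p.2.1 : Fin (k + 2) → α) (Fin.succ j.succ) = p.2.1 j.succ := by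
            rw [Fin.cons_succ]
          rw [h2, h3]; exact p.2.2.2.1 j
      · have h2 : (Fin.cons X p.2.1 : Fin (k + 2) → α) (Fin.last (k + 1)) = p.2.1 (Fin.last k) := by
          rw [← Fin.succ_last, Fin.cons_succ]
        rw [h2]; exact p.2.2.2.2
      · rintro ⟨⟨Y, hY⟩, ⟨W, hW⟩⟩ ⟨⟨Y', hY'⟩, ⟨W', hW'⟩⟩ h
        have h2 : (Fin.cons X W : Fin (k + 2) → α) = Fin.cons X W' := congrArg Subtype.val h
        have h3 : W = W' := by
          funext i
          have := congrFun h2 i.succ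
          rw [Fin.cons_succ, Fin.cons_succ] at this
          exact this
        subst h3
        have h4 : Y = Y' := hW.1.symm.trans hW'.1
        subst h4
        rfl
      · rintro ⟨W, hW⟩
        refine ⟨⟨⟨W 1, ?_⟩, ⟨fun i => W i.succ, rfl, fun i => ?_, ?_⟩⟩, ?_⟩
        · have h2 := hW.2.1 0
          rw [← hW.1]; exact h2
        · exact hW.2.1 i.succ
        · change W (Fin.succ (Fin.last k)) = ⊤
          rw [Fin.succ_last]; exact hW.2.2
        · apply Subtype.ext
          change (Fin.cons X (fun i => W i.succ) : Fin (k + 2) → α) = W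
          rw [← hW.1]
          exact Fin.cons_self_tail W
    rw [h1, Nat.card_sigma, Nat.cast_sum]
    have h5 : ∀ Y, A ρ (μ 0) X Y * P (A ρ) e k (fun i => μ i.succ) Y =
        if X ≤ Y ∧ ρ Y = ρ X + μ 0 then (Nat.card (Ch ρ k (fun i => μ i.succ) Y) : ℂ) else 0 := by
      intro Y
      rw [ih, A]
      by_cases h : X ≤ Y ∧ ρ Y = ρ X + μ 0
      · rw [if_pos h, if_pos h, one_mul]
      · rw [if_neg h, if_neg h, zero_mul]
    rw [Finset.sum_congr rfl (fun Y _ => h5 Y), ← Finset.sum_filter]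
    exact Finset.sum_subtype _ (fun Y => by simp) _

end chains

section mobtr

open H45.StC

theorem isMob_iso {α β : Type*} [PartialOrder α] [OrderTop α] [Fintype α] [PartialOrder β] [OrderTop β] [Fintype β]
    (ψ : α ≃o β) {M : α → ℂ} (hM : IsMob M) : IsMob (fun b => M (ψ.symm b)) := by
  classical
  constructor
  · rw [map_top]; exact hM.top
  · intro X hX
    have h1 := hM.sum (ψ.symm X) (by
      intro h
      apply hX
      rw [← ψ.apply_symm_apply X, h, map_top])
    refine Eq.trans ?_ h1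
    rw [← Equiv.sum_comp ψ.symm.toEquiv]
    refine Finset.sum_congr rfl fun Y _ => ?_
    have h2 : ψ.symm.toEquiv Y = ψ.symm Y := rfl
    rw [h2]
    have h3 : ψ.symm X ≤ ψ.symm Y ↔ X ≤ Y := ψ.symm.le_iff_le
    simp only [h3]

end mobtr

universe u
variable {F : Type u} [Field F] {n : ℕ}

/-- stable subspaces -/
abbrev St (x : GL (Fin n) F) : Type u :=
  {W : Submodule F (Fin n → F) // ∀ v ∈ W, (x : Matrix (Fin n) (Fin n) F).mulVec v ∈ W}

instance instTop (x : GL (Fin n) F) : OrderTop (St x) where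
  top := ⟨⊤, fun _ _ => Submodule.mem_top⟩
  le_top := fun W => (le_top : W.1 ≤ ⊤)

theorem top_val (x : GL (Fin n) F) : ((⊤ : St x) : Submodule F (Fin n → F)) = ⊤ := rfl

/-- bottom -/
def botSt (x : GL (Fin n) F) : St x := ⟨⊥, fun v hv => by
  rw [Submodule.mem_bot] at hv ⊢
  rw [hv, Matrix.mulVec_zero]⟩

/-- rank -/
noncomputable def rk (x : GL (Fin n) F) (W : St x) : ℕ := finrank F W.1

variable [Finite F]

noncomputable local instance instF (x : GL (Fin n) F) : Fintype (St x) := Fintype.ofFinite _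

theorem fixed_eq (μ : Fin n → ℕ) (hμ : ∑ i, μ i = n) (x : GL (Fin n) F) :
    Cfsg.fixedPointCharacter (Cfsg.parabolicGL n F μ) x = Nat.card (Ch (rk x) n μ (botSt x)) := by
  classical
  rw [Cfsg.fixedPointCharacter]
  congr 1
  have hfix : ∀ q : GL (Fin n) F ⧸ Cfsg.parabolicGL n F μ, x • q = q ↔ q.out⁻¹ * x * q.out ∈ Cfsg.parabolicGL n F μ := by
    intro q
    have h1 : x • q = ((x * q.out : GL (Fin n) F) : GL (Fin n) F ⧸ Cfsg.parabolicGL n F μ) := by
      conv_lhs => rw [← QuotientGroup.out_eq' q]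
      rfl
    constructor
    · intro h
      have h2 : ((q.out : GL (Fin n) F) : GL (Fin n) F ⧸ Cfsg.parabolicGL n F μ) =
          ((x * q.out : GL (Fin n) F) : GL (Fin n) F ⧸ Cfsg.parabolicGL n F μ) := by
        rw [← h1, h, QuotientGroup.out_eq']
      rw [QuotientGroup.eq] at h2
      rw [mul_assoc]; exact h2
    · intro h
      have h2 : ((q.out : GL (Fin n) F) : GL (Fin n) F ⧸ Cfsg.parabolicGL n F μ) =
          ((x * q.out : GL (Fin n) F) : GL (Fin n) F ⧸ Cfsg.parabolicGL n F μ) := by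
        rw [QuotientGroup.eq, ← mul_assoc]; exact h
      rw [h1, ← h2, QuotientGroup.out_eq']
  have hst : ∀ q : MulAction.fixedBy (GL (Fin n) F ⧸ Cfsg.parabolicGL n F μ) x, ∀ i : Fin (n + 1),
      ∀ v ∈ fl μ q.1.out i.val, (x : Matrix (Fin n) (Fin n) F).mulVec v ∈ fl μ q.1.out i.val := by
    intro q
    rw [stable_iff μ hμ]
    exact (hfix q.1).1 q.2
  apply Nat.card_congr
  refine Equiv.ofBijective (fun q => ⟨fun i => ⟨fl μ q.1.out i.val, hst q i⟩, ?_, ?_, ?_⟩) ⟨?_, ?_⟩
  · apply Subtype.ext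
    exact (isFlag_fl μ hμ q.1.out).1
  · intro i
    exact (isFlag_fl μ hμ q.1.out).2.1 i
  · apply Subtype.ext
    exact (isFlag_fl μ hμ q.1.out).2.2
  · intro q q' h
    have h1 : ∀ i : Fin (n + 1), fl μ q.1.out i.val = fl μ q'.1.out i.val := by
      intro i
      have h2 := congrFun (congrArg Subtype.val h) i
      exact congrArg Subtype.val h2
    rw [fl_eq_iff μ hμ, ← QuotientGroup.eq, QuotientGroup.out_eq', QuotientGroup.out_eq'] at h1
    exact Subtype.ext h1
  · rintro ⟨W, hW0, hW1, hW2⟩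
    obtain ⟨g, hg⟩ := exists_fl μ hμ (fun i => (W i).1) ⟨congrArg Subtype.val hW0, hW1, congrArg Subtype.val hW2⟩
    have h1 : ∀ i : Fin (n + 1), fl μ ((g : GL (Fin n) F ⧸ Cfsg.parabolicGL n F μ)).out i.val = (W i).1 := by
      intro i
      rw [← hg i]
      refine (fl_eq_iff μ hμ _ _).2 ?_ i
      rw [← QuotientGroup.eq, QuotientGroup.out_eq']
    refine ⟨⟨(g : GL (Fin n) F ⧸ Cfsg.parabolicGL n F μ), ?_⟩, ?_⟩
    · rw [MulAction.mem_fixedBy, hfix, ← stable_iff μ hμ]
      intro i v hv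
      rw [h1 i] at hv ⊢
      exact (W i).2 v hv
    · apply Subtype.ext
      funext i
      apply Subtype.ext
      exact h1 i

/-- the Steinberg character as an alternating sum -/
theorem unip_eq (x : GL (Fin n) F) :
    Cfsg.unipotentCharacterGL n F (fun _ => 1) x = T (A (rk x)) e n 0 (botSt x) := by
  rw [Cfsg.unipotentCharacterGL, T]
  refine Finset.sum_congr rfl fun κ _ => ?_
  by_cases h : ∀ i : Fin n, (κ i).val ≤ 1 + i.val
  · rw [if_pos h, if_pos h, P_eq]
    have h1 : mu κ 0 = fun i => 1 + i.val - (κ i).val := by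
      funext i; unfold mu; split_ifs <;> simp
    rw [h1, fixed_eq]
    exact H45.Unip.sum_sub_perm (fun _ => 1) (by simp) κ h
  · rw [if_neg h, if_neg h]

/-- the Möbius function -/
noncomputable def Mb (x : GL (Fin n) F) (W : St x) : ℂ :=
  (-1) ^ (rk x ⊤ - rk x W) * T (A (rk x)) e (rk x ⊤ - rk x W) 0 W

theorem isMob_Mb (x : GL (Fin n) F) : H45.StC.IsMob (Mb x) := by
  classical
  constructor
  · rw [Mb, Nat.sub_self, pow_zero, one_mul, T_zero, e, if_pos rfl]
  · intro X hX
    refine Eq.trans ?_ (H45.StA.mob (A (rk x)) e (rk x) ?_ ?_ X hX)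
    · refine Finset.sum_congr rfl fun Y _ => ?_
      rfl
    · intro X Y h
      exact Submodule.finrank_lt_finrank_of_lt h
    · intro a X Y
      exact ⟨fun h => if_pos h, fun h => if_neg h⟩

end H45.StE
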