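import Mathlib
import Cfsg.Agent.Lib.H45.StE

/-!
# The Steinberg character of GL_n(q) on semisimple elements: assembly (helper45)
-/

set_option autoImplicit false
set_option linter.unusedSectionVars false
set_option linter.unusedVariables false

namespace H45.StF

open Matrix Module Polynomial H45.StA H45.StB H45.StE UniqueFactorizationMonoid

universe u
variable {F : Type u} [Field F] {n : ℕ}

/-- the endomorphism -/
noncomputable abbrev gl (x : GL (Fin n) F) : (Fin n → F) →ₗ[F] (Fin n → F) := Matrix.toLin' (x : Matrix (Fin n) (Fin n) F)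

theorem gl_apply (x : GL (Fin n) F) (v : Fin n → F) : gl x v = (x : Matrix (Fin n) (Fin n) F).mulVec v :=
  Matrix.toLin'_apply _ _

/-- stable subspaces and invariant submodules -/
noncomputable def psi (x : GL (Fin n) F) : St x ≃o Submodule F[X] (AEval' (gl x)) :=
  OrderIso.trans
    { toFun := fun W => (⟨W.1, by
        rw [Module.End.mem_invtSubmodule]
        intro v hv
        rw [Submodule.mem_comap]
        have := W.2 v hv
        rw [← gl_apply] at this
        exact this⟩ : (Algebra.lsmul F F (Fin n → F) (gl x)).invtSubmodule)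
      invFun := fun W => ⟨W.1, by
        intro v hv
        have h1 := (Module.End.mem_invtSubmodule _).1 W.2 hv
        rw [← gl_apply]
        exact h1⟩
      left_inv := fun W => rfl
      right_inv := fun W => rfl
      map_rel_iff' := fun {W W'} => Iff.rfl }
    (Module.AEval.mapSubmodule F (Fin n → F) (gl x))

theorem psi_symm_bot (x : GL (Fin n) F) : (psi x).symm ⊥ = botSt x := by
  apply Subtype.ext
  ext v
  change Module.AEval.of F (Fin n → F) (gl x) v ∈ (⊥ : Submodule F[X] (AEval' (gl x))) ↔ v ∈ (⊥ : Submodule F (Fin n → F))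
  rw [Submodule.mem_bot, Submodule.mem_bot]
  exact LinearEquiv.map_eq_zero_iff _

theorem smul_eq_zero_iff (x : GL (Fin n) F) (f : F[X]) (v : Fin n → F) :
    f • (Module.AEval.of F (Fin n → F) (gl x) v) = 0 ↔ aeval (gl x) f v = 0 := by
  rw [← Module.AEval.of_aeval_smul]
  exact LinearEquiv.map_eq_zero_iff _

variable [Fintype F] [DecidableEq F]

attribute [local instance] H45.StE.instF H45.StC.instFS

theorem main (p : ℕ) [hp : Fact p.Prime] [CharP F p] (x : GL (Fin n) F) (hx : (orderOf x).Coprime p) :
    Cfsg.unipotentCharacterGL n F (fun _ => 1) x = (-1 : ℂ) ^ n *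
      H45.StC.val (Nat.card F : ℂ) (normalizedFactors (x : Matrix (Fin n) (Fin n) F).charpoly).toFinset
        (fun f => (normalizedFactors (x : Matrix (Fin n) (Fin n) F).charpoly).count f) := by
  -- the order
  have hN0 : ((orderOf x : ℕ) : F) ≠ 0 := by
    rw [Ne, CharP.cast_eq_zero_iff F p]
    intro h
    have := Nat.Coprime.eq_one_of_dvd hx.symm h
    exact hp.out.one_lt.ne' this
  have hsq : Squarefree (X ^ (orderOf x) - 1 : F[X]) := by
    have := (Polynomial.separable_X_pow_sub_C (1 : F) hN0 one_ne_zero).squarefree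
    rwa [C_1] at this
  have hpow : (gl x) ^ (orderOf x) = 1 := by
    have h1 : ((x : Matrix (Fin n) (Fin n) F)) ^ (orderOf x) = 1 := by
      rw [← Units.val_pow_eq_pow_val, pow_orderOf_eq_one, Units.val_one]
    rw [gl, ← Matrix.toLin'_pow, h1, Matrix.toLin'_one]
    rfl
  have hann : aeval (gl x) (X ^ (orderOf x) - 1 : F[X]) = 0 := by
    rw [map_sub, map_pow, aeval_X, hpow, map_one, sub_self]
  have hss : Module.End.IsSemisimple (gl x) := Module.End.isSemisimple_of_squarefree_aeval_eq_zero hsq hann
  have hss' : IsSemisimpleModule F[X] (AEval' (gl x)) := hss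
  have hfinQ : Finite (AEval' (gl x)) := Finite.of_equiv _ (Module.AEval.of F (Fin n → F) (gl x)).toEquiv
  have hcp : (x : Matrix (Fin n) (Fin n) F).charpoly = (gl x).charpoly := by
    rw [gl, Matrix.charpoly_toLin']
  have hcp0 : (gl x).charpoly ≠ 0 := (LinearMap.charpoly_monic _).ne_zero
  rw [hcp]
  obtain ⟨nf, hnf⟩ : ∃ nf, nf = normalizedFactors (gl x).charpoly := ⟨_, rfl⟩
  rw [← hnf]
  have hirr : ∀ f ∈ nf.toFinset, Irreducible f := by
    intro f hf
    rw [Multiset.mem_toFinset, hnf] at hf
    exact irreducible_of_normalized_factor f hf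
  have hmon : ∀ f ∈ nf.toFinset, f.Monic := by
    intro f hf
    rw [Multiset.mem_toFinset, hnf] at hf
    have h1 := normalize_normalized_factor f hf
    rw [← h1]
    exact Polynomial.monic_normalize (irreducible_of_normalized_factor f hf).ne_zero
  have hcop : ∀ f ∈ nf.toFinset, ∀ g ∈ nf.toFinset, f ≠ g → IsCoprime f g := by
    intro f hf g hg hne
    rw [(hirr f hf).coprime_iff_not_dvd]
    intro hdvd
    apply hne
    exact Polynomial.eq_of_monic_of_associated (hmon f hf) (hmon g hg) ((hirr f hf).associated_of_dvd (hirr g hg) hdvd)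
  have hkill : ∀ v : AEval' (gl x), (∏ f ∈ nf.toFinset, f) • v = 0 := by
    have hmin : minpoly F (gl x) ∣ ∏ f ∈ nf.toFinset, f := by
      have h1 : Squarefree (minpoly F (gl x)) := hss.minpoly_squarefree
      have h2 : (gl x).charpoly ∣ (∏ f ∈ nf.toFinset, f) ^ nf.card := by
        have h3 : Associated nf.prod (gl x).charpoly := by
          rw [hnf]; exact prod_normalizedFactors hcp0
        refine h3.symm.dvd.trans ?_
        rw [Finset.prod_multiset_count, ← Finset.prod_pow]
        apply Finset.prod_dvd_prod_of_dvd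
        intro f _
        exact pow_dvd_pow f (Multiset.count_le_card f nf)
      rcases Nat.eq_zero_or_pos nf.card with h4 | h4
      · rw [h4, pow_zero] at h2
        exact ((LinearMap.minpoly_dvd_charpoly (gl x)).trans h2).trans (one_dvd _)
      · exact (h1.dvd_pow_iff_dvd h4.ne').1 ((LinearMap.minpoly_dvd_charpoly (gl x)).trans h2)
    intro v
    obtain ⟨v, rfl⟩ := (Module.AEval.of F (Fin n → F) (gl x)).surjective v
    rw [smul_eq_zero_iff]
    obtain ⟨h, hh⟩ := hmin
    rw [hh, map_mul, minpoly.aeval, zero_mul]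
    rfl
  have hkc : ∀ f ∈ nf.toFinset, H45.StC.kc (AEval' (gl x)) f = Nat.card F ^ (f.natDegree * nf.count f) := by
    intro f hf
    have h1 := H45.StD.kcount (F := F) (hirr f hf) (hmon f hf) hsq _ (Fin n → F) le_rfl (gl x) hann
    rw [← hnf] at h1
    rw [← h1]
    symm
    apply Nat.card_congr
    apply Equiv.subtypeEquiv (Module.AEval.of F (Fin n → F) (gl x)).toEquiv
    intro v
    exact (smul_eq_zero_iff x f v).symm
  have hmain := H45.StC.main (F := F) nf.toFinset hirr hcop _ (AEval' (gl x)) (fun f => nf.count f) rfl hkill hkc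
    (fun Z => Mb x ((psi x).symm Z)) (by
      have := isMob_iso (psi x) (isMob_Mb x)
      convert this)
  change Mb x ((psi x).symm ⊥) = _ at hmain
  rw [psi_symm_bot, Mb] at hmain
  have hrt : rk x ⊤ = n := by
    unfold rk
    rw [top_val, finrank_top, Module.finrank_fin_fun]
  have hrb : rk x (botSt x) = 0 := by
    unfold rk
    change finrank F (⊥ : Submodule F (Fin n → F)) = 0
    rw [finrank_bot]
  rw [hrt, hrb, Nat.sub_zero, ← unip_eq] at hmain
  rw [← hmain, ← mul_assoc, ← mul_pow]
  simp

theorem natDegree_sum (x : GL (Fin n) F) :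
    ∑ f ∈ (normalizedFactors (x : Matrix (Fin n) (Fin n) F).charpoly).toFinset,
      f.natDegree * (normalizedFactors (x : Matrix (Fin n) (Fin n) F).charpoly).count f = n := by
  obtain ⟨c, hc⟩ : ∃ c, c = (x : Matrix (Fin n) (Fin n) F).charpoly := ⟨_, rfl⟩
  have hcm : c.Monic := by rw [hc]; exact Matrix.charpoly_monic _
  have hcd : c.natDegree = n := by rw [hc, Matrix.charpoly_natDegree_eq_dim, Fintype.card_fin]
  rw [← hc]
  obtain ⟨nf, hnf⟩ : ∃ nf, nf = normalizedFactors c := ⟨_, rfl⟩
  rw [← hnf]
  have hmon : ∀ f ∈ nf, f.Monic := by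
    intro f hf
    rw [hnf] at hf
    have h1 := normalize_normalized_factor f hf
    rw [← h1]
    exact Polynomial.monic_normalize (irreducible_of_normalized_factor f hf).ne_zero
  have h3 : Associated nf.prod c := by
    rw [hnf]; exact prod_normalizedFactors hcm.ne_zero
  have hprod : nf.prod = c := by
    apply Polynomial.eq_of_monic_of_associated _ hcm h3
    have := Polynomial.monic_multiset_prod_of_monic nf id hmon
    rwa [Multiset.map_id] at this
  have h4 := Polynomial.natDegree_multiset_prod_of_monic nf hmon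
  rw [hprod, hcd, Finset.sum_multiset_map_count] at h4
  rw [h4]
  refine Finset.sum_congr rfl fun f _ => ?_
  rw [smul_eq_mul, mul_comm]

theorem main' {q : ℕ} (hq : Fintype.card F = q) (p : ℕ) [hp : Fact p.Prime] [CharP F p] (x : GL (Fin n) F)
    (hx : (orderOf x).Coprime p) :
    Cfsg.unipotentCharacterGL n F (fun _ => 1) x =
      ∏ f ∈ (normalizedFactors (x : Matrix (Fin n) (Fin n) F).charpoly).toFinset,
        (-1 : ℂ) ^ ((f.natDegree - 1) * (normalizedFactors (x : Matrix (Fin n) (Fin n) F).charpoly).count f) *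
          (q : ℂ) ^ (f.natDegree * (normalizedFactors (x : Matrix (Fin n) (Fin n) F).charpoly).count f *
            ((normalizedFactors (x : Matrix (Fin n) (Fin n) F).charpoly).count f - 1) / 2) := by
  rw [main p x hx, H45.StC.val]
  have hn := natDegree_sum x
  have hn' : (-1 : ℂ) ^ n = (-1 : ℂ) ^ (∑ f ∈ (normalizedFactors (x : Matrix (Fin n) (Fin n) F).charpoly).toFinset,
      f.natDegree * (normalizedFactors (x : Matrix (Fin n) (Fin n) F).charpoly).count f) := by rw [hn]
  rw [hn', ← Finset.prod_pow_eq_pow_sum, ← Finset.prod_mul_distrib]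
  refine Finset.prod_congr rfl fun f hf => ?_
  rw [Nat.card_eq_fintype_card, hq]
  have hpos : 0 < f.natDegree := by
    rw [Multiset.mem_toFinset] at hf
    exact (irreducible_of_normalized_factor f hf).natDegree_pos
  obtain ⟨c, hc⟩ : ∃ c, c = (normalizedFactors (x : Matrix (Fin n) (Fin n) F).charpoly).count f := ⟨_, rfl⟩
  rw [← hc]
  obtain ⟨d, hd⟩ : ∃ d, f.natDegree = d + 1 := ⟨f.natDegree - 1, by omega⟩
  rw [hd, Nat.add_sub_cancel]
  have heven : 2 ∣ c * (c - 1) := by
    rcases Nat.eq_zero_or_pos c with h | h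
    · rw [h]; simp
    · obtain ⟨j, rfl⟩ : ∃ j, c = j + 1 := ⟨c - 1, by omega⟩
      rw [Nat.add_sub_cancel, mul_comm]
      exact (Nat.even_mul_succ_self j).two_dvd
  have h2 : (d + 1) * c * (c - 1) / 2 = (d + 1) * (c * (c - 1) / 2) := by
    rw [mul_assoc, Nat.mul_div_assoc _ heven]
  have h3 : (-1 : ℂ) ^ ((d + 1) * c) * (-1) ^ c = (-1) ^ (d * c) := by
    rw [← pow_add, show (d + 1) * c + c = d * c + 2 * c by ring, pow_add, pow_mul (-1 : ℂ) 2 c]
    simp
  rw [h2, ← mul_assoc, h3]

end H45.StF
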