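import Cfsg.Agent.Lib.H22.TwMisc
import Cfsg.Agent.Lib.H22.TwThm
import Cfsg.Agent.Lib.H22.TwD4b

/-!
Two-generation of twisted groups: general moves.
-/

set_option autoImplicit false
set_option linter.unusedSectionVars false

namespace H45.TwG

open H22.RGD

section abs

variable {G Φ I : Type*} [Group G] {C : RootComb Φ I} (S : Sys G C) (L : Subgroup G)

/-- `L` contains a representative of `w` -/
def WL (w : Equiv.Perm Φ) : Prop := ∃ g ∈ L, S.Rep g w

variable {S L}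

theorem WL.one : WL S L 1 := ⟨1, L.one_mem, S.rep_H S.H.one_mem⟩

theorem WL.mul {v w : Equiv.Perm Φ} (hv : WL S L v) (hw : WL S L w) : WL S L (v * w) := by
  obtain ⟨g, hg, h1⟩ := hv
  obtain ⟨g', hg', h2⟩ := hw
  exact ⟨g * g', L.mul_mem hg hg', h1.mul h2⟩

theorem WL.inv {w : Equiv.Perm Φ} (hw : WL S L w) : WL S L w⁻¹ := by
  obtain ⟨g, hg, h1⟩ := hw
  exact ⟨g⁻¹, L.inv_mem hg, h1.inv⟩

theorem WL.list {l : List (Equiv.Perm Φ)} (h : ∀ w ∈ l, WL S L w) : WL S L l.prod := by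
  induction l with
  | nil => exact WL.one
  | cons w l ih =>
    rw [List.prod_cons]
    exact (h w (by simp)).mul (ih fun v hv => h v (by simp [hv]))

theorem WL.full {w : Equiv.Perm Φ} (hw : WL S L w) {c : Φ} (h : S.X c ≤ L) : S.X (w c) ≤ L := by
  obtain ⟨g, hg, h1⟩ := hw
  rw [← h1.2.2]
  rintro _ ⟨y, hy, rfl⟩
  exact L.mul_mem (L.mul_mem hg (h hy)) (L.inv_mem hg)

theorem WL.full' {w : Equiv.Perm Φ} (hw : WL S L w) {c d : Φ} (h : S.X c ≤ L) (e : w c = d) :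
    S.X d ≤ L := e ▸ hw.full h

theorem WL.half {w : Equiv.Perm Φ} (hw : WL S L w) {c : Φ} (h : ∃ x ∈ S.X c, x ≠ 1 ∧ x ∈ L) :
    ∃ x ∈ S.X (w c), x ≠ 1 ∧ x ∈ L := by
  obtain ⟨g, hg, h1⟩ := hw
  obtain ⟨x, hx, hx1, hxL⟩ := h
  rw [← h1.2.2]
  refine ⟨g * x * g⁻¹, ⟨x, hx, rfl⟩, ?_, L.mul_mem (L.mul_mem hg hxL) (L.inv_mem hg)⟩
  intro h
  exact hx1 (by simpa using h)

theorem WL.half' {w : Equiv.Perm Φ} (hw : WL S L w) {c d : Φ} (h : ∃ x ∈ S.X c, x ≠ 1 ∧ x ∈ L)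
    (e : w c = d) : ∃ x ∈ S.X d, x ≠ 1 ∧ x ∈ L := e ▸ hw.half h

theorem WL.refl {J : I} (h1 : S.X (C.simple J) ≤ L) (h2 : S.X (C.neg (C.simple J)) ≤ L) :
    WL S L (C.refl J) := by
  obtain ⟨x, hx, hx1⟩ := (Subgroup.bot_or_exists_ne_one _).resolve_left
    (S.nontriv (C.neg (C.simple J)))
  obtain ⟨y, hy, h, hh, z, hz, e⟩ := S.rank_one J x hx hx1
  refine ⟨S.n J * h, ?_, ?_⟩
  · have : S.n J * h = y⁻¹ * x * z⁻¹ := by rw [e]; simp [mul_assoc]
    rw [this]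
    exact L.mul_mem (L.mul_mem (L.inv_mem (h1 hy)) (h2 hx)) (L.inv_mem (h1 hz))
  · simpa using (S.rep_n J).mul (S.rep_H hh)

end abs

section fill

variable {G K : Type*} [Group G] [Field K] {x : K → G} {L : Subgroup G}

theorem x_zero (hadd : ∀ t u, x (t + u) = x t * x u) : x 0 = 1 := by
  have := hadd 0 0
  rw [add_zero] at this
  exact (mul_eq_left.1 this.symm)

theorem x_neg (hadd : ∀ t u, x (t + u) = x t * x u) (t : K) : x (-t) = (x t)⁻¹ := by
  rw [eq_inv_iff_mul_eq_one, ← hadd, neg_add_cancel, x_zero hadd]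

/-- extraction of a root element -/
theorem extract (hadd : ∀ t u, x (t + u) = x t * x u) {s n : G} {μ ν : K} (hs : s ∈ L)
    (hb : x 1 * n ∈ L) (h1 : ∀ t, s * x t * s⁻¹ = x (μ * t))
    (h2 : ∀ t, (n * s * n⁻¹) * x t * (n * s * n⁻¹)⁻¹ = x (ν * t))
    (hc : s * (n * s * n⁻¹) = (n * s * n⁻¹) * s) : x ((μ - 1) * (1 - ν)) ∈ L := by
  set s' := n * s * n⁻¹ with hs'
  have e1 : (x 1 * n) * s * (x 1 * n)⁻¹ = x 1 * s' * x (-1) := by
    rw [x_neg hadd, hs']; simp [mul_assoc]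
  have hm : x 1 * s' * x (-1) ∈ L := by
    rw [← e1]; exact L.mul_mem (L.mul_mem hb hs) (L.inv_mem hb)
  have e2 : s * (x 1 * s' * x (-1)) * s⁻¹ * (x 1 * s' * x (-1))⁻¹ = x ((μ - 1) * (1 - ν)) := by
    have f1 : s * x 1 = x μ * s := by
      have := h1 1
      rw [mul_one] at this
      rw [← this]; simp
    have f2 : s * x (-1) * s⁻¹ = x (-μ) := by rw [h1]; congr 1; ring
    have f3 : s' * x (1 - μ) * s'⁻¹ = x (ν * (1 - μ)) := h2 _
    have f4 : x (-μ) * x 1 = x (1 - μ) := by rw [← hadd]; congr 1; ring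
    have f5 : (x 1 * s' * x (-1))⁻¹ = x 1 * s'⁻¹ * x (-1) := by
      rw [x_neg hadd]; simp [mul_assoc]
    rw [f5]
    calc s * (x 1 * s' * x (-1)) * s⁻¹ * (x 1 * s'⁻¹ * x (-1)) =
        (s * x 1) * s' * x (-1) * s⁻¹ * x 1 * s'⁻¹ * x (-1) := by simp only [mul_assoc]
      _ = x μ * (s * s') * x (-1) * s⁻¹ * x 1 * s'⁻¹ * x (-1) := by rw [f1]; simp only [mul_assoc]
      _ = x μ * (s' * s) * x (-1) * s⁻¹ * x 1 * s'⁻¹ * x (-1) := by rw [hc]
      _ = x μ * s' * (s * x (-1) * s⁻¹) * x 1 * s'⁻¹ * x (-1) := by simp only [mul_assoc]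
      _ = x μ * s' * (x (-μ) * x 1) * s'⁻¹ * x (-1) := by rw [f2]; simp only [mul_assoc]
      _ = x μ * (s' * x (1 - μ) * s'⁻¹) * x (-1) := by rw [f4]; simp only [mul_assoc]
      _ = x (μ + ν * (1 - μ) + -1) := by rw [f3, ← hadd, ← hadd]
      _ = _ := by congr 1; ring
  rw [← e2]
  exact L.mul_mem (L.mul_mem (L.mul_mem hs hm) (L.inv_mem hs)) (L.inv_mem hm)

theorem conj_pow {s : G} {μ : K} (h1 : ∀ t, s * x t * s⁻¹ = x (μ * t)) (k : ℕ) (t : K) :
    s ^ k * x t * (s ^ k)⁻¹ = x (μ ^ k * t) := by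
  induction k with
  | zero => simp
  | succ k ih =>
    have : s ^ (k + 1) * x t * (s ^ (k + 1))⁻¹ = s * (s ^ k * x t * (s ^ k)⁻¹) * s⁻¹ := by
      rw [pow_succ' s k]; simp [mul_assoc]
    rw [this, ih, h1]; congr 1; ring

theorem mem_of_pow {s : G} {μ : K} (h1 : ∀ t, s * x t * s⁻¹ = x (μ * t)) (hs : s ∈ L) {c : K}
    (hc : x c ∈ L) (k : ℕ) : x (μ ^ k * c) ∈ L := by
  rw [← conj_pow h1]
  exact L.mul_mem (L.mul_mem (L.pow_mem hs k) hc) (L.inv_mem (L.pow_mem hs k))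

theorem sub_squares [Finite K] (t : K) : ∃ y z : K, t = y ^ 2 - z ^ 2 := by
  have := Fintype.ofFinite K
  by_cases h2 : (2 : K) = 0
  · have hc : ringChar K = 2 := by
      rcases (Nat.dvd_prime Nat.prime_two).1 ((ringChar.spec K 2).1 (by exact_mod_cast h2)) with h | h
      · exact absurd h (CharP.ringChar_ne_one)
      · exact h
    obtain ⟨y, hy⟩ := FiniteField.isSquare_of_char_two hc t
    exact ⟨y, 0, by rw [hy]; ring⟩
  · refine ⟨(t + 1) / 2, (t - 1) / 2, ?_⟩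
    field_simp
    ring

/-- filling a root group using the squares -/
theorem fill [Finite K] (hadd : ∀ t u, x (t + u) = x t * x u) {s : G} {μ : K}
    (h1 : ∀ t, s * x t * s⁻¹ = x (μ * t)) (hs : s ∈ L) (hμ : ∀ y : K, y ≠ 0 → ∃ k : ℕ, μ ^ k = y ^ 2)
    {c : K} (hc0 : c ≠ 0) (hc : x c ∈ L) (t : K) : x t ∈ L := by
  have key : ∀ y : K, x (y ^ 2 * c) ∈ L := by
    intro y
    by_cases hy : y = 0
    · rw [hy, zero_pow two_ne_zero, zero_mul, x_zero hadd]; exact L.one_mem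
    · obtain ⟨k, hk⟩ := hμ y hy
      rw [← hk]
      exact mem_of_pow h1 hs hc k
  obtain ⟨y, z, e⟩ := sub_squares (t / c)
  have e2 : t = y ^ 2 * c + -(z ^ 2 * c) := by
    have : t = (t / c) * c := by field_simp
    rw [this, e]; ring
  rw [e2, hadd, x_neg hadd]
  exact L.mul_mem (key y) (L.inv_mem (key z))

end fill

/-- powers of a commuting product -/
theorem split_pow {G : Type*} [Group G] {s x : G} {N : ℕ} (hc : s * x = x * s) (hs : s ^ N = s)
    (hx : x ^ N = 1) {L : Subgroup G} (h : s * x ∈ L) : s ∈ L ∧ x ∈ L := by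
  have h1 : (s * x) ^ N = s := by rw [(show Commute s x from hc).mul_pow, hs, hx, mul_one]
  have h2 : s ∈ L := by rw [← h1]; exact L.pow_mem h N
  refine ⟨h2, ?_⟩
  have := L.mul_mem (L.inv_mem h2) h
  simpa using this

/-- the powers of a root element -/
theorem x_pow {G K : Type*} [Group G] [Field K] {x : K → G} (hadd : ∀ t u, x (t + u) = x t * x u)
    (t : K) (k : ℕ) : x t ^ k = x (k * t) := by
  induction k with
  | zero => simp [x_zero hadd]
  | succ k ih => rw [pow_succ, ih, ← hadd]; congr 1; push_cast; ring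

/-- norms generate the fixed field -/
theorem norm_gen {M : Type*} [CommGroup M] [Finite M] {l : M} (hl : ∀ u, u ∈ Subgroup.zpowers l)
    {q e : ℕ} (hq : 1 < q) (he : e * (q - 1) = Nat.card M) {y : M} (hy : y ^ q = y) :
    ∃ k : ℕ, (l ^ e) ^ k = y := by
  obtain ⟨j, hj⟩ : ∃ j : ℕ, l ^ j = y := by
    have := hl y
    rw [← mem_powers_iff_mem_zpowers] at this
    exact this
  have ho : orderOf l = e * (q - 1) := by rw [he]; exact orderOf_eq_card_of_forall_mem_zpowers hl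
  have h1 : l ^ (j * (q - 1)) = 1 := by
    rw [pow_mul, hj]
    have h2 : y ^ (q - 1) * y = 1 * y := by
      rw [← pow_succ, Nat.sub_add_cancel hq.le, hy, one_mul]
    exact mul_right_cancel h2
  have h2 := orderOf_dvd_of_pow_eq_one h1
  rw [ho] at h2
  obtain ⟨k, rfl⟩ := Nat.dvd_of_mul_dvd_mul_right (by omega) h2
  exact ⟨k, by rw [← pow_mul, hj]⟩

/-- transfer to a subgroup -/
theorem final {G G' : Type*} [Group G] [Group G'] {Γ : Subgroup G} (f : G →* G') {K : Subgroup G'}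
    (hK : Γ.map f = K) {a b : G} (ha : a ∈ Γ) (hb : b ∈ Γ) (h : Γ ≤ Subgroup.closure {a, b}) :
    ∃ a b : K, Subgroup.closure ({a, b} : Set K) = ⊤ := by
  subst hK
  refine ⟨⟨f a, a, ha, rfl⟩, ⟨f b, b, hb, rfl⟩, ?_⟩
  apply Subgroup.map_injective (Γ.map f).subtype_injective
  rw [MonoidHom.map_closure, Set.image_pair, ← MonoidHom.range_eq_map, Subgroup.range_subtype]
  apply le_antisymm
  · rw [Subgroup.closure_le]
    rintro x (rfl | rfl)
    · exact ⟨a, ha, rfl⟩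
    · exact ⟨b, hb, rfl⟩
  · refine (Subgroup.map_mono h).trans ?_
    rw [MonoidHom.map_closure, Set.image_pair]
    exact le_rfl

section st

open H22.RGD H22.Coord H22.RCCheck H22.RCComb H22.ChevTri H22.ChevRel H22.ChevSys H22.ChevMain
open H22.ChevStd H22.ChevSolv H22.ChevUni H22.St H22.TwChev H22.TwSt H22.RCPack H22.TwTab H22.TwX
open H22.TwDat H22.TwAut H22.ChevTorus H22.TwThm H22.TwPerf H22.TwMisc
open Cfsg.Lie (ChevalleyDatum)

variable {D : ChevalleyDatum} {F : Type*} [Field F] {R : Rel D F} {Gb : Type*} [Group Gb]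
  {S : StG R Gb} {X : RCX D} (Z : Lex X.rc) (W : StCert D X.rc.half)

theorem chr_ne_zero (c : Fin D.rank → Fˣ) (s : ℕ) : chr c s ≠ 0 := by
  unfold chr
  split_ifs
  · exact Units.ne_zero _
  · exact one_ne_zero

/-- the conjugate of a torus element acts nontrivially -/
theorem chr_conj_ne {L : List (Fin D.rank)} {c c' : Fin D.rank → Fˣ} {r : Fin D.nroots}
    (h : S.psi X Z W c' = (S.stSys X Z W).nw L * S.psi X Z W c * ((S.stSys X Z W).nw L)⁻¹)
    (hχ : chr c (((comb X).w L)⁻¹ r) ≠ 1) : chr c' r ≠ 1 := by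
  intro h1
  set n := (S.stSys X Z W).nw L with hn
  set r' : Fin D.nroots := ((comb X).w L)⁻¹ r with hr'
  have h2 := psi_x (S := S) Z W c' r.2 1
  rw [h1, one_mul, h] at h2
  have h3 : n⁻¹ * S.xb r 1 * n ∈ S.Xb r' := by
    have h4 := ((S.stSys X Z W).rep_nw L).inv.2.2 r
    have h5 : n⁻¹ * S.xb r 1 * n⁻¹⁻¹ ∈ cj n⁻¹ ((S.stSys X Z W).X r) := ⟨_, S.xb_mem r 1, rfl⟩
    rw [h4, inv_inv] at h5
    exact h5
  obtain ⟨u, hu⟩ := (S.mem_Xb r'.2).1 h3
  have h6 : S.psi X Z W c * (n⁻¹ * S.xb r 1 * n) * (S.psi X Z W c)⁻¹ = n⁻¹ * S.xb r 1 * n := by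
    have := congrArg (fun z => n⁻¹ * z * n) h2
    simpa [mul_assoc] using this
  rw [hu, psi_x (S := S) Z W c r'.2 u] at h6
  have h7 := S.xb_inj X.rc r'.2 h6
  have hu0 : u ≠ 0 := by
    rintro rfl
    rw [S.xb_zero r'.2] at hu
    have h8 : S.xb r 1 = 1 := by
      have := congrArg (fun z => n * z * n⁻¹) hu
      simpa [mul_assoc] using this
    exact one_ne_zero (S.xb_inj X.rc r.2 (h8.trans (S.xb_zero r.2).symm))
  exact hχ (mul_right_cancel₀ hu0 (by rw [h7, one_mul]))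

theorem psi_comm (c c' : Fin D.rank → Fˣ) :
    S.psi X Z W c * S.psi X Z W c' = S.psi X Z W c' * S.psi X Z W c := by
  rw [← map_mul, mul_comm, map_mul]

/-- conjugates of torus elements -/
theorem exists_conj_psi (L : List (Fin D.rank)) (c : Fin D.rank → Fˣ) :
    ∃ c', S.psi X Z W c' = (S.stSys X Z W).nw L * S.psi X Z W c * ((S.stSys X Z W).nw L)⁻¹ := by
  have h1 : S.psi X Z W c ∈ (S.stSys X Z W).H := by
    show S.psi X Z W c ∈ S.Hb
    rw [← S.psi_range X Z W]; exact ⟨_, rfl⟩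
  have h2 := (S.stSys X Z W).nw_stab_H L
  rw [mem_stabSub] at h2
  have h3 : (S.stSys X Z W).nw L * S.psi X Z W c * ((S.stSys X Z W).nw L)⁻¹ ∈ (S.stSys X Z W).H := by
    rw [← h2]; exact ⟨_, h1, rfl⟩
  have h4 : (S.stSys X Z W).nw L * S.psi X Z W c * ((S.stSys X Z W).nw L)⁻¹ ∈
      (S.psi X Z W).range := by
    rw [S.psi_range X Z W]; exact h3
  exact h4

/-- fixed torus elements have fixed characters -/
theorem chr_fixed {A : Gr S X.rc} {c : Fin D.rank → Fˣ} (h : A.σ (S.psi X Z W c) = S.psi X Z W c)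
    {r : ℕ} (hr : r < D.nroots) (hρ : A.ρ r < D.nroots) (hε : A.ε r = 1) :
    chr c (A.ρ r) = A.φ r (chr c r) := by
  have h1 := congrArg A.σ (psi_x (S := S) Z W c hr 1)
  rw [map_mul, map_mul, map_inv, h, A.σ_x r hr, A.σ_x r hr, hε, one_mul, one_mul,
    psi_x (S := S) Z W c hρ, map_one, mul_one, mul_one] at h1
  exact S.xb_inj X.rc hρ h1

end st

end H45.TwG
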