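import Cfsg.Agent.Lib.H45.TwG
import Cfsg.Agent.Lib.H22.TwD4b

/-!
Two-generation of the groups of type ³D₄.
-/

set_option autoImplicit false
set_option linter.unusedVariables false
set_option linter.unusedSectionVars false

namespace H45.TwGD

open H22.TwD4

open H22.RGD H22.Coord H22.RCCheck H22.RCComb H22.ChevTri H22.ChevRel H22.ChevSys H22.ChevMain
open H22.ChevStd H22.ChevSolv H22.ChevUni H22.St H22.TwChev H22.TwSt H22.RCPack H22.TwTab H22.TwX
open H22.TwDat H22.TwAut H22.ChevTorus H22.TwThm H22.TwPerf H22.TwMisc H45.TwG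
open Cfsg.Lie (ChevalleyDatum)
open scoped MatrixGroups Matrix commutatorElement

local notation "D4" => Cfsg.Lie.chevD4
local notation "X4" => H22.PoinD4.rcxD4
local notation "G2X" => H22.PoinG2.rcxG2
local notation "Z4" => H22.ChevLex.lexD4
local notation "W4" => certD4'
local notation "C2" => comb G2X

section fin

variable {K : Type*} [Field K] [Finite K] (R : Rel D4 K) (hm : ∀ r < (D4).nroots, ∀ c d : K, c ≠ 0 → d ≠ 0 →
      (D4).hMat K r c * (D4).hMat K r d = (D4).hMat K r (c * d))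
  (φ : K →+* K) (hφ : Function.Surjective φ)

/-- all characters of a torus element -/
theorem chr_all (a u : Kˣ) (s : ℕ) (hs : s < (D4).nroots) : chr (tc φ a u) s =
    ((a ^ (D4).cartan 0 s * u ^ (D4).cartan 1 s * (Units.map (φ : K →* K) a) ^ (D4).cartan 2 s *
      (Units.map (φ : K →* K) (Units.map (φ : K →* K) a)) ^ (D4).cartan 3 s : Kˣ) : K) := by
  rw [chr_eq hs]
  congr 1
  show (∏ j : Fin 4, (tc φ a u) j ^ (D4).cartan j s) = _
  rw [Fin.prod_univ_four]
  rfl

/-- the action of fixed torus elements on the short root group -/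
theorem act_short {c : Fin (D4).rank → Kˣ} (h : (A R hm φ hφ).σ ((St R hm).psi X4 Z4 W4 c) =
    (St R hm).psi X4 Z4 W4 c) (t : K) : (St R hm).psi X4 Z4 W4 c * xs R hm φ 18 13 12 t *
    ((St R hm).psi X4 Z4 W4 c)⁻¹ = xs R hm φ 18 13 12 (chr c 18 * t) := by
  have h1 : chr c 13 = φ (chr c 18) := chr_fixed (S := St R hm) Z4 W4 h (r := 18) (by decide)
    (show 13 < (D4).nroots by decide) (Int.cast_one (R := K))
  have h2 : chr c 12 = φ (chr c 13) := chr_fixed (S := St R hm) Z4 W4 h (r := 13) (by decide)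
    (show 12 < (D4).nroots by decide) (Int.cast_one (R := K))
  have e1 := psi_x (S := St R hm) Z4 W4 c (show 18 < (D4).nroots by decide) t
  have e2 := psi_x (S := St R hm) Z4 W4 c (show 13 < (D4).nroots by decide) (φ t)
  have e3 := psi_x (S := St R hm) Z4 W4 c (show 12 < (D4).nroots by decide) (φ (φ t))
  rw [h1] at e2
  rw [h2, h1] at e3
  unfold xs
  simp only [map_mul]
  rw [← e1, ← e2, ← e3]
  simp [mul_assoc]

/-- the word -/
abbrev wd4 : List (Fin (D4).rank) := ([0, 2, 3, 1] : List (Fin 4))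
/-- the word -/
abbrev wg2 : List (Fin Cfsg.Lie.chevG2.rank) := ([0, 1] : List (Fin 2))

theorem word01 : (T R hm φ hφ).tw.sys.nw wg2 = ((St R hm).stSys X4 Z4 W4).nw wd4 := by
  have e : wd4 = ([0, 2, 3] : List (Fin 4)) ++ ([1] : List (Fin 4)) := rfl
  rw [e]
  refine Eq.trans ?_ (Sys.nw_append _ _ _).symm
  refine ((T R hm φ hφ).tw.sys.nw_cons _ _).trans ?_
  refine congrArg₂ (· * ·) rfl ?_
  exact ((T R hm φ hφ).tw.sys.nw_singleton _).trans rfl

theorem two_gen (h3 : ∀ t : K, φ (φ (φ t)) = t) {q : ℕ} (hq0 : 1 < q) (hK : Nat.card K = q ^ 3)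
    (hq : ∀ t, φ t = t ^ q) : ∃ a ∈ (T R hm φ hφ).tw.sys.Γ, ∃ b ∈ (T R hm φ hφ).tw.sys.Γ,
    (T R hm φ hφ).tw.sys.Γ ≤ Subgroup.closure {a, b} := by
  have := Fintype.ofFinite K
  set Sy := (T R hm φ hφ).tw.sys with hSy
  obtain ⟨l, hl⟩ := IsCyclic.exists_generator (α := Kˣ)
  have hX : ∀ c : Fin ttD4.n', Sy.X c ≤ Sy.Γ := fun c => Sy.X_le_Γ (longest G2X) c
  have hH : Sy.H ≤ Sy.Γ := Sy.H_le_B.trans Sy.B_le_Γ
  set s := (St R hm).psi X4 Z4 W4 (tc φ l 1) with hs
  have hsf : (A R hm φ hφ).σ s = s := by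
    rw [hs, (A R hm φ hφ).σ_psi Z4 W4, τ_tc R hm φ hφ h3 l (by simp)]
  have hsH : s ∈ Sy.H := by
    refine ⟨?_, hsf⟩
    show s ∈ (St R hm).Hb
    rw [hs, ← (St R hm).psi_range X4 Z4 W4]; exact ⟨_, rfl⟩
  set n := Sy.nw wg2 with hn
  have hnN : n ∈ Sy.N := Sy.nw_mem_N _
  have hnf : (A R hm φ hφ).σ n = n := (T R hm φ hφ).tw.sys_Γ_le (Sy.N_le_Γ hnN)
  set x : K → ↥((D4).group K) := xs R hm φ 18 13 12 with hx
  have hadd : ∀ t u, x (t + u) = x t * x u := xs_add R hm φ
  have hxm : ∀ t, x t ∈ Sy.X ((C2).simple (0 : Fin 2)) := fun t => (m0 R hm φ hφ).2 ⟨t, h3 t, rfl⟩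
  set y := (St R hm).xb 23 1 with hy
  have hym : y ∈ Sy.X (11 : Fin 12) := (X1_single Z4 W4 (E := E R hm φ hφ) (c := (11 : Fin 12))
        (ord_single Z4 W4 (r := 23) rfl) rfl rfl (Int.cast_one (R := K))).2 ⟨1, map_one _, rfl⟩
  refine ⟨s * y, Sy.Γ.mul_mem (hH hsH) (hX _ hym), x 1 * n, Sy.Γ.mul_mem (hX _ (hxm 1)) (Sy.N_le_Γ hnN), ?_⟩
  set L := Subgroup.closure {s * y, x 1 * n} with hL
  have ha : s * y ∈ L := Subgroup.subset_closure (by simp)
  have hb : x 1 * n ∈ L := Subgroup.subset_closure (by simp)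
  -- the first element
  have hc1 : chr (tc φ l 1) 23 = 1 := by
    rw [chr_all φ l 1 23 (by decide)]
    have e0 : (D4).cartan 0 23 = 0 := by decide +kernel
    have e2 : (D4).cartan 2 23 = 0 := by decide +kernel
    have e3 : (D4).cartan 3 23 = 0 := by decide +kernel
    rw [e0, e2, e3]; simp
  have hcomm : s * y = y * s := by
    have := psi_x (S := St R hm) Z4 W4 (tc φ l 1) (show 23 < (D4).nroots by decide) 1
    rw [hc1, one_mul] at this
    rw [← mul_inv_eq_iff_eq_mul]; exact this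
  have hadd23 : ∀ t u, (St R hm).xb 23 (t + u) = (St R hm).xb 23 t * (St R hm).xb 23 u :=
    fun t u => ((St R hm).add 23 (by decide) t u).symm
  have hcard : ((Nat.card K : ℕ) : K) = 0 := by rw [Nat.card_eq_fintype_card]; exact FiniteField.cast_card_eq_zero K
  obtain ⟨hsL, hyL⟩ : s ∈ L ∧ y ∈ L := by
    refine split_pow (N := Nat.card K) hcomm ?_ ?_ ha
    · rw [hs, ← map_pow]
      congr 1
      funext i
      rw [Pi.pow_apply]
      apply Units.ext
      rw [Units.val_pow_eq_pow_val, Nat.card_eq_fintype_card, FiniteField.pow_card]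
    · rw [hy, x_pow hadd23, hcard, zero_mul, (St R hm).xb_zero (by decide)]
  -- extraction
  have hl2 : (l : K) ^ 2 ≠ 1 := by
    intro h
    obtain ⟨a, ha⟩ := exists_pow_ne (K := K) (n := 2) (by norm_num) (by
      rw [hK]
      have : 2 ^ 3 ≤ q ^ 3 := Nat.pow_le_pow_left hq0 3
      omega)
    have h5 : l ^ 2 = 1 := Units.ext (by simpa using h)
    obtain ⟨k, hk⟩ := hl a
    have h6 : a ^ 2 = 1 := by
      have hk' : l ^ k = a := hk
      rw [← hk', ← zpow_natCast, ← zpow_mul, mul_comm, zpow_mul, zpow_natCast, h5, one_zpow]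
    exact ha (by rw [← Units.val_pow_eq_pow_val, h6, Units.val_one])
  obtain ⟨c', hc'⟩ := exists_conj_psi (S := St R hm) Z4 W4 wd4 (tc φ l 1)
  have hwe := word01 R hm φ hφ
  rw [← hSy, ← hn] at hwe
  have hc'' : (St R hm).psi X4 Z4 W4 c' = n * s * n⁻¹ := by rw [hc', hwe]
  have hfix : (A R hm φ hφ).σ ((St R hm).psi X4 Z4 W4 c') = (St R hm).psi X4 Z4 W4 c' := by
    rw [hc'', map_mul, map_mul, map_inv, hnf, hsf]
  have hν : chr c' 18 ≠ 1 := by
    refine chr_conj_ne (S := St R hm) Z4 W4 (r := (18 : Fin 24)) hc' ?_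
    have e : (((comb X4).w wd4)⁻¹ (18 : Fin 24) : Fin (D4).nroots) = (4 : Fin 24) := by
      refine (Equiv.Perm.inv_eq_iff_eq (f := (comb X4).w wd4)).2 ?_
      apply Fin.ext
      decide +kernel
    rw [e]
    show chr (tc φ l 1) 4 ≠ 1
    rw [chr_all φ l 1 4 (by decide)]
    have e0 : (D4).cartan 0 4 = -1 := by decide +kernel
    have e1 : (D4).cartan 1 4 = -1 := by decide +kernel
    have e2 : (D4).cartan 2 4 = 1 := by decide +kernel
    have e3 : (D4).cartan 3 4 = 1 := by decide +kernel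
    rw [e0, e1, e2, e3]
    intro h
    have hl0 := l.ne_zero
    have h1 : φ (l : K) * φ (φ (l : K)) = l := by
      have h' : (l : K)⁻¹ * (φ (l : K) * φ (φ (l : K))) = 1 := by
        rw [← h]; simp [mul_assoc]
      rw [inv_mul_eq_one₀ hl0] at h'
      exact h'.symm
    have h2 : φ (φ (l : K)) * l = φ l := by
      have := congrArg φ h1
      rwa [map_mul, h3] at this
    have h4 : (φ (φ (l : K))) ^ 2 = 1 := by
      have hne : φ (l : K) ≠ 0 := (map_ne_zero φ).2 hl0
      have e : φ (l : K) * φ (φ (l : K)) ^ 2 = φ (l : K) * 1 := by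
        calc φ (l : K) * φ (φ (l : K)) ^ 2 = φ (φ (l : K)) * (φ (l : K) * φ (φ (l : K))) := by ring
          _ = φ (l : K) * 1 := by rw [h1, h2, mul_one]
      exact mul_left_cancel₀ hne e
    apply hl2
    have := congrArg φ h4
    rwa [map_pow, h3, map_one] at this
  have hact : ∀ t, s * x t * s⁻¹ = x ((l : K) ^ 2 * t) := by
    intro t
    have := act_short R hm φ hφ hsf t
    have hc : chr (tc φ l 1) 18 = (l : K) ^ 2 := by
      have := (chr_tc φ l 1).1
      simpa using this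
    rwa [hc] at this
  have hact' : ∀ t, (n * s * n⁻¹) * x t * (n * s * n⁻¹)⁻¹ = x (chr c' 18 * t) := by
    intro t
    rw [← hc'']; exact act_short R hm φ hφ hfix t
  have hsc : s * (n * s * n⁻¹) = (n * s * n⁻¹) * s := by
    rw [← hc'', hs]; exact psi_comm Z4 W4 _ _
  have hext := extract hadd hsL hb hact hact' hsc
  have hfull : ∀ t, x t ∈ L := by
    refine fill hadd hact hsL ?_ ?_ hext
    · intro y hy
      obtain ⟨k, hk⟩ : ∃ k : ℕ, l ^ k = Units.mk0 y hy := by
        have := hl (Units.mk0 y hy)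
        rw [← mem_powers_iff_mem_zpowers] at this
        exact this
      refine ⟨k, ?_⟩
      have : (l : K) ^ k = y := by
        have := congrArg Units.val hk
        simpa using this
      rw [← this, ← pow_mul, ← pow_mul, mul_comm]
    · exact mul_ne_zero (sub_ne_zero.2 hl2) (sub_ne_zero.2 hν.symm)
  have s0 : Sy.X ((C2).simple (0 : Fin 2)) ≤ L := by
    intro g hg
    obtain ⟨t, _, rfl⟩ := (m0 R hm φ hφ).1 hg
    exact hfull t
  have hnL : n ∈ L := by
    have := L.mul_mem (L.inv_mem (hfull 1)) hb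
    simpa using this
  have hw : WL Sy L ((C2).w wg2) := ⟨n, hnL, Sy.rep_nw _⟩
  have hw3 : WL Sy L ([(C2).w wg2, (C2).w wg2, (C2).w wg2].prod) := WL.list (by
    intro w hw'
    simp only [List.mem_cons, List.not_mem_nil, or_false, or_self] at hw'
    rw [hw']; exact hw)
  have s0' : Sy.X ((C2).neg ((C2).simple (0 : Fin 2))) ≤ L :=
    hw3.full' s0 (by apply Fin.ext; decide +kernel)
  obtain ⟨z, hz, hz1, hzL⟩ := hw.half' (c := (11 : Fin 12)) (d := (C2).simple (1 : Fin 2))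
    ⟨y, hym, by
      intro h
      exact one_ne_zero ((St R hm).xb_inj (X4).rc (show 23 < (D4).nroots by decide)
        (h.trans ((St R hm).xb_zero (show 23 < (D4).nroots by decide)).symm)), hyL⟩
    (by apply Fin.ext; decide +kernel)
  obtain ⟨c, hcf, rfl⟩ := (m1 R hm φ hφ).1 hz
  have hc0 : c ≠ 0 := by
    rintro rfl
    exact hz1 ((St R hm).xb_zero (show 14 < (D4).nroots by decide))
  have hN : chr (tc φ l 1) 14 = ((l ^ (1 + q + q ^ 2))⁻¹ : Kˣ) := by
    rw [chr_all φ l 1 14 (by decide)]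
    have e0 : (D4).cartan 0 14 = -1 := by decide +kernel
    have e1 : (D4).cartan 1 14 = 2 := by decide +kernel
    have e2 : (D4).cartan 2 14 = -1 := by decide +kernel
    have e3 : (D4).cartan 3 14 = -1 := by decide +kernel
    rw [e0, e1, e2, e3]
    congr 1
    have hu : ∀ u : Kˣ, Units.map (φ : K →* K) u = u ^ q := fun u => Units.ext (by simp [hq])
    rw [hu, hu, ← pow_mul]
    simp only [zpow_neg, zpow_one, one_zpow, mul_one]
    rw [pow_add, pow_add, pow_one, mul_inv, mul_inv, pow_two]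
  have hlong : ∀ t, φ t = t → (St R hm).xb 14 t ∈ L := by
    intro t ht
    by_cases ht0 : t = 0
    · rw [ht0, (St R hm).xb_zero (show 14 < (D4).nroots by decide)]; exact L.one_mem
    have hfx : ∀ z : K, ∀ hz : z ≠ 0, φ z = z → (Units.mk0 z hz) ^ q = Units.mk0 z hz := by
      intro z hz h
      apply Units.ext
      rw [Units.val_pow_eq_pow_val, Units.val_mk0, ← hq]; exact h
    have hcu : Nat.card Kˣ = q ^ 3 - 1 := by rw [Nat.card_units, hK]
    obtain ⟨k, hk⟩ := norm_gen hl hq0 (e := 1 + q + q ^ 2) (y := Units.mk0 c hc0 * (Units.mk0 t ht0)⁻¹) (by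
      rw [hcu]
      obtain ⟨m, rfl⟩ : ∃ m, q = m + 1 := ⟨q - 1, by omega⟩
      symm
      apply Nat.sub_eq_of_eq_add
      rw [Nat.add_sub_cancel]; ring) (by rw [mul_pow, inv_pow, hfx c hc0 hcf, hfx t ht0 ht])
    have hact14 : ∀ t, s * (St R hm).xb 14 t * s⁻¹ = (St R hm).xb 14
        ((((l ^ (1 + q + q ^ 2))⁻¹ : Kˣ) : K) * t) := by
      intro t
      have := psi_x (S := St R hm) Z4 W4 (tc φ l 1) (show 14 < (D4).nroots by decide) t
      rwa [hN] at this
    have h5 := mem_of_pow (x := (St R hm).xb 14) hact14 hsL hzL k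
    have h6 : ((((l ^ (1 + q + q ^ 2))⁻¹ : Kˣ) : K)) ^ k * c = t := by
      rw [← Units.val_pow_eq_pow_val, inv_pow, hk]
      rw [mul_inv, inv_inv, Units.val_mul, Units.val_inv_eq_inv_val, Units.val_mk0, Units.val_mk0]
      field_simp
    rw [h6] at h5
    exact h5
  have s1 : Sy.X ((C2).simple (1 : Fin 2)) ≤ L := by
    intro g hg
    obtain ⟨t, ht, rfl⟩ := (m1 R hm φ hφ).1 hg
    exact hlong t ht
  have s1' : Sy.X ((C2).neg ((C2).simple (1 : Fin 2))) ≤ L :=
    hw3.full' s1 (by apply Fin.ext; decide +kernel)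
  have hs : ∀ J : Fin 2, X1 ((St R hm).stSys X4 Z4 W4) (A R hm φ hφ).σ (E R hm φ hφ).clF
      ((C2).simple J) ≤ L := by
    intro J
    rcases two J with rfl | rfl
    · exact s0
    · exact s1
  have hs' : ∀ J : Fin 2, X1 ((St R hm).stSys X4 Z4 W4) (A R hm φ hφ).σ (E R hm φ hφ).clF
      ((C2).neg ((C2).simple J)) ≤ L := by
    intro J
    rcases two J with rfl | rfl
    · exact s0'
    · exact s1'
  exact (T R hm φ hφ).Γ_le (hfix_le R hm φ hφ h3 hs hs') hs hs'

end fin

section final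

variable {K : Type*} [Field K] [Fintype K] {q : ℕ} (hq : IsPrimePow q) (hK : Fintype.card K = q ^ 3)

include hq hK

theorem s2407 : ∃ a b : ↥(Cfsg.Lie.twistedD4 K q),
    Subgroup.closure ({a, b} : Set ↥(Cfsg.Lie.twistedD4 K q)) = ⊤ := by
  have hK' : Nat.card K = q ^ 3 := by rw [Nat.card_eq_fintype_card]; exact hK
  have hq1 : 1 < q := hq.one_lt
  obtain ⟨φ, hφ, hφq⟩ := exists_frob hq (by norm_num : (3 : ℕ) ≠ 0) hK'
  have h3 : ∀ t : K, φ (φ (φ t)) = t := by
    intro t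
    rw [hφq, hφq, hφq, ← pow_mul, ← pow_mul]
    have := FiniteField.pow_card t
    rwa [hK, show q ^ 3 = q * (q * q) by ring] at this
  have hG := Γ_eq (RR K) (H22.St.hmul_all _ memD4) φ hφ h3 hφq
  obtain ⟨a, ha, b, hb, h⟩ := two_gen (RR K) (H22.St.hmul_all _ memD4) φ hφ h3 hq1 hK' hφq
  exact H45.TwG.final _ ((M_Γ (T (RR K) (H22.St.hmul_all _ memD4) φ hφ).tw).symm.trans hG) ha hb h

end final

end H45.TwGD
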