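import Cfsg.Agent.Lib.H45.TwG
import Cfsg.Agent.Lib.H22.TwE6c

/-!
Two-generation of the groups of type ²E₆.
-/

set_option autoImplicit false
set_option linter.unusedVariables false
set_option linter.unusedSectionVars false

namespace H45.TwGE

open H22.TwE6

open H22.RGD H22.Coord H22.RCCheck H22.RCComb H22.ChevTri H22.ChevRel H22.ChevSys H22.ChevMain
open H22.ChevStd H22.ChevSolv H22.ChevUni H22.St H22.TwChev H22.TwSt H22.RCPack H22.TwTab H22.TwX
open H22.TwDat H22.TwAut H22.ChevTorus H22.TwThm H22.TwPerf H22.TwMisc H45.TwG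
open Cfsg.Lie (ChevalleyDatum)
open scoped MatrixGroups Matrix commutatorElement

local notation "E6" => Cfsg.Lie.chevE6
local notation "X6" => H22.PoinE6.rcxE6
local notation "F4X" => H22.PoinF4.rcxF4
local notation "Z6" => H22.ChevLex.lexE6
local notation "W6" => certE6'
local notation "C4" => comb F4X

section fin

variable {K : Type*} [Field K] [Finite K] (R : Rel E6 K) (hm : ∀ r < (E6).nroots, ∀ c d : K, c ≠ 0 → d ≠ 0 →
      (E6).hMat K r c * (E6).hMat K r d = (E6).hMat K r (c * d))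
  (φ : K →+* K) (hφ : Function.Surjective φ)

/-- all characters of a torus element -/
theorem chr_all (b : Kˣ) (s : ℕ) (hs : s < (E6).nroots) : chr (tc φ 1 b 1 1) s =
    ((b ^ (E6).cartan 2 s * (Units.map (φ : K →* K) b) ^ (E6).cartan 4 s : Kˣ) : K) := by
  rw [chr_eq hs]
  congr 1
  have : (∏ j : Fin 6, (tc φ 1 b 1 1) j ^ (E6).cartan j s) =
      (1 : Kˣ) ^ (E6).cartan 0 s * (1 : Kˣ) ^ (E6).cartan 1 s * b ^ (E6).cartan 2 s *
      (1 : Kˣ) ^ (E6).cartan 3 s * (Units.map (φ : K →* K) b) ^ (E6).cartan 4 s *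
      (Units.map (φ : K →* K) 1) ^ (E6).cartan 5 s := by
    rw [Fin.prod_univ_six]
    rfl
  refine Eq.trans this ?_
  simp

/-- the action of fixed torus elements on the short root group -/
theorem act_short {c : Fin (E6).rank → Kˣ} (h : (A R hm φ hφ).σ ((St R hm).psi X6 Z6 W6 c) =
    (St R hm).psi X6 Z6 W6 c) (t : K) : (St R hm).psi X6 Z6 W6 c * xs R hm φ 56 36 t *
    ((St R hm).psi X6 Z6 W6 c)⁻¹ = xs R hm φ 56 36 (chr c 56 * t) := by
  have h1 : chr c 36 = φ (chr c 56) := chr_fixed (S := St R hm) Z6 W6 h (r := 56) (by decide)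
    (show 36 < (E6).nroots by decide) (Int.cast_one (R := K))
  have e1 := psi_x (S := St R hm) Z6 W6 c (show 56 < (E6).nroots by decide) t
  have e2 := psi_x (S := St R hm) Z6 W6 c (show 36 < (E6).nroots by decide) (φ t)
  rw [h1] at e2
  unfold xs
  simp only [map_mul]
  rw [← e1, ← e2]
  simp [mul_assoc]

/-- the word -/
abbrev we6 : List (Fin (E6).rank) := ([3, 2, 4, 0, 5, 1] : List (Fin 6))
/-- the word -/
abbrev wf4 : List (Fin Cfsg.Lie.chevF4.rank) := ([2, 1, 0, 3] : List (Fin 4))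

theorem word01 : (T R hm φ hφ).tw.sys.nw wf4 = ((St R hm).stSys X6 Z6 W6).nw we6 := by
  have e : we6 = ([3] : List (Fin 6)) ++ (([2, 4] : List (Fin 6)) ++ (([0, 5] : List (Fin 6)) ++
    ([1] : List (Fin 6)))) := rfl
  rw [e]
  refine Eq.trans ?_ (Sys.nw_append _ _ _).symm
  refine ((T R hm φ hφ).tw.sys.nw_cons _ _).trans ?_
  refine congrArg₂ (· * ·) rfl ?_
  refine Eq.trans ?_ (Sys.nw_append _ _ _).symm
  refine ((T R hm φ hφ).tw.sys.nw_cons _ _).trans ?_
  refine congrArg₂ (· * ·) rfl ?_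
  refine Eq.trans ?_ (Sys.nw_append _ _ _).symm
  refine ((T R hm φ hφ).tw.sys.nw_cons _ _).trans ?_
  refine congrArg₂ (· * ·) rfl ?_
  exact ((T R hm φ hφ).tw.sys.nw_singleton _).trans rfl

theorem two_gen (h2 : ∀ t : K, φ (φ t) = t) {q : ℕ} (hq0 : 1 < q) (hK : Nat.card K = q ^ 2)
    (hq : ∀ t, φ t = t ^ q) : ∃ a ∈ (T R hm φ hφ).tw.sys.Γ, ∃ b ∈ (T R hm φ hφ).tw.sys.Γ,
    (T R hm φ hφ).tw.sys.Γ ≤ Subgroup.closure {a, b} := by
  have := Fintype.ofFinite K
  set Sy := (T R hm φ hφ).tw.sys with hSy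
  obtain ⟨l, hl⟩ := IsCyclic.exists_generator (α := Kˣ)
  have hX : ∀ c : Fin ttE6.n', Sy.X c ≤ Sy.Γ := fun c => Sy.X_le_Γ (longest F4X) c
  have hH : Sy.H ≤ Sy.Γ := Sy.H_le_B.trans Sy.B_le_Γ
  set s := (St R hm).psi X6 Z6 W6 (tc φ 1 l 1 1) with hs
  have hsf : (A R hm φ hφ).σ s = s := by
    rw [hs, (A R hm φ hφ).σ_psi Z6 W6, τ_tc R hm φ hφ h2 1 l (by simp) (by simp)]
  have hsH : s ∈ Sy.H := by
    refine ⟨?_, hsf⟩
    show s ∈ (St R hm).Hb
    rw [hs, ← (St R hm).psi_range X6 Z6 W6]; exact ⟨_, rfl⟩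
  set n := Sy.nw wf4 with hn
  have hnN : n ∈ Sy.N := Sy.nw_mem_N _
  have hnf : (A R hm φ hφ).σ n = n := (T R hm φ hφ).tw.sys_Γ_le (Sy.N_le_Γ hnN)
  set x : K → ↥((E6).group K) := xs R hm φ 56 36 with hx
  have hadd : ∀ t u, x (t + u) = x t * x u := xs_add R hm φ (o1 R hm) (by decide) (by decide)
  have hxm : ∀ t, x t ∈ Sy.X ((C4).simple (0 : Fin 4)) := fun t => (m0 R hm φ hφ).2 ⟨t, h2 t, rfl⟩
  set y := (St R hm).xb 46 1 with hy
  have hym : y ∈ Sy.X ((C4).simple (3 : Fin 4)) := (m3 R hm φ hφ).2 ⟨1, map_one _, rfl⟩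
  refine ⟨s * y, Sy.Γ.mul_mem (hH hsH) (hX _ hym), x 1 * n, Sy.Γ.mul_mem (hX _ (hxm 1)) (Sy.N_le_Γ hnN), ?_⟩
  set L := Subgroup.closure {s * y, x 1 * n} with hL
  have ha : s * y ∈ L := Subgroup.subset_closure (by simp)
  have hb : x 1 * n ∈ L := Subgroup.subset_closure (by simp)
  -- the first element
  have hc1 : chr (tc φ 1 l 1 1) 46 = 1 := by
    rw [chr_all φ l 46 (by decide)]
    have e0 : (E6).cartan 2 46 = 0 := by decide +kernel
    have e2 : (E6).cartan 4 46 = 0 := by decide +kernel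
    rw [e0, e2]; simp
  have hcomm : s * y = y * s := by
    have := psi_x (S := St R hm) Z6 W6 (tc φ 1 l 1 1) (show 46 < (E6).nroots by decide) 1
    rw [hc1, one_mul] at this
    rw [← mul_inv_eq_iff_eq_mul]; exact this
  have hadd46 : ∀ t u, (St R hm).xb 46 (t + u) = (St R hm).xb 46 t * (St R hm).xb 46 u :=
    fun t u => ((St R hm).add 46 (by decide) t u).symm
  have hcard : ((Nat.card K : ℕ) : K) = 0 := by rw [Nat.card_eq_fintype_card]; exact FiniteField.cast_card_eq_zero K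
  obtain ⟨hsL, hyL⟩ : s ∈ L ∧ y ∈ L := by
    refine split_pow (N := Nat.card K) hcomm ?_ ?_ ha
    · rw [hs, ← map_pow]
      congr 1
      funext i
      rw [Pi.pow_apply]
      apply Units.ext
      rw [Units.val_pow_eq_pow_val, Nat.card_eq_fintype_card, FiniteField.pow_card]
    · rw [hy, x_pow hadd46, hcard, zero_mul, (St R hm).xb_zero (by decide)]
  -- extraction
  have hl2 : (l : K) ^ 2 ≠ 1 := by
    intro h
    obtain ⟨a, ha⟩ := exists_pow_ne (K := K) (n := 2) (by norm_num) (by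
      rw [hK]
      have : 2 ^ 2 ≤ q ^ 2 := Nat.pow_le_pow_left hq0 2
      omega)
    have h5 : l ^ 2 = 1 := Units.ext (by simpa using h)
    obtain ⟨k, hk⟩ := hl a
    have h6 : a ^ 2 = 1 := by
      have hk' : l ^ k = a := hk
      rw [← hk', ← zpow_natCast, ← zpow_mul, mul_comm, zpow_mul, zpow_natCast, h5, one_zpow]
    exact ha (by rw [← Units.val_pow_eq_pow_val, h6, Units.val_one])
  obtain ⟨c', hc'⟩ := exists_conj_psi (S := St R hm) Z6 W6 we6 (tc φ 1 l 1 1)
  have hwe := word01 R hm φ hφ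
  rw [← hSy, ← hn] at hwe
  have hc'' : (St R hm).psi X6 Z6 W6 c' = n * s * n⁻¹ := by rw [hc', hwe]
  have hfix : (A R hm φ hφ).σ ((St R hm).psi X6 Z6 W6 c') = (St R hm).psi X6 Z6 W6 c' := by
    rw [hc'', map_mul, map_mul, map_inv, hnf, hsf]
  have hν : chr c' 56 ≠ 1 := by
    refine chr_conj_ne (S := St R hm) Z6 W6 (r := (56 : Fin 72)) hc' ?_
    have e : (((comb X6).w we6)⁻¹ (56 : Fin 72) : Fin (E6).nroots) = (42 : Fin 72) := by
      refine (Equiv.Perm.inv_eq_iff_eq (f := (comb X6).w we6)).2 ?_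
      apply Fin.ext
      decide +kernel
    rw [e]
    show chr (tc φ 1 l 1 1) 42 ≠ 1
    rw [chr_all φ l 42 (by decide)]
    have e0 : (E6).cartan 2 42 = 2 := by decide +kernel
    have e1 : (E6).cartan 4 42 = 0 := by decide +kernel
    rw [e0, e1]
    intro h
    apply hl2
    rw [← h]; simp [zpow_ofNat]
  have hact : ∀ t, s * x t * s⁻¹ = x (((l⁻¹ : Kˣ) : K) * t) := by
    intro t
    have := act_short R hm φ hφ hsf t
    have hc : chr (tc φ 1 l 1 1) 56 = ((l⁻¹ : Kˣ) : K) := by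
      rw [chr_all φ l 56 (by decide)]
      have e0 : (E6).cartan 2 56 = -1 := by decide +kernel
      have e2 : (E6).cartan 4 56 = 0 := by decide +kernel
      rw [e0, e2]; simp
    rwa [hc] at this
  have hact' : ∀ t, (n * s * n⁻¹) * x t * (n * s * n⁻¹)⁻¹ = x (chr c' 56 * t) := by
    intro t
    rw [← hc'']; exact act_short R hm φ hφ hfix t
  have hsc : s * (n * s * n⁻¹) = (n * s * n⁻¹) * s := by
    rw [← hc'', hs]; exact psi_comm Z6 W6 _ _
  have hext := extract hadd hsL hb hact hact' hsc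
  have hpw : ∀ u : Kˣ, ∃ k : ℕ, l⁻¹ ^ k = u := by
    intro u
    have := hl u⁻¹
    rw [← mem_powers_iff_mem_zpowers] at this
    obtain ⟨k, hk⟩ := this
    have hk' : l ^ k = u⁻¹ := hk
    exact ⟨k, by rw [inv_pow, hk', inv_inv]⟩
  have hfull : ∀ t, x t ∈ L := by
    refine fill hadd hact hsL ?_ ?_ hext
    · intro y hy
      obtain ⟨k, hk⟩ := hpw (Units.mk0 y hy ^ 2)
      refine ⟨k, ?_⟩
      rw [← Units.val_pow_eq_pow_val, hk]; simp
    · refine mul_ne_zero (sub_ne_zero.2 ?_) (sub_ne_zero.2 hν.symm)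
      intro h
      have h1 : l⁻¹ = 1 := Units.ext (by rw [h]; rfl)
      rw [inv_eq_one] at h1
      exact hl2 (by rw [h1]; simp)
  have s0 : Sy.X ((C4).simple (0 : Fin 4)) ≤ L := by
    intro g hg
    obtain ⟨t, _, rfl⟩ := (m0 R hm φ hφ).1 hg
    exact hfull t
  have hnL : n ∈ L := by
    have := L.mul_mem (L.inv_mem (hfull 1)) hb
    simpa using this
  have hw : WL Sy L ((C4).w wf4) := ⟨n, hnL, Sy.rep_nw _⟩
  have hw6 : WL Sy L ([(C4).w wf4, (C4).w wf4, (C4).w wf4, (C4).w wf4, (C4).w wf4, (C4).w wf4].prod) :=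
    WL.list (by
      intro w hw'
      simp only [List.mem_cons, List.not_mem_nil, or_false, or_self] at hw'
      rw [hw']; exact hw)
  have s0' : Sy.X ((C4).neg ((C4).simple (0 : Fin 4))) ≤ L :=
    hw6.full' s0 (by apply Fin.ext; decide +kernel)
  have s1 : Sy.X ((C4).simple (1 : Fin 4)) ≤ L :=
    hw.inv.full' s0 (by
      refine (Equiv.Perm.inv_eq_iff_eq (f := (C4).w wf4)).2 ?_
      apply Fin.ext; decide +kernel)
  have s1' : Sy.X ((C4).neg ((C4).simple (1 : Fin 4))) ≤ L :=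
    hw6.full' s1 (by apply Fin.ext; decide +kernel)
  have r0 : WL Sy L ((C4).refl (0 : Fin 4)) := WL.refl s0 s0'
  have r1 : WL Sy L ((C4).refl (1 : Fin 4)) := WL.refl s1 s1'
  -- from simple 2 to simple 3
  have hv : WL Sy L ((C4).w wf4 * (C4).refl (0 : Fin 4) * (C4).refl (1 : Fin 4)) := (hw.mul r0).mul r1
  have hve : ((C4).w wf4 * (C4).refl (0 : Fin 4) * (C4).refl (1 : Fin 4)) ((C4).simple (2 : Fin 4)) =
      (C4).simple (3 : Fin 4) := by apply Fin.ext; decide +kernel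
  obtain ⟨z, hz, hz1, hzL⟩ := hv.inv.half' (c := (C4).simple (3 : Fin 4)) (d := (C4).simple (2 : Fin 4))
    ⟨y, hym, by
      intro h
      exact one_ne_zero ((St R hm).xb_inj (X6).rc (show 46 < (E6).nroots by decide)
        (h.trans ((St R hm).xb_zero (show 46 < (E6).nroots by decide)).symm)), hyL⟩
    ((Equiv.Perm.inv_eq_iff_eq (f := (C4).w wf4 * (C4).refl (0 : Fin 4) * (C4).refl (1 : Fin 4))).2 hve.symm)
  obtain ⟨c, hcf, rfl⟩ := (m2 R hm φ hφ).1 hz
  have hc0 : c ≠ 0 := by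
    rintro rfl
    exact hz1 ((St R hm).xb_zero (show 39 < (E6).nroots by decide))
  have hN : chr (tc φ 1 l 1 1) 39 = ((l ^ (1 + q))⁻¹ : Kˣ) := by
    rw [chr_all φ l 39 (by decide)]
    have e2 : (E6).cartan 2 39 = -1 := by decide +kernel
    have e3 : (E6).cartan 4 39 = -1 := by decide +kernel
    rw [e2, e3]
    congr 1
    have hu : ∀ u : Kˣ, Units.map (φ : K →* K) u = u ^ q := fun u => Units.ext (by simp [hq])
    rw [hu]
    simp only [zpow_neg, zpow_one]
    rw [pow_add, pow_one, mul_inv]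
  have hlong : ∀ t, φ t = t → (St R hm).xb 39 t ∈ L := by
    intro t ht
    by_cases ht0 : t = 0
    · rw [ht0, (St R hm).xb_zero (show 39 < (E6).nroots by decide)]; exact L.one_mem
    have hfx : ∀ z : K, ∀ hz : z ≠ 0, φ z = z → (Units.mk0 z hz) ^ q = Units.mk0 z hz := by
      intro z hz h
      apply Units.ext
      rw [Units.val_pow_eq_pow_val, Units.val_mk0, ← hq]; exact h
    have hcu : Nat.card Kˣ = q ^ 2 - 1 := by rw [Nat.card_units, hK]
    obtain ⟨k, hk⟩ := norm_gen hl hq0 (e := 1 + q) (y := Units.mk0 c hc0 * (Units.mk0 t ht0)⁻¹) (by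
      rw [hcu]
      obtain ⟨m, rfl⟩ : ∃ m, q = m + 1 := ⟨q - 1, by omega⟩
      symm
      apply Nat.sub_eq_of_eq_add
      rw [Nat.add_sub_cancel]; ring) (by rw [mul_pow, inv_pow, hfx c hc0 hcf, hfx t ht0 ht])
    have hact14 : ∀ t, s * (St R hm).xb 39 t * s⁻¹ = (St R hm).xb 39
        ((((l ^ (1 + q))⁻¹ : Kˣ) : K) * t) := by
      intro t
      have := psi_x (S := St R hm) Z6 W6 (tc φ 1 l 1 1) (show 39 < (E6).nroots by decide) t
      rwa [hN] at this
    have h5 := mem_of_pow (x := (St R hm).xb 39) hact14 hsL hzL k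
    have h6 : ((((l ^ (1 + q))⁻¹ : Kˣ) : K)) ^ k * c = t := by
      rw [← Units.val_pow_eq_pow_val, inv_pow, hk]
      rw [mul_inv, inv_inv, Units.val_mul, Units.val_inv_eq_inv_val, Units.val_mk0, Units.val_mk0]
      field_simp
    rw [h6] at h5
    exact h5
  have s2 : Sy.X ((C4).simple (2 : Fin 4)) ≤ L := by
    intro g hg
    obtain ⟨t, ht, rfl⟩ := (m2 R hm φ hφ).1 hg
    exact hlong t ht
  have s2' : Sy.X ((C4).neg ((C4).simple (2 : Fin 4))) ≤ L :=
    hw6.full' s2 (by apply Fin.ext; decide +kernel)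
  have s3 : Sy.X ((C4).simple (3 : Fin 4)) ≤ L := hv.full' s2 hve
  have s3' : Sy.X ((C4).neg ((C4).simple (3 : Fin 4))) ≤ L :=
    hw6.full' s3 (by apply Fin.ext; decide +kernel)
  have hs : ∀ J : Fin 4, X1 ((St R hm).stSys X6 Z6 W6) (A R hm φ hφ).σ (E R hm φ hφ).clF
      ((C4).simple J) ≤ L := by
    intro J
    rcases four J with rfl | rfl | rfl | rfl
    · exact s0
    · exact s1
    · exact s2
    · exact s3
  have hs' : ∀ J : Fin 4, X1 ((St R hm).stSys X6 Z6 W6) (A R hm φ hφ).σ (E R hm φ hφ).clF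
      ((C4).neg ((C4).simple J)) ≤ L := by
    intro J
    rcases four J with rfl | rfl | rfl | rfl
    · exact s0'
    · exact s1'
    · exact s2'
    · exact s3'
  exact (T R hm φ hφ).Γ_le (hfix_le R hm φ hφ h2 hs hs') hs hs'

end fin

section final

variable {K : Type*} [Field K] [Fintype K] {q : ℕ} (hq : IsPrimePow q) (hK : Fintype.card K = q ^ 2)

include hq hK

theorem s2406 : ∃ a b : ↥(Cfsg.Lie.twistedE6 K q),
    Subgroup.closure ({a, b} : Set ↥(Cfsg.Lie.twistedE6 K q)) = ⊤ := by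
  have hK' : Nat.card K = q ^ 2 := by rw [Nat.card_eq_fintype_card]; exact hK
  have hq1 : 1 < q := hq.one_lt
  obtain ⟨φ, hφ, hφq⟩ := exists_frob hq (by norm_num : (2 : ℕ) ≠ 0) hK'
  have h2 : ∀ t : K, φ (φ t) = t := by
    intro t
    rw [hφq, hφq, ← pow_mul]
    have := FiniteField.pow_card t
    rwa [hK, show q ^ 2 = q * q by ring] at this
  have hG := Γ_eq (RR K) (H22.St.hmul_all _ memE6) φ hφ h2 hφq
  obtain ⟨a, ha, b, hb, h⟩ := two_gen (RR K) (H22.St.hmul_all _ memE6) φ hφ h2 hq1 hK' hφq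
  exact H45.TwG.final _ ((M_Γ (T (RR K) (H22.St.hmul_all _ memE6) φ hφ).tw).symm.trans hG) ha hb h

end final

end H45.TwGE
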