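import Cfsg.Agent.Lib.H45.TwG
import Cfsg.Agent.Lib.H22.TwF4d

/-!
Two-generation of the groups of type ²F₄.
-/

set_option autoImplicit false
set_option linter.unusedVariables false
set_option linter.unusedSectionVars false

namespace H45.TwGF

open H22.TwF4

open H22.RGD H22.Coord H22.RCCheck H22.RCComb H22.ChevTri H22.ChevRel H22.ChevSys H22.ChevMain
open H22.ChevStd H22.ChevSolv H22.ChevUni H22.St H22.TwChev H22.TwSt H22.RCPack H22.TwTab H22.TwX
open H22.TwDat H22.TwAut H22.ChevTorus H22.TwThm H22.TwPerf H22.TwMisc H22.TwB2c H22.TwNPsi H45.TwG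
open Cfsg.Lie (ChevalleyDatum)
open scoped MatrixGroups Matrix commutatorElement

local notation "F4" => Cfsg.Lie.chevF4
local notation "X4" => H22.PoinF4.rcxF4
local notation "Z4" => H22.ChevLex.lexF4
local notation "W4'" => certF4'

section fin

variable {K : Type*} [Field K] [CharP K 2] [Finite K] (R : Rel F4 K)
  (hm : ∀ r < (F4).nroots, ∀ c d : K, c ≠ 0 → d ≠ 0 →
      (F4).hMat K r c * (F4).hMat K r d = (F4).hMat K r (c * d))
  (θ ψ : K →+* K) (hθ : Function.Surjective θ) (hψ : Function.Surjective ψ) (h2 : ∀ t, ψ t = θ t ^ 2)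
  (i1 : ∀ t, θ (ψ t) = t) (i2 : ∀ t, ψ (θ t) = t)

/-- the action of fixed torus elements on the root group of a pair -/
theorem act_pair {c : Fin (F4).rank → Kˣ} (h : (A R hm θ ψ hθ hψ h2).σ ((St R hm).psi X4 Z4 W4' c) =
    (St R hm).psi X4 Z4 W4' c) (t : K) : (St R hm).psi X4 Z4 W4' c * xs R hm θ 33 24 t *
    ((St R hm).psi X4 Z4 W4' c)⁻¹ = xs R hm θ 33 24 (chr c 24 * t) := by
  have h1 : chr c 33 = θ (chr c 24) := chr_fixed (S := St R hm) Z4 W4' h (r := 24) (by decide)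
    (show 33 < (F4).nroots by decide) rfl
  have e1 := psi_x (S := St R hm) Z4 W4' c (show 24 < (F4).nroots by decide) t
  have e2 := psi_x (S := St R hm) Z4 W4' c (show 33 < (F4).nroots by decide) (θ t)
  rw [h1] at e2
  unfold xs
  simp only [map_mul]
  rw [← e1, ← e2]
  simp [mul_assoc]

theorem chr15 (a b : Kˣ) : chr (tc θ a b) 15 = θ (a : K) ^ 2 * (b : K)⁻¹ := by
  rw [chr_eq (by decide)]
  have : (∏ j : Fin 4, (tc θ a b) j ^ (F4).cartan j 15) =
      Units.map (θ : K →* K) a ^ (F4).cartan 0 15 * Units.map (θ : K →* K) b ^ (F4).cartan 1 15 *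
        b ^ (F4).cartan 2 15 * a ^ (F4).cartan 3 15 := by
    rw [Fin.prod_univ_four]
    rfl
  refine (congrArg Units.val this).trans ?_
  have e0 : (F4).cartan 0 15 = 2 := by decide +kernel
  have e1 : (F4).cartan 1 15 = 0 := by decide +kernel
  have e2 : (F4).cartan 2 15 = -1 := by decide +kernel
  have e3 : (F4).cartan 3 15 = 0 := by decide +kernel
  rw [e0, e1, e2, e3]
  simp [zpow_ofNat]

include h2 i2 in
theorem conj_xw' (a : Kˣ) (t u : K) : (St R hm).psi X4 Z4 W4' (tc θ a 1) * xw R hm θ ψ 27 25 28 30 t u *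
    ((St R hm).psi X4 Z4 W4' (tc θ a 1))⁻¹ =
    xw R hm θ ψ 27 25 28 30 ((a : K)⁻¹ * t) ((θ (a : K) * a)⁻¹ * u) := by
  obtain ⟨_, _, c1, c2, c3, c4⟩ := chr_tc θ a 1
  simp only [Units.val_one, map_one, inv_one, mul_one, one_mul, one_pow] at c1 c2 c3 c4
  have e1 := psi_x (S := St R hm) Z4 W4' (tc θ a 1) (show 27 < (F4).nroots by decide) (θ t)
  have e2 := psi_x (S := St R hm) Z4 W4' (tc θ a 1) (show 25 < (F4).nroots by decide) t
  have e3 := psi_x (S := St R hm) Z4 W4' (tc θ a 1) (show 28 < (F4).nroots by decide) (θ t * t + u)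
  have e4 := psi_x (S := St R hm) Z4 W4' (tc θ a 1) (show 30 < (F4).nroots by decide) (ψ u)
  rw [c1] at e1
  rw [c2] at e2
  rw [c3] at e3
  rw [c4] at e4
  have ha := a.ne_zero
  have hta : θ (a : K) ≠ 0 := (map_ne_zero θ).2 ha
  have g1 : θ ((a : K)⁻¹ * t) = (θ (a : K))⁻¹ * θ t := by rw [map_mul, map_inv₀]
  have g2 : θ ((a : K)⁻¹ * t) * ((a : K)⁻¹ * t) + (θ (a : K) * a)⁻¹ * u =
      (θ (a : K))⁻¹ * (a : K)⁻¹ * (θ t * t + u) := by
    rw [g1, mul_inv]; ring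
  have g3 : ψ ((θ (a : K) * a)⁻¹ * u) = (θ (a : K) ^ 2)⁻¹ * (a : K)⁻¹ * ψ u := by
    rw [map_mul, map_inv₀, map_mul, i2, h2 (a : K), mul_inv]; ring
  unfold xw W4
  rw [g2, g1, g3, ← e1, ← e2, ← e3, ← e4]
  simp [mul_assoc]

/-- the word -/
abbrev wx4 : List (Fin (F4).rank) := ([0, 3, 1, 2, 1, 2] : List (Fin 4))
/-- the word -/
abbrev wx2 : List (Fin 2) := [0, 1]

theorem word01 : (T R hm θ ψ hθ hψ h2 i1 i2).tw.sys.nw wx2 = ((St R hm).stSys X4 Z4 W4').nw wx4 := by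
  have e : wx4 = ([0, 3] : List (Fin 4)) ++ ([1, 2, 1, 2] : List (Fin 4)) := rfl
  rw [e]
  refine Eq.trans ?_ (Sys.nw_append _ _ _).symm
  refine ((T R hm θ ψ hθ hψ h2 i1 i2).tw.sys.nw_cons _ _).trans ?_
  refine congrArg₂ (· * ·) rfl ?_
  exact ((T R hm θ ψ hθ hψ h2 i1 i2).tw.sys.nw_singleton _).trans rfl

theorem two_gen {e : ℕ} (he : ∀ t, θ t = t ^ e) (h4 : 4 ∣ Nat.card K) :
    ∃ a ∈ (T R hm θ ψ hθ hψ h2 i1 i2).tw.sys.Γ, ∃ b ∈ (T R hm θ ψ hθ hψ h2 i1 i2).tw.sys.Γ,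
    (T R hm θ ψ hθ hψ h2 i1 i2).tw.sys.Γ ≤ Subgroup.closure {a, b} := by
  have := Fintype.ofFinite K
  set Sy := (T R hm θ ψ hθ hψ h2 i1 i2).tw.sys with hSy
  obtain ⟨l, hl⟩ := IsCyclic.exists_generator (α := Kˣ)
  have hX : ∀ c : Fin ttF4.n', Sy.X c ≤ Sy.Γ := fun c => Sy.X_le_Γ longest16 c
  have hH : Sy.H ≤ Sy.Γ := Sy.H_le_B.trans Sy.B_le_Γ
  set b₀ : Kˣ := l * Units.map (θ : K →* K) l with hb₀
  set s := (St R hm).psi X4 Z4 W4' (tc θ l b₀) with hs
  have hsf : (A R hm θ ψ hθ hψ h2).σ s = s := by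
    rw [hs, (A R hm θ ψ hθ hψ h2).σ_psi Z4 W4', τ_tc R hm θ ψ hθ hψ h2 i2]
  have hsH : s ∈ Sy.H := by
    refine ⟨?_, hsf⟩
    show s ∈ (St R hm).Hb
    rw [hs, ← (St R hm).psi_range X4 Z4 W4']; exact ⟨_, rfl⟩
  set n := Sy.nw wx2 with hn
  have hnN : n ∈ Sy.N := Sy.nw_mem_N _
  have hnf : (A R hm θ ψ hθ hψ h2).σ n = n := (T R hm θ ψ hθ hψ h2 i1 i2).tw.sys_Γ_le (Sy.N_le_Γ hnN)
  set x : K → ↥((F4).group K) := xs R hm θ 33 24 with hx
  have hadd : ∀ t u, x (t + u) = x t * x u := xs_add R hm θ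
  have hxm : ∀ t, x t ∈ Sy.X (C16.simple (0 : Fin 2)) := fun t => (m0 R hm θ ψ hθ hψ h2 i2).2 ⟨t, rfl⟩
  set y := xw R hm θ ψ 27 25 28 30 1 0 with hy
  have hym : y ∈ Sy.X (C16.simple (1 : Fin 2)) := (m1 R hm θ ψ hθ hψ h2 i1 i2).2 ⟨1, 0, rfl⟩
  refine ⟨s * y, Sy.Γ.mul_mem (hH hsH) (hX _ hym), x 1 * n, Sy.Γ.mul_mem (hX _ (hxm 1)) (Sy.N_le_Γ hnN), ?_⟩
  set L := Subgroup.closure {s * y, x 1 * n} with hL
  have ha : s * y ∈ L := Subgroup.subset_closure (by simp)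
  have hb : x 1 * n ∈ L := Subgroup.subset_closure (by simp)
  have hθθ : ∀ t : K, (θ (θ t)) ^ 2 = t := by intro t; rw [← map_pow, ← h2, i1]
  have hl0 := l.ne_zero
  have htl0 : θ (l : K) ≠ 0 := (map_ne_zero θ).2 hl0
  have hb0 : (b₀ : K) = l * θ l := rfl
  have htb : θ (b₀ : K) ^ 2 = θ (l : K) ^ 2 * l := by rw [hb0, map_mul, mul_pow, hθθ]
  -- the first element
  have hcomm : s * y = y * s := by
    obtain ⟨_, _, c1, c2, c3, c4⟩ := chr_tc θ l b₀
    have d1 : chr (tc θ l b₀) 27 = 1 := by rw [c1, htb, hb0]; field_simp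
    have d2 : chr (tc θ l b₀) 25 = 1 := by rw [c2, htb, hb0]; field_simp
    have d3 : chr (tc θ l b₀) 28 = 1 := by rw [c3, hb0]; field_simp
    have d4 : chr (tc θ l b₀) 30 = 1 := by rw [c4, htb]; field_simp
    have key : ∀ r : ℕ, r < (F4).nroots → chr (tc θ l b₀) r = 1 → ∀ t, Commute s ((St R hm).xb r t) := by
      intro r hr h t
      have := psi_x (S := St R hm) Z4 W4' (tc θ l b₀) hr t
      rw [h, one_mul] at this
      show s * _ = _ * s
      rw [← mul_inv_eq_iff_eq_mul]; exact this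
    have h5 : Commute s y := by
      rw [hy]
      unfold xw W4
      exact ((((key 27 (by decide) d1 _).mul_right (key 25 (by decide) d2 _)).mul_right
        (key 28 (by decide) d3 _)).mul_right (key 30 (by decide) d4 _))
    exact h5
  have hy2 : y * y = xw R hm θ ψ 27 25 28 30 0 1 := by
    rw [hy, xw_mul R hm θ ψ h2 i2]
    congr 1
    · exact CharTwo.add_self_eq_zero _
    · simp
  have hy4 : y ^ 4 = 1 := by
    have : y ^ 4 = (y * y) * (y * y) := by rw [pow_succ, pow_succ, pow_two]; simp [mul_assoc]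
    rw [this, hy2, xw_mul R hm θ ψ h2 i2]
    have e1 : (1 : K) + 1 + θ 0 * 0 = 0 := by rw [mul_zero, add_zero]; exact CharTwo.add_self_eq_zero _
    rw [e1, add_zero]
    exact xw_zero R hm θ ψ
  obtain ⟨hsL, hyL⟩ : s ∈ L ∧ y ∈ L := by
    refine split_pow (N := Nat.card K) hcomm ?_ ?_ ha
    · rw [hs, ← map_pow]
      congr 1
      funext i
      rw [Pi.pow_apply]
      apply Units.ext
      rw [Units.val_pow_eq_pow_val, Nat.card_eq_fintype_card, FiniteField.pow_card]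
    · obtain ⟨k, hk⟩ := h4
      rw [hk, pow_mul, hy4, one_pow]
  -- the generator
  have hl1 : (l : K) ≠ 1 := by
    intro h
    have h5 : l = 1 := Units.ext h
    have h6 : ∀ u : Kˣ, u = 1 := by
      intro u
      obtain ⟨k, hk⟩ := hl u
      have hk' : l ^ k = u := hk
      rw [← hk', h5, one_zpow]
    have h7 : Nat.card Kˣ = 1 := by
      rw [Nat.card_eq_one_iff_unique]
      exact ⟨⟨fun a b => (h6 a).trans (h6 b).symm⟩, ⟨1⟩⟩
    rw [Nat.card_units] at h7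
    omega
  have hll : θ (l : K) ≠ l := by
    intro h
    have h5 := hθθ l
    rw [h, h] at h5
    exact hl1 (mul_right_cancel₀ hl0 (by rw [one_mul, ← pow_two]; exact h5))
  obtain ⟨c', hc'⟩ := exists_conj_psi (S := St R hm) Z4 W4' wx4 (tc θ l b₀)
  have hwe := word01 R hm θ ψ hθ hψ h2 i1 i2
  rw [← hSy, ← hn] at hwe
  have hc'' : (St R hm).psi X4 Z4 W4' c' = n * s * n⁻¹ := by rw [hc', hwe]
  have hfix : (A R hm θ ψ hθ hψ h2).σ ((St R hm).psi X4 Z4 W4' c') = (St R hm).psi X4 Z4 W4' c' := by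
    rw [hc'', map_mul, map_mul, map_inv, hnf, hsf]
  have hν : chr c' 24 ≠ 1 := by
    refine chr_conj_ne (S := St R hm) Z4 W4' (r := (24 : Fin 48)) hc' ?_
    have e : (((comb X4).w wx4)⁻¹ (24 : Fin 48) : Fin (F4).nroots) = (15 : Fin 48) := by
      refine (Equiv.Perm.inv_eq_iff_eq (f := (comb X4).w wx4)).2 ?_
      apply Fin.ext
      decide +kernel
    rw [e]
    show chr (tc θ l b₀) 15 ≠ 1
    rw [chr15, hb0]
    intro h
    apply hll
    field_simp at h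
    exact h
  have hact : ∀ t, s * x t * s⁻¹ = x (((l * (Units.map (θ : K →* K) l)⁻¹ : Kˣ) : K) * t) := by
    intro t
    have := act_pair R hm θ ψ hθ hψ h2 hsf t
    have hc : chr (tc θ l b₀) 24 = ((l * (Units.map (θ : K →* K) l)⁻¹ : Kˣ) : K) := by
      rw [(chr_tc θ l b₀).2.1, hb0]
      simp only [Units.val_mul, Units.val_inv_eq_inv_val, Units.coe_map, MonoidHom.coe_coe]
      field_simp
    rwa [hc] at this
  have hact' : ∀ t, (n * s * n⁻¹) * x t * (n * s * n⁻¹)⁻¹ = x (chr c' 24 * t) := by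
    intro t
    rw [← hc'']; exact act_pair R hm θ ψ hθ hψ h2 hfix t
  have hsc : s * (n * s * n⁻¹) = (n * s * n⁻¹) * s := by
    rw [← hc'', hs]; exact psi_comm Z4 W4' _ _
  have hext := extract hadd hsL hb hact hact' hsc
  have hpw : (l * (Units.map (θ : K →* K) l)⁻¹) ^ (2 * (1 + e)) = l := by
    apply Units.ext
    have e1 : ((l * (Units.map (θ : K →* K) l)⁻¹ : Kˣ) : K) = (l : K) * (θ l)⁻¹ := by simp
    rw [Units.val_pow_eq_pow_val, e1]
    have e2 : ((l : K) * (θ l)⁻¹) ^ (2 * (1 + e)) = (((l : K) * (θ l)⁻¹) * θ ((l : K) * (θ l)⁻¹)) ^ 2 := by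
      rw [he ((l : K) * (θ l)⁻¹), mul_comm 2, pow_mul, pow_add, pow_one]
    rw [e2, map_mul, map_inv₀]
    have h5 := hθθ l
    have h6 : θ (θ (l : K)) ≠ 0 := (map_ne_zero θ).2 htl0
    have e3 : (l : K) * (θ l)⁻¹ * (θ l * (θ (θ (l : K)))⁻¹) = l * (θ (θ (l : K)))⁻¹ := by field_simp
    rw [e3, mul_pow, inv_pow, h5]
    field_simp
  have hfull : ∀ t, x t ∈ L := by
    refine fill hadd hact hsL ?_ ?_ hext
    · intro y hy
      obtain ⟨k, hk⟩ : ∃ k : ℕ, l ^ k = Units.mk0 y hy := by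
        have := hl (Units.mk0 y hy)
        rw [← mem_powers_iff_mem_zpowers] at this
        exact this
      refine ⟨2 * (1 + e) * (k * 2), ?_⟩
      rw [← Units.val_pow_eq_pow_val, pow_mul, hpw, pow_mul, hk]; simp
    · refine mul_ne_zero (sub_ne_zero.2 ?_) (sub_ne_zero.2 hν.symm)
      intro h
      simp only [Units.val_mul, Units.val_inv_eq_inv_val, Units.coe_map, MonoidHom.coe_coe] at h
      field_simp at h
      exact hll h.symm
  have s0 : Sy.X (C16.simple (0 : Fin 2)) ≤ L := by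
    intro g hg
    obtain ⟨t, rfl⟩ := (m0 R hm θ ψ hθ hψ h2 i2).1 hg
    exact hfull t
  have hnL : n ∈ L := by
    have := L.mul_mem (L.inv_mem (hfull 1)) hb
    simpa using this
  have hw : WL Sy L (C16.w wx2) := ⟨n, hnL, Sy.rep_nw _⟩
  have hw4 : WL Sy L ([C16.w wx2, C16.w wx2, C16.w wx2, C16.w wx2].prod) := WL.list (by
      intro w hw'
      simp only [List.mem_cons, List.not_mem_nil, or_false, or_self] at hw'
      rw [hw']; exact hw)
  have s0' : Sy.X (C16.neg (C16.simple (0 : Fin 2))) ≤ L :=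
    hw4.full' s0 (by apply Fin.ext; decide +kernel)
  have hpt : ∀ a : Kˣ, (St R hm).psi X4 Z4 W4' (tc θ a 1) ∈ L := by
    intro a
    refine pair_torus R hm θ ψ i2 hfull ?_ a
    exact fun t => s0' ((n0 R hm θ ψ hθ hψ h2 i2).2 ⟨t, rfl⟩)
  have hw1 : ∀ t, xw R hm θ ψ 27 25 28 30 t 0 ∈ L := by
    intro t
    by_cases ht : t = 0
    · rw [ht, xw_zero R hm θ ψ]; exact L.one_mem
    have := conj_xw' R hm θ ψ h2 i2 (Units.mk0 t ht)⁻¹ 1 0
    rw [mul_zero, mul_one, Units.val_inv_eq_inv_val, inv_inv, Units.val_mk0] at this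
    rw [← this]
    exact L.mul_mem (L.mul_mem (hpt _) hyL) (L.inv_mem (hpt _))
  have hw2 : ∀ u, xw R hm θ ψ 27 25 28 30 0 u ∈ L := by
    intro u
    by_cases hu : u = 0
    · rw [hu, xw_zero R hm θ ψ]; exact L.one_mem
    obtain ⟨a, ha⟩ := sq_aux θ ψ h2 i1 (Units.mk0 u hu ^ 2)
    have h5 : (θ (a : K) * a) ^ 2 = u ^ 2 := by
      have := congrArg Units.val ha
      simpa [mul_pow] using this
    have h6 : θ (a : K) * a = u := by
      have h7 : (θ (a : K) * a + u) ^ 2 = 0 := by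
        rw [CharTwo.add_sq, h5]; exact CharTwo.add_self_eq_zero _
      have h8 := pow_eq_zero_iff (two_ne_zero) |>.1 h7
      have h9 : θ (a : K) * a = -u := eq_neg_of_add_eq_zero_left h8
      rw [h9, neg_eq']
    have h7 := L.mul_mem (hw1 a) (hw1 a)
    rw [xw_mul R hm θ ψ h2 i2, h6] at h7
    have e1 : (a : K) + a = 0 := CharTwo.add_self_eq_zero _
    rw [e1, add_zero, zero_add] at h7
    exact h7
  have s1 : Sy.X (C16.simple (1 : Fin 2)) ≤ L := by
    intro g hg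
    obtain ⟨t, u, rfl⟩ := (m1 R hm θ ψ hθ hψ h2 i1 i2).1 hg
    have := L.mul_mem (hw1 t) (hw2 u)
    rw [xw_mul R hm θ ψ h2 i2] at this
    simpa using this
  have s1' : Sy.X (C16.neg (C16.simple (1 : Fin 2))) ≤ L :=
    hw4.full' s1 (by apply Fin.ext; decide +kernel)
  have hs : ∀ J : Fin 2, X1 ((St R hm).stSys X4 Z4 W4') (A R hm θ ψ hθ hψ h2).σ
      (E R hm θ ψ hθ hψ h2).clF (C16.simple J) ≤ L := by
    intro J
    rcases two J with rfl | rfl
    · exact s0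
    · exact s1
  have hs' : ∀ J : Fin 2, X1 ((St R hm).stSys X4 Z4 W4') (A R hm θ ψ hθ hψ h2).σ
      (E R hm θ ψ hθ hψ h2).clF (C16.neg (C16.simple J)) ≤ L := by
    intro J
    rcases two J with rfl | rfl
    · exact s0'
    · exact s1'
  exact (T R hm θ ψ hθ hψ h2 i1 i2).Γ_le (hfix_le R hm θ ψ hθ hψ h2 i1 i2 hs hs') hs hs'

end fin

section final

variable {K : Type*} [Field K] [Fintype K] {m : ℕ} (hK : Fintype.card K = 2 ^ (2 * m + 1))

include hK

theorem s2408 (hm1 : 1 ≤ m) : ∃ a b : ↥(Cfsg.Lie.twistedF4 K (2 ^ m)),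
    Subgroup.closure ({a, b} : Set ↥(Cfsg.Lie.twistedF4 K (2 ^ m))) = ⊤ := by
  have hK' : Nat.card K = 2 ^ (2 * m + 1) := by rw [Nat.card_eq_fintype_card]; exact hK
  have := char2 hK
  let θ : K →+* K := iterateFrobenius K 2 m
  let ψ : K →+* K := iterateFrobenius K 2 (m + 1)
  have hθt : ∀ t, θ t = t ^ 2 ^ m := fun t => iterateFrobenius_def 2 m t
  have hψt : ∀ t, ψ t = t ^ 2 ^ (m + 1) := fun t => iterateFrobenius_def 2 (m + 1) t
  have hθ : Function.Surjective θ := Finite.surjective_of_injective (RingHom.injective _)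
  have hψ : Function.Surjective ψ := Finite.surjective_of_injective (RingHom.injective _)
  have h2 : ∀ t, ψ t = θ t ^ 2 := by
    intro t; rw [hψt, hθt, ← pow_mul, pow_succ]
  have hfr : ∀ t : K, t ^ 2 ^ (2 * m + 1) = t := by
    intro t
    have := FiniteField.pow_card t
    rwa [hK] at this
  have i1 : ∀ t, θ (ψ t) = t := by
    intro t
    rw [hψt, hθt, ← pow_mul, ← pow_add, show m + 1 + m = 2 * m + 1 by ring, hfr]
  have i2 : ∀ t, ψ (θ t) = t := by
    intro t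
    rw [hψt, hθt, ← pow_mul, ← pow_add, show m + (m + 1) = 2 * m + 1 by ring, hfr]
  have hG := Γ_eq (RR K) (H22.St.hmul_all _ memF4) θ ψ hθ hψ h2 i1 i2 hθt
  obtain ⟨a, ha, b, hb, h⟩ := two_gen (RR K) (H22.St.hmul_all _ memF4) θ ψ hθ hψ h2 i1 i2 hθt (by
    rw [hK']
    exact pow_dvd_pow 2 (show 2 ≤ 2 * m + 1 by omega))
  exact H45.TwG.final _ ((M_Γ (T (RR K) (H22.St.hmul_all _ memF4) θ ψ hθ hψ h2 i1 i2).tw).symm.trans hG)
    ha hb h

end final

end H45.TwGF
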